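import Cfsg.Agent.Sig.LT1
import Cfsg.Agent.ONan.Spread
import Cfsg.Agent.Classical.SLGen

/-! Large TI-subgroups: for `Lt V V'` the conjugates of `V` in `W = V V'` partition `W` and `⟨PP V, PP V'⟩`
induces `SL₂(|V|)` on `W` (`Lt.sl2`). -/

set_option linter.dupNamespace false
set_option linter.unusedSectionVars false
set_option linter.unusedVariables false

namespace Cfsg.Agent.Sig.LTI

open Subgroup Cfsg Cfsg.Agent.BG Cfsg.Agent.ONan
open scoped IsMulCommutative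

theorem field_lin {A ι : Type*} [AddCommGroup A] {Γ : ι → AddSubgroup A} {D : ι → AddSubgroup (AddMonoid.End A)}
    {Col : ι → ι → ι → Prop} (h : Spr Γ D Col) [Finite A] :
    ∃ (F : Type) (_ : Field F) (_ : Finite F) (_ : Module F A),
    (∀ x, ∀ m ∈ D x, ∀ (c : F) w, m (c • w) = c • m w) ∧
    (∀ x (c : F), ∀ u ∈ Γ x, c • u ∈ Γ x) ∧ ∀ x, ∀ u ∈ Γ x, u ≠ 0 → ∀ v ∈ Γ x, ∃ c : F, c • u = v := by
  let C := Subring.centralizer {m : AddMonoid.End A | ∃ x, m ∈ D x}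
  haveI : Finite (AddMonoid.End A) := Finite.of_injective _ (DFunLike.coe_injective (F := A →+ A))
  have cm : ∀ φ : C, ∀ x, ∀ m ∈ D x, ∀ w, m (φ.1 w) = φ.1 (m w) := fun φ x m hm w =>
    congrArg (fun f : AddMonoid.End A => f w) (φ.2 m ⟨x, hm⟩)
  have z1 : ∀ φ : C, ∀ x y, x ≠ y → ∀ u ∈ Γ y, u ≠ 0 → φ.1 u = 0 → ∀ v ∈ Γ x, φ.1 v = 0 := fun φ x y e u u1 u2 u3 v hv => by
    obtain ⟨m, hm, rfl⟩ := h.tr e v hv u u1 u2
    rw [← cm φ x m hm, u3, map_zero]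
  have z2 : ∀ φ : C, ∀ u, u ≠ 0 → φ.1 u = 0 → φ = 0 := fun φ u u2 u3 => Subtype.ext (AddMonoidHom.ext fun v => by
    obtain ⟨y, u1⟩ := h.cover u
    obtain ⟨x, hv⟩ := h.cover v
    by_cases e : x = y
    · obtain ⟨z, hz⟩ := h.two y
      obtain ⟨t, t1, t2⟩ := h.ne z
      exact z1 φ x z (e ▸ hz.symm) t t1 t2 (z1 φ z y hz u u1 u2 u3 t t1) v hv
    · exact z1 φ x y e u u1 u2 u3 v hv)
  obtain ⟨x, -⟩ := h.cover 0
  obtain ⟨u, -, u2⟩ := h.ne x
  haveI : Nontrivial C := ⟨1, 0, fun e => u2 (congrArg (fun φ : C => φ.1 u) e)⟩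
  haveI : NoZeroDivisors C := ⟨fun {a b} e => by
    by_cases e' : b.1 u = 0
    exacts [Or.inr (z2 b u u2 e'), Or.inl (z2 a _ e' (congrArg (fun φ : C => φ.1 u) e))]⟩
  haveI : IsDomain C := NoZeroDivisors.to_isDomain C
  letI := (Finite.isDomain_to_isField C).toField
  let ι := Shrink.ringEquiv.{0} C
  letI : Module (Shrink.{0} C) A := Module.compHom A (C.subtype.comp ι.toRingHom)
  refine ⟨Shrink.{0} C, inferInstance, inferInstance, inferInstance, fun x m hm c w => cm (ι c) x m hm w,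
    fun x c u hu => ?_, fun x u u1 u2 v hv => ?_⟩
  · obtain ⟨y, hy⟩ := h.two x
    obtain ⟨t, t1, t2⟩ := h.ne y
    obtain ⟨m, hm, rfl⟩ := h.tr hy.symm u hu t t1 t2
    change (ι c).1 (m t) ∈ Γ x
    exact cm (ι c) x m hm t ▸ h.img m hm _
  · obtain ⟨φ, h1, h2⟩ := h.exists_scal x u1 u2 hv
    refine ⟨ι.symm ⟨φ, fun m ⟨y, hm⟩ => h1 y m hm⟩, ?_⟩
    change (ι (ι.symm _)).1 u = v
    rwa [ι.apply_symm_apply]

variable {G : Type*} [Group G] [Finite G] {V V' U U' W : Subgroup G} {a b c g p r u v w x y : G}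

theorem sup_ind {A B : Subgroup G} (K : Subgroup (A ⊔ B : Subgroup G)) (h1 : ∀ g : (A ⊔ B : Subgroup G), g.1 ∈ A → g ∈ K)
    (h2 : ∀ g : (A ⊔ B : Subgroup G), g.1 ∈ B → g ∈ K) (g : (A ⊔ B : Subgroup G)) : g ∈ K := by
  obtain ⟨k, hk, e⟩ := (sup_le (fun a ha => ⟨⟨a, mem_sup_left ha⟩, h1 _ ha, rfl⟩)
    (fun a ha => ⟨⟨a, mem_sup_right ha⟩, h2 _ ha, rfl⟩) : A ⊔ B ≤ K.map (A ⊔ B).subtype) g.2
  rwa [← Subtype.ext e]

section act
variable [IsMulCommutative W]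

def vl (w : Additive W) : G := w.toMul.1

theorem vl_inj {s t : Additive W} (e : vl s = vl t) : s = t := Additive.toMul.injective (Subtype.ext e)
theorem vl_mem (s : Additive W) : vl s ∈ W := s.toMul.2
theorem vl_add (s t : Additive W) : vl (s + t) = vl s * vl t := rfl
theorem vl_sub (s t : Additive W) : vl (s - t) = vl s * (vl t)⁻¹ := by rw [sub_eq_add_neg]; rfl
theorem vl_eq_one {s : Additive W} : vl s = 1 ↔ s = 0 := ⟨fun e => vl_inj e, fun e => e ▸ rfl⟩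

def act : N[W] →* AddMonoid.End (Additive W) where
  toFun g := MonoidHom.toAdditive (W.normalizerMonoidHom g).toMonoidHom
  map_one' := by rw [map_one]; rfl
  map_mul' g k := by rw [map_mul]; rfl

theorem vl_act (g : N[W]) (s : Additive W) : vl (act g s) = g * vl s * g.1⁻¹ := rfl

theorem vl_dd (g : N[W]) (s : Additive W) : vl ((act g - 1) s) = ⟪g.1, vl s⟫ := vl_sub _ _

theorem end_ext {m n : AddMonoid.End (Additive W)} (e : ∀ s, vl (m s) = vl (n s)) : m = n :=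
  AddMonoidHom.ext fun s => vl_inj (e s)

def Gam (W U : Subgroup G) [IsMulCommutative W] : AddSubgroup (Additive W) := (U.subgroupOf W).toAddSubgroup

theorem mem_Gam {s : Additive W} : s ∈ Gam W U ↔ vl s ∈ U := Iff.rfl

def Dd (hU : Hyp U) (hW : W ≤ PP U) : AddSubgroup (AddMonoid.End (Additive W)) where
  carrier := {m | ∃ p : N[W], p.1 ∈ PP U ∧ m = act p - 1}
  zero_mem' := ⟨1, one_mem _, by simp⟩
  add_mem' := by
    rintro _ _ ⟨p, hp, rfl⟩ ⟨r, hr, rfl⟩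
    refine ⟨r * p, mul_mem hr hp, end_ext fun s => ?_⟩
    have e := cen hr (hU.com hp (hW (vl_mem s)))
    change vl ((act p - 1) s + (act r - 1) s) = _
    rw [vl_add, vl_dd, vl_dd, vl_dd, coe_mul]
    calc _ = ⟪p.1, vl s⟫ * r.1 * vl s * r.1⁻¹ * (vl s)⁻¹ := by group
      _ = _ := by rw [← e]; group
  neg_mem' := by
    rintro _ ⟨p, hp, rfl⟩
    refine ⟨p⁻¹, inv_mem hp, end_ext fun s => ?_⟩
    have e := cen hp (inv_mem (hU.com hp (hW (vl_mem s))))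
    change (vl ((act p - 1) s))⁻¹ = _
    rw [vl_dd, vl_dd, coe_inv]
    calc _ = p.1⁻¹ * (p.1 * ⟪p.1, vl s⟫⁻¹) := by group
      _ = _ := by rw [e]; group

end act

namespace Lt
variable (h : Lt V V')
include h

theorem memW (hw : w ∈ V ⊔ V') : ∃ u ∈ V, ∃ a ∈ V', u * a = w :=
  let ⟨u, hu, a, ha, e⟩ := (mem_sup_norml (h.le.trans (PP_normal V).le)).1 hw
  ⟨u, hu, a, ha, e.symm⟩

theorem WP : V ⊔ V' ≤ PP V := sup_le h.hyp.le h.le

theorem PW : PP V ≤ N[V ⊔ V'] := le_norm_iff.2 fun p hp w hw => by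
  have := mul_mem (mem_sup_left (T := V') (h.hyp.com hp (h.WP hw))) hw
  convert this using 1; group

theorem commW : IsMulCommutative (V ⊔ V' : Subgroup G) :=
  (abelemY h.hyp.ab h.hyp'.ab (h.symm.trans inf_le_right)).abelian

theorem cardW : #(V ⊔ V' : Subgroup G) = #V * #V := by
  rw [card_sup_TI (.inr (h.le.trans (PP_normal V).le)) (eq_bot_iff.2 fun u hu => h.dis hu.1 hu.2), h.card]

theorem cover (hw : w ∈ V ⊔ V') (w1 : w ≠ 1) (s : ∃ g, U = BG.cj g V) (hu : w ∈ U) :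
    (w ∈ V ∧ U = V) ∨ ∃ b ∈ PP V, w ∈ BG.cj b V' ∧ U = BG.cj b V' := by
  obtain ⟨g, rfl⟩ := s
  obtain ⟨u, hu', a, ha, rfl⟩ := h.memW hw
  by_cases a1 : a = 1
  · rw [a1, mul_one] at hu w1 ⊢
    exact .inl ⟨hu', by_contra fun e => w1 (h.hyp.dis e hu' hu)⟩
  obtain ⟨b, hb, rfl⟩ := h.T ha a1 hu'
  have m : ⟪b, a⟫ * a ∈ BG.cj b V' := by convert conj_mem_cj b ha using 1; group
  refine .inr ⟨b, hb, m, ?_⟩
  obtain ⟨k, rfl⟩ := h.s
  by_contra e
  refine w1 ((h.hyp.cj g).dis (g := b * k * g⁻¹) ?_ hu ?_) <;> rw [← cj_mul, inv_mul_cancel_right, cj_mul]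
  exacts [Ne.symm e, m]

theorem cjW (hb : b ∈ PP V) : BG.cj b V' ≤ V ⊔ V' := cj_le_of_norm (h.PW hb) le_sup_right

theorem cover' (hw : w ∈ V ⊔ V') : ∃ U, (∃ g, U = BG.cj g V) ∧ U ≤ V ⊔ V' ∧ w ∈ U := by
  obtain ⟨u, hu, a, ha, rfl⟩ := h.memW hw
  by_cases a1 : a = 1
  · exact ⟨V, ⟨1, (cj_one _).symm⟩, le_sup_left, by rwa [a1, mul_one]⟩
  obtain ⟨b, hb, rfl⟩ := h.T ha a1 hu
  exact ⟨_, (h.cjN (PP_N hb)).s, h.cjW hb, by convert conj_mem_cj b ha using 1; group⟩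

theorem cases (s : ∃ g, U = BG.cj g V) (hU : U ≤ V ⊔ V') : U = V ∨ ∃ b ∈ PP V, U = BG.cj b V' := by
  obtain ⟨v, hv, v1⟩ := h.ex1
  obtain ⟨g, rfl⟩ := s
  have := conj_mem_cj g hv
  rcases h.cover (hU this) (by simpa using v1) ⟨g, rfl⟩ this with e | ⟨b, hb, -, e⟩
  exacts [.inl e.2, .inr ⟨b, hb, e⟩]

theorem WP' (s : ∃ g, U = BG.cj g V) (hU : U ≤ V ⊔ V') : V ⊔ V' ≤ PP U := by
  rcases h.cases s hU with rfl | ⟨b, hb, rfl⟩
  · exact h.WP
  · rw [PP_cj, ← mem_norm.1 (h.PW hb), sup_comm]; exact cj_mono b h.swap.WP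

theorem pair (s : ∃ g, U = BG.cj g V) (hU : U ≤ V ⊔ V') (s' : ∃ g, U' = BG.cj g V) (hU' : U' ≤ V ⊔ V') (ne : U ≠ U') :
    Lt U U' ∧ U ⊔ U' = V ⊔ V' := by
  have l : Lt U U' := by
    refine ⟨?_, ?_, ne.symm, hU'.trans (h.WP' s hU)⟩
    · obtain ⟨g, rfl⟩ := s; exact h.hyp.cj g
    · obtain ⟨g, rfl⟩ := s
      obtain ⟨k, rfl⟩ := s'
      exact ⟨k * g⁻¹, by rw [← cj_mul, inv_mul_cancel_right]⟩
  refine ⟨l, eq_of_le_of_card_ge (sup_le hU hU') ?_⟩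
  obtain ⟨g, rfl⟩ := s
  rw [l.cardW, h.cardW, card_cj]

/-- the conjugates of `V` in `V V'` -/
abbrev Ix (V V' : Subgroup G) := {U : Subgroup G // (∃ g, U = BG.cj g V) ∧ U ≤ V ⊔ V'}

theorem hypI (x : Ix V V') : Hyp x.1 := by obtain ⟨g, e⟩ := x.2.1; exact e ▸ h.hyp.cj g

theorem pairI {x y : Ix V V'} (ne : x ≠ y) : Lt x.1 y.1 ∧ x.1 ⊔ y.1 = V ⊔ V' :=
  h.pair x.2.1 x.2.2 y.2.1 y.2.2 fun e => ne (Subtype.ext e)

def iV (h : Lt V V') : Ix V V' := ⟨V, ⟨1, (cj_one _).symm⟩, le_sup_left⟩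
def iV' : Ix V V' := ⟨V', h.s, le_sup_right⟩

theorem two (x : Ix V V') : ∃ y, y ≠ x := by
  by_cases e : h.iV = x
  exacts [⟨h.iV', fun e' => h.ne (congrArg Subtype.val (e'.trans e.symm))⟩, ⟨_, e⟩]

theorem PWI (x : Ix V V') : PP x.1 ≤ N[V ⊔ V'] := by
  obtain ⟨y, e⟩ := h.two x
  obtain ⟨l, e'⟩ := h.pairI e.symm
  have := l.PW
  rwa [e'] at this

theorem spr [IsMulCommutative (V ⊔ V' : Subgroup G)] : Spr (fun x : Ix V V' => Gam (V ⊔ V') x.1)
    (fun x => Dd (h.hypI x) (h.WP' x.2.1 x.2.2)) fun _ _ _ => True where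
  cover w := let ⟨U, a, b, c⟩ := h.cover' (vl_mem w); ⟨⟨U, a, b⟩, c⟩
  disj hx hy ne := vl_eq_one.1 ((h.pairI ne).1.dis hx hy)
  ne x := by
    obtain ⟨y, e⟩ := h.two x
    obtain ⟨u, hu, u1⟩ := (h.pairI e.symm).1.ex1
    exact ⟨Additive.ofMul ⟨u, x.2.2 hu⟩, hu, fun e => u1 (vl_eq_one.2 e)⟩
  two := h.two
  img := by
    rintro x _ ⟨p, hp, rfl⟩ w
    rw [mem_Gam, vl_dd]; exact (h.hypI x).com hp (h.WP' x.2.1 x.2.2 (vl_mem w))
  kill := by
    rintro x _ ⟨p, hp, rfl⟩ w hw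
    rw [← vl_eq_one, vl_dd, cm_one]; exact cen hp hw
  conj := by
    rintro x _ ⟨p, hp, rfl⟩ y
    obtain ⟨g, e⟩ := y.2.1
    refine ⟨⟨BG.cj p.1 y.1, ⟨p * g, by rw [cj_mul, e]⟩, cj_le_of_norm p.2 y.2.2⟩, fun w hw => ?_, ?_⟩
    · rw [mem_Gam, add_comm, vl_add, vl_dd, inv_mul_cancel_right]; exact conj_mem_cj _ hw
    rintro _ ⟨r, hr, rfl⟩
    refine ⟨p * r * p⁻¹, (PP_cj p.1 y.1).ge (conj_mem_cj _ hr), ?_⟩
    have e : 1 - (act p - 1) = act p⁻¹ := end_ext fun s => by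
      have e := cen hp (inv_mem ((h.hypI x).com hp (h.WP' x.2.1 x.2.2 (vl_mem s))))
      change vl (s - (act p - 1) s) = _
      rw [sub_eq_neg_add, vl_add, vl_act]
      change (vl ((act p - 1) s))⁻¹ * _ = _
      rw [vl_dd, coe_inv]
      calc _ = p.1⁻¹ * (p.1 * ⟪p.1, vl s⟫⁻¹) * vl s := by group
        _ = _ := by rw [e]; group
    rw [e, add_sub_cancel, mul_sub, sub_mul, mul_one, ← map_mul, ← map_mul, ← map_mul, mul_inv_cancel, map_one]
  tr := by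
    intro x y ne u hu w hw w0
    obtain ⟨p, hp, e⟩ := (h.pairI ne).1.T hw (fun e => w0 (vl_eq_one.1 e)) hu
    exact ⟨_, ⟨⟨p, h.PWI x hp⟩, hp, rfl⟩, vl_inj ((vl_dd _ _).trans e)⟩
  col := by
    intro x y z xy xz _
    obtain ⟨l, e⟩ := h.pairI xy
    rcases l.cases (h.pairI xz).1.s (z.2.2.trans e.ge) with e' | ⟨b, hb, e'⟩
    · exact absurd e' (h.pairI xz).1.ne
    refine ⟨_, ⟨⟨b, h.PWI x hb⟩, hb, rfl⟩, fun w hw => ?_⟩
    rw [mem_Gam, add_comm, vl_add, vl_dd, inv_mul_cancel_right, e']; exact conj_mem_cj _ hw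
  tri _ hn := absurd trivial hn
  s1 _ _ := trivial
  s2 _ _ _ := trivial

theorem sl2 (hN : (C[V ⊔ V'].subgroupOf (PP V ⊔ PP V')).Normal) : ∃ (F : Type) (_ : Field F) (_ : Fintype F),
    Fintype.card F = #V ∧ Nonempty ((PP V ⊔ PP V' : Subgroup G) ⧸ C[V ⊔ V'].subgroupOf (PP V ⊔ PP V') ≃*
      Matrix.SpecialLinearGroup (Fin 2) F) := by
  classical
  haveI := h.commW
  obtain ⟨F, _, _, _, lin, sm, ln⟩ := field_lin h.spr
  haveI := Fintype.ofFinite F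
  obtain ⟨e1, m1, n1⟩ := h.spr.ne h.iV
  obtain ⟨e2, m2, n2⟩ := h.spr.ne h.iV'
  have ne : h.iV ≠ h.iV' := fun e => h.ne (congrArg Subtype.val e).symm
  refine ⟨F, inferInstance, inferInstance, ?_, ?_⟩
  · rw [← Nat.card_eq_fintype_card]
    refine Nat.card_congr (Equiv.ofBijective (fun c => ⟨vl (c • e1), sm _ c _ m1⟩) ⟨fun c d e => ?_, fun v => ?_⟩)
    · have := congrArg Subtype.val e
      exact smul_left_injective F n1 (vl_inj this)
    · obtain ⟨c, e⟩ := ln _ _ m1 n1 (Additive.ofMul ⟨v.1, mem_sup_left v.2⟩) v.2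
      have := congrArg vl e
      exact ⟨c, Subtype.ext this⟩
  have hH : PP V ⊔ PP V' ≤ N[V ⊔ V'] := sup_le (h.PWI h.iV) (h.PWI h.iV')
  let ac := act.comp (inclusion hH)
  have l1 : ∀ (x : Ix V V') (g : N[V ⊔ V']), g.1 ∈ PP x.1 → ∀ (c : F) w, act g (c • w) = c • act g w :=
    fun x g hg c w => by
      have : act g (c • w) - c • w = c • (act g w - w) := lin x _ ⟨g, hg, rfl⟩ c w
      rwa [smul_sub, sub_left_inj] at this
  have l2 : ∀ g, ∀ (c : F) w, ac g (c • w) = c • ac g w := sup_ind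
    { carrier := {g | ∀ (c : F) w, ac g (c • w) = c • ac g w}
      one_mem' := fun c w => by rw [map_one]; rfl
      mul_mem' := fun {a b} ha hb c w => by
        rw [map_mul]; change ac a (ac b _) = c • ac a (ac b _); rw [hb, ha]
      inv_mem' := fun {a} ha c w => by
        have e : ∀ t, ac a⁻¹ (ac a t) = t := fun t => by
          change (ac a⁻¹ * ac a) t = t; rw [← map_mul, inv_mul_cancel, map_one]; rfl
        have e' : ∀ t, ac a (ac a⁻¹ t) = t := fun t => by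
          change (ac a * ac a⁻¹) t = t; rw [← map_mul, mul_inv_cancel, map_one]; rfl
        rw [← e (c • ac a⁻¹ w), ha, e'] }
    (fun g hg => l1 h.iV _ hg) fun g hg => l1 h.iV' _ hg
  let ψ : (PP V ⊔ PP V' : Subgroup G) →* Module.End F (Additive (V ⊔ V' : Subgroup G)) :=
    { toFun := fun g => { toFun := ac g, map_add' := map_add _, map_smul' := l2 g }
      map_one' := LinearMap.ext fun w => by change ac 1 w = w; rw [map_one]; rfl
      map_mul' := fun a b => LinearMap.ext fun w => by change ac (a * b) w = ac a (ac b w); rw [map_mul]; rfl }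
  let B : Module.Basis (Fin 2) F (Additive (V ⊔ V' : Subgroup G)) := Module.Basis.mk (v := ![e1, e2])
    (LinearIndependent.pair_iff.2 fun s t e => by
      have := h.spr.disj (sm _ s _ m1) (by rw [eq_neg_of_add_eq_zero_left e]; exact neg_mem (sm _ t _ m2)) ne
      rw [this, zero_add] at e
      exact ⟨(smul_eq_zero.1 this).resolve_right n1, (smul_eq_zero.1 e).resolve_right n2⟩)
    fun w _ => by
      obtain ⟨u, hu, a, ha, e⟩ := h.memW (vl_mem w)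
      obtain ⟨c, e1⟩ := ln _ _ m1 n1 (Additive.ofMul ⟨u, mem_sup_left hu⟩) hu
      obtain ⟨d, e2⟩ := ln _ _ m2 n2 (Additive.ofMul ⟨a, mem_sup_right ha⟩) ha
      rw [Matrix.range_cons_cons_empty, Submodule.mem_span_pair]
      exact ⟨c, d, vl_inj (by rw [e1, e2, ← e]; rfl)⟩
  have B0 : B 0 = e1 := by simp [B]
  have B1 : B 1 = e2 := by simp [B]
  let m := (LinearMap.toMatrixAlgEquiv B).toRingEquiv.toMonoidHom.comp ψ
  have mm : ∀ g i j, m g i j = B.repr (ac g (B j)) i := fun g i j => LinearMap.toMatrixAlgEquiv_apply B _ i j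
  have t1 : ∀ g c, ac g e1 = e1 → ac g e2 = e2 + c • e1 → m g = Matrix.transvection 0 1 c := fun g c a b => by
    rw [← B0] at a; rw [← B0, ← B1] at b
    ext i j; fin_cases i <;> fin_cases j <;> simp [mm, a, b, Matrix.transvection]
  have t2 : ∀ g c, ac g e2 = e2 → ac g e1 = e1 + c • e2 → m g = Matrix.transvection 1 0 c := fun g c a b => by
    rw [← B1] at a; rw [← B0, ← B1] at b
    ext i j; fin_cases i <;> fin_cases j <;> simp [mm, a, b, Matrix.transvection]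
  have k1 : ∀ (x : Ix V V') (g : (PP V ⊔ PP V' : Subgroup G)), g.1 ∈ PP x.1 → ∀ w ∈ Gam (V ⊔ V') x.1, ac g w = w :=
    fun x g hg w hw => sub_eq_zero.1 (h.spr.kill _ ⟨inclusion hH g, hg, rfl⟩ w hw)
  have k2 : ∀ (x : Ix V V') (g : (PP V ⊔ PP V' : Subgroup G)), g.1 ∈ PP x.1 → ∀ u ∈ Gam (V ⊔ V') x.1, u ≠ 0 →
      ∀ w, ∃ c : F, ac g w = w + c • u := fun x g hg u hu u0 w => by
    obtain ⟨c, e⟩ := ln _ _ hu u0 _ (h.spr.img _ ⟨inclusion hH g, hg, rfl⟩ w)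
    exact ⟨c, by rw [e]; exact (add_sub_cancel _ _).symm⟩
  have k3 : ∀ x y : Ix V V', x ≠ y → PP x.1 ≤ PP V ⊔ PP V' → ∀ u ∈ Gam (V ⊔ V') x.1, ∀ w ∈ Gam (V ⊔ V') y.1, w ≠ 0 →
      ∃ g : (PP V ⊔ PP V' : Subgroup G), g.1 ∈ PP x.1 ∧ ac g w = w + u := fun x y xy le u hu w hw w0 => by
    obtain ⟨_, ⟨p, hp, rfl⟩, e⟩ := h.spr.tr xy u hu w hw w0
    exact ⟨⟨p, le hp⟩, hp, by rw [← e]; exact (add_sub_cancel _ _).symm⟩
  have dt : ∀ g, (m g).det = 1 := fun g => by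
    have := sup_ind ((Matrix.detMonoidHom.comp m).toHomUnits.ker) (fun g hg => ?_) (fun g hg => ?_) g
    · exact congrArg Units.val this
    · obtain ⟨c, e⟩ := k2 h.iV g hg e1 m1 n1 e2
      exact Units.ext ((congrArg Matrix.det (t1 g c (k1 h.iV g hg e1 m1) e)).trans
        (Matrix.det_transvection_of_ne _ _ (by decide) c))
    · obtain ⟨c, e⟩ := k2 h.iV' g hg e2 m2 n2 e1
      exact Units.ext ((congrArg Matrix.det (t2 g c (k1 h.iV' g hg e2 m2) e)).trans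
        (Matrix.det_transvection_of_ne _ _ (by decide) c))
  let φ : (PP V ⊔ PP V' : Subgroup G) →* Matrix.SpecialLinearGroup (Fin 2) F :=
    { toFun := fun g => ⟨m g, dt g⟩
      map_one' := Subtype.ext (map_one m)
      map_mul' := fun a b => Subtype.ext (map_mul m a b) }
  have sj : Function.Surjective φ := MonoidHom.range_eq_top.1 (Classical.eq_top_of_transvection_mem _ fun i j ij c => by
    fin_cases i <;> fin_cases j
    · exact absurd rfl ij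
    · obtain ⟨g, hg, e⟩ := k3 _ _ ne le_sup_left _ (sm _ c _ m1) _ m2 n2
      exact ⟨g, Subtype.ext (t1 g c (k1 h.iV g hg e1 m1) e)⟩
    · obtain ⟨g, hg, e⟩ := k3 _ _ ne.symm le_sup_right _ (sm _ c _ m2) _ m1 n1
      exact ⟨g, Subtype.ext (t2 g c (k1 h.iV' g hg e2 m2) e)⟩
    · exact absurd rfl ij)
  have ker : C[V ⊔ V'].subgroupOf (PP V ⊔ PP V') = φ.ker := by
    ext g
    rw [mem_subgroupOf, MonoidHom.mem_ker, mem_cent]
    refine Iff.trans ?_ (⟨fun e : m g = 1 => Subtype.ext e, fun e => congrArg Subtype.val e⟩ : m g = 1 ↔ φ g = 1)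
    change _ ↔ LinearMap.toMatrixAlgEquiv B (ψ g) = 1
    rw [EmbeddingLike.map_eq_one_iff, LinearMap.ext_iff]
    refine ⟨fun e w => vl_inj ?_, fun e w hw => ?_⟩
    · change g.1 * vl w * g.1⁻¹ = vl w
      rw [← e _ (vl_mem w), mul_inv_cancel_right]
    · have : g.1 * w * g.1⁻¹ = w := congrArg vl (e (Additive.ofMul ⟨w, hw⟩))
      rw [← mul_inv_eq_iff_eq_mul.1 this]
  exact ⟨(QuotientGroup.quotientMulEquivOfEq ker).trans (QuotientGroup.quotientKerEquivOfSurjective φ sj)⟩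

end Lt

end Cfsg.Agent.Sig.LTI
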