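import Cfsg.Agent.Sig.GA7

/-! Goldschmidt's bound `#T ≤ 128` for finite amalgams of type `(S₃, S₃)`. -/

set_option linter.unusedSectionVars false
set_option linter.unusedVariables false
set_option linter.unusedSimpArgs false

namespace Cfsg.Agent.Sig.GA
open Subgroup Cfsg MulAction Cfsg.Agent.Loc
open scoped commutatorElement

variable {G : Type*} [Group G] [Finite G] {V : Type*} [MulAction G V] {Γ : SimpleGraph V} {A B T : Subgroup G}

local notation "𝐆" => stabilizer G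
local notation "𝐐" => Qv G
local notation "𝐙" => Zv G
local notation "𝐕" => Up Γ (Zv G)

namespace MG
variable (h : MG G Γ)
include h

theorem crit : ∃ a c : V, ¬ 𝐙 a ≤ 𝐐 c := by
  by_contra hcon
  push Not at hcon
  obtain ⟨a⟩ := h.conn.nonempty
  obtain ⟨b, hb⟩ := h.nbr a
  have h1 : ∀ c : V, 𝐆 c ≤ normalizer ((⨆ v : V, 𝐙 v : Subgroup G) : Set G) := fun c =>
    le_normalizer_of_cj_le fun g _ => cj_le_iff.2 (iSup_le fun v => cj_le_iff.1 (by
      rw [← Zv_smul]; exact le_iSup (fun v => 𝐙 v) _))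
  exact h.Z_ne_bot a (le_bot_iff.1 ((le_iSup (fun v => 𝐙 v) a).trans
    (h.core hb (iSup_le fun v => (hcon v a).trans (h.QT hb)) (h1 a) (h1 b)).le))

theorem main : ∃ a : V, Nat.card (𝐐 a) ≤ 64 := by
  classical
  obtain ⟨a, c, hac⟩ := h.crit
  have ex : ∃ n, ∃ a c : V, Γ.dist a c = n ∧ ¬ 𝐙 a ≤ 𝐐 c := ⟨_, a, c, rfl, hac⟩
  obtain ⟨a, c, hd, cr⟩ := Nat.find_spec ex
  have hb : Cb Γ G (Nat.find ex) := fun a c hlt => by_contra fun e => Nat.find_min ex hlt ⟨a, c, rfl, e⟩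
  generalize Nat.find ex = n at hd hb
  have z0 : ∀ {a c : V}, Γ.dist a c = 0 → a = c := fun e => h.conn.dist_eq_zero_iff.1 e
  rcases n with _ | n
  · obtain rfl := z0 hd; exact absurd (h.ZQ a) cr
  obtain ⟨a1, h1, d1⟩ := h.next hd
  have A : IsA G a := by
    by_contra B
    exact cr ((h.Zle (h.A_of h1.symm B) h1.symm).trans (hb a1 c (by omega)))
  have B1 := h.B_of h1 A
  have cr1 : ¬ 𝐕 a1 ≤ 𝐐 c := fun e => cr ((le_Up h1.symm).trans e)
  rcases n with _ | n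
  · obtain rfl := z0 d1; exact absurd (h.VQ a1) cr1
  obtain ⟨a2, h2, d2⟩ := h.next d1
  have A2 := h.A_of h2.symm B1
  rcases n with _ | n
  · obtain rfl := z0 d2; exact ⟨a2, h.b2 A2 h2.symm cr1⟩
  obtain ⟨a3, h3, d3⟩ := h.next d2
  have B3 := h.B_of h3 A2
  rcases n with _ | n
  · obtain rfl := z0 d3; exact ⟨a2, h.O3 hb A2 h2.symm h3 cr1⟩
  obtain ⟨a4, h4, d4⟩ := h.next d3
  have A4 := h.A_of h4.symm B3
  rcases n with _ | n
  · obtain rfl := z0 d4; exact (h.E4 hb A A4 h1 h4.symm h3.symm h2.symm cr).elim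
  obtain ⟨a5, h5, d5⟩ := h.next d4
  have B5 := h.B_of h5 A4
  rcases n with _ | n
  · obtain rfl := z0 d5; exact (h.O5 hb B1 h2 h3 h4 h5 cr1).elim
  obtain ⟨a6, h6, d6⟩ := h.next d5
  have A6 := h.A_of h6.symm B5
  rcases n with _ | n
  · obtain rfl := z0 d6; exact (h.E6 hb A A6 h1 h2 h6.symm h5.symm h4.symm h3.symm cr).elim
  exfalso
  by_cases C : IsA G c
  · obtain ⟨c1, k1, e1⟩ := h.next (SimpleGraph.dist_comm.trans d2)
    obtain ⟨c2, k2, e2⟩ := h.next e1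
    obtain ⟨c3, k3, e3⟩ := h.next e2
    exact h.E8 (m := n + 2) hb (by omega) A C h1 h2 k1 k2 k3 (D.symm e3.le) cr
  obtain ⟨c1, k1, e1⟩ := h.next (SimpleGraph.dist_comm.trans d5)
  obtain ⟨c2, k2, e2⟩ := h.next e1
  refine h.O7 (m := n) hb ?_ B1 C h2 h3 h4 h5 k1 k2 (D.symm e2.le) cr1
  rintro rfl
  obtain ⟨a7, h7, d7⟩ := h.next d6
  obtain ⟨a8, h8, d8⟩ := h.next d7
  obtain rfl := z0 d8
  exact C (h.A_of h8.symm (h.B_of h7 A6))

end MG

theorem cent_iff (h : S3 T A) :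
    A ≤ centralizer (sylowCenterClosure 2 A : Set G) ↔ A ≤ centralizer (OZ T : Set G) :=
  ⟨fun e => e.trans (centralizer_anti h.syl.le_sylowCenterClosure), fun e => e.trans
    (centralizer_anti (h.syl.sylowCenterClosure_le le_rfl (le_normalizer_of_le_centralizer e)))⟩

theorem mixed_top (hgen : A ⊔ B = ⊤) (hA : S3 (A ⊓ B) A) (hB : S3 (A ⊓ B) B) (cA : ChP 2 A) (cB : ChP 2 B)
    (hx : A ≤ centralizer (OZ (A ⊓ B) : Set G) ↔ ¬ B ≤ centralizer (OZ (A ⊓ B) : Set G))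
    (hc : ∀ N ≤ A ⊓ B, A ≤ normalizer (N : Set G) → B ≤ normalizer (N : Set G) → N = ⊥) :
    Nat.card (A ⊓ B : Subgroup G) ≤ 128 := by
  rw [← cent_iff hA, ← cent_iff hB] at hx
  have h : MG G (cosetGraph A B) := by
    refine ⟨coset_connected hgen, fun g _ _ h => coset_adj_smul h g, coset_neighbours_transitive, fun h => ?_,
      fun a => ?_, fun h N h1 h2 h3 => ?_, exists_coset_adj, fun h => ?_, fun h k => ?_⟩
    · obtain ⟨x, ⟨e1, e2⟩ | ⟨e1, e2⟩⟩ := exists_stabilizer_of_adj h <;> rw [Tv, e1, e2, ← cj_inf]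
      · exact hA.conj x
      · rw [inf_comm]; exact hB.conj x
    · obtain ⟨b, h⟩ := exists_coset_adj a
      obtain ⟨x, ⟨e1, e2⟩ | ⟨e1, e2⟩⟩ := exists_stabilizer_of_adj h <;> rw [e1]
      exacts [cA.conj x, cB.conj x]
    · obtain ⟨x, he⟩ := exists_stabilizer_of_adj h
      have key : ∀ {C : Subgroup G}, cj x C ≤ normalizer (N : Set G) →
          C ≤ normalizer ((cj x⁻¹ N : Subgroup G) : Set G) := fun h => by rwa [← cj_normalizer, ← cj_le_iff]
      rw [← cj_eq_bot_iff (g := x⁻¹)]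
      rcases he with ⟨e1, e2⟩ | ⟨e1, e2⟩ <;> rw [Tv, e1, e2, ← cj_inf, le_cj_iff] at h1 <;> rw [e1] at h2 <;>
        rw [e2] at h3
      · exact hc _ h1 (key h2) (key h3)
      · exact hc _ (h1.trans (inf_comm _ _).le) (key h3) (key h2)
    · obtain ⟨x, ⟨e1, e2⟩ | ⟨e1, e2⟩⟩ := exists_stabilizer_of_adj h <;>
        rw [IsA, IsA, Zv, Zv, e1, e2, ← cj_sylowCenterClosure, ← cj_sylowCenterClosure, ← cj_centralizer,
          ← cj_centralizer, cj_le_cj_iff, cj_le_cj_iff] <;> tauto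
    · obtain ⟨x, ⟨rfl, rfl⟩ | ⟨rfl, rfl⟩⟩ := coset_adj_iff.1 h <;>
        obtain ⟨y, ⟨rfl, rfl⟩ | ⟨rfl, rfl⟩⟩ := coset_adj_iff.1 k <;> refine ⟨y * x⁻¹, ?_⟩ <;>
        rw [smul_inl_mk, smul_inr_mk, inv_mul_cancel_right] <;> simp
  obtain ⟨a, ha⟩ := h.main
  obtain ⟨b, hb⟩ := h.nbr a
  have k := (h.loc hb).cardT
  have k2 : Nat.card (Tv G a b) = Nat.card (A ⊓ B : Subgroup G) := by
    obtain ⟨x, ⟨e1, e2⟩ | ⟨e1, e2⟩⟩ := exists_stabilizer_of_adj hb <;> rw [Tv, e1, e2, ← cj_inf, card_cj]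
    rw [inf_comm]
  simp only [Qv] at ha
  omega

theorem not_chp (hA : S3 T A) (hB : S3 T B) (cA : ¬ ChP 2 A)
    (hc : ∀ N ≤ T, A ≤ normalizer (N : Set G) → B ≤ normalizer (N : Set G) → N = ⊥) : Nat.card T ≤ 128 := by
  have h1 : pResidualOf 2 A ≤ centralizer (pCoreOf 2 A : Set G) :=
    hA.res (le_normalizer_centralizer (le_normalizer_pCoreOf _ _)) inf_le_left inf_le_right cA
  let N : Subgroup G := ⨅ g : B, cj (g : G) (pCoreOf 2 A)
  have nB : B ≤ normalizer (N : Set G) := le_normalizer_of_cj_le fun g hg => le_iInf fun k =>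
    cj_le_iff.2 (iInf_le_of_le ⟨g⁻¹ * k, mul_mem (inv_mem hg) k.2⟩ (cj_cj _ _ _).ge)
  have NQ : N ≤ pCoreOf 2 A := iInf_le_of_le 1 (cj_one _).le
  have h2 : N = ⊥ := hc N (NQ.trans hA.Qle) (by
    rw [← hA.sup_res]
    exact sup_le (hB.syl.le.trans nB) (le_normalizer_of_le_centralizer (h1.trans (centralizer_anti NQ)))) nB
  have ix : ∀ g ∈ B, ∀ X ≤ pCoreOf 2 B, Nat.card X ≤ 2 * Nat.card (X ⊓ cj g (pCoreOf 2 A) : Subgroup G) := by
    intro g hg X hX
    have k : Ix2 (pCoreOf 2 A) T := fun u hu v hv => mul_mem_of_idx2 hA.idx2 hu hv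
    have k2 := (hB.conj g).Qle
    rw [cj_eq_of_mem hg] at k2
    exact Ix2.card fun u hu v hv => k.cj g u (k2 (hX hu)) v (k2 (hX hv))
  obtain ⟨e, he, h3⟩ := hB.exists_three
  have n1 := hB.not_mem_three h3
  have n2 : e * e ∉ T := hB.not_mem_three (by
    rw [← pow_two, (Nat.Coprime.orderOf_pow (by rw [h3]; norm_num)), h3])
  have i1 := ix 1 (one_mem _) _ le_rfl
  have i2 := ix e he (pCoreOf 2 B ⊓ cj 1 (pCoreOf 2 A)) inf_le_left
  have i3 := ix (e * e) (mul_mem he he) (pCoreOf 2 B ⊓ cj 1 (pCoreOf 2 A) ⊓ cj e (pCoreOf 2 A))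
    (inf_le_left.trans inf_le_left)
  have key : ∀ u g : G, u⁻¹ * g ∈ T → cj u (pCoreOf 2 A) ≤ cj g (pCoreOf 2 A) := fun u g k => by
    rw [← mul_inv_cancel_left u g, ← cj_cj, mem_normalizer_iff_cj.1 (le_normalizer_pCoreOf _ _ (hA.syl.le k))]
  have i4 : pCoreOf 2 B ⊓ cj 1 (pCoreOf 2 A) ⊓ cj e (pCoreOf 2 A) ⊓ cj (e * e) (pCoreOf 2 A) ≤ ⊥ := by
    rw [← h2]
    refine le_iInf fun g => ?_
    rcases three_cosets hB.idx he (mul_mem he he) g.2 n1 n2 (by rwa [inv_mul_cancel_left]) with k | k | k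
    · exact inf_le_left.trans (inf_le_left.trans (inf_le_right.trans (key _ _ (by rwa [inv_one, one_mul]))))
    · exact inf_le_left.trans (inf_le_right.trans (key _ _ k))
    · exact inf_le_right.trans (key _ _ k)
  have i5 := card_le_of_le i4
  rw [card_bot] at i5
  have := hB.cardT
  omega

theorem bound (hA : S3 T A) (hB : S3 T B)
    (hc : ∀ N ≤ T, A ≤ normalizer (N : Set G) → B ≤ normalizer (N : Set G) → N = ⊥) : Nat.card T ≤ 128 := by
  by_cases cA : ChP 2 A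
  swap
  · exact not_chp hA hB cA hc
  by_cases cB : ChP 2 B
  swap
  · exact not_chp hB hA cB fun N h1 h2 h3 => hc N h1 h3 h2
  by_cases hx : A ≤ centralizer (OZ T : Set G) ↔ ¬ B ≤ centralizer (OZ T : Set G)
  swap
  · by_cases e : A ≤ centralizer (OZ T : Set G)
    · have e' : B ≤ centralizer (OZ T : Set G) := by tauto
      exact absurd (hc _ ((omegaOne_le _ _).trans inf_le_left) (le_normalizer_of_le_centralizer e)
        (le_normalizer_of_le_centralizer e')) (omegaOne_center_ne_bot hA.syl.pg fun k => hA.not_le (k.le.trans bot_le))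
    · have := (small ⟨hA, cA, e⟩ ⟨hB, cB, by tauto⟩ hc).1.2.1
      have := hA.cardT
      omega
  have hT : T = A ⊓ B := by
    refine ((eq_or_eq_of_relIndex_prime Nat.prime_three hA.idx (le_inf hA.syl.le hB.syl.le)
      inf_le_left).resolve_right fun e => ?_).symm
    have e1 : A = B := eq_of_le_of_card_ge (inf_eq_left.1 e) (by
      have := hA.card; have := hA.cardT; have := hB.card; have := hB.cardT; omega)
    exact cA.pCoreOf_ne_bot (fun e => hA.not_le' (e.le.trans bot_le))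
      (hc _ hA.Qle (le_normalizer_pCoreOf _ _) (e1 ▸ le_normalizer_pCoreOf _ _))
  subst hT
  set H := A ⊔ B
  have i := H.subtype_injective
  have eA : (A.subgroupOf H).map H.subtype = A := map_subgroupOf_eq_of_le le_sup_left
  have eB : (B.subgroupOf H).map H.subtype = B := map_subgroupOf_eq_of_le le_sup_right
  have eT : (A.subgroupOf H ⊓ B.subgroupOf H).map H.subtype = A ⊓ B := by rw [map_inf _ _ _ i, eA, eB]
  have := mixed_top (A := A.subgroupOf H) (B := B.subgroupOf H)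
    (by rw [← subgroupOf_sup le_sup_left le_sup_right, subgroupOf_self]) ((s3_map_iff i).1 (by rwa [eT, eA]))
    ((s3_map_iff i).1 (by rwa [eT, eB])) ((ChP.map_equiv i).1 (by rwa [eA])) ((ChP.map_equiv i).1 (by rwa [eB]))
    (by rwa [← map_le_centralizer_iff i, ← map_le_centralizer_iff i, map_OZ i, eT, eA, eB])
    fun N h1 h2 h3 => (map_eq_bot_iff_of_injective _ i).1 (hc _
      (eT ▸ map_mono h1) (eA ▸ (map_mono h2).trans (le_normalizer_map _)) (eB ▸ (map_mono h3).trans (le_normalizer_map _)))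
  rwa [← card_map_of_injective i, eT] at this

end Cfsg.Agent.Sig.GA
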