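import Cfsg.Agent.Sig.HH5
import Cfsg.Agent.Sig.PL

/-! Local criteria for membership in `O_{p'}(G)` and `O_{p',p}(G)` of a `p`-solvable group (`HH.mem_of_R1`,
`HH.mem_of_R2`), and Powell's theorem (`HH.powell`). -/

set_option linter.dupNamespace false
set_option linter.unusedSectionVars false
set_option linter.unusedVariables false

namespace Cfsg.Agent.Sig.HH
open Module Finset Subgroup Cfsg.Agent.BG
open scoped commutatorElement

variable {Γ H : Type*} [Group Γ] [Group H] {A B : Subgroup Γ} {b g z : Γ} {p : ℕ}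

/-- `g` lies in a `p'`-subgroup normalised by `b`. -/
def R1 (p : ℕ) (g b : Γ) : Prop := ∃ E : Subgroup Γ, g ∈ E ∧ b ∈ N[E] ∧ (#E).Coprime p

/-- `g` lies in a `p`-nilpotent subgroup normalised by `b`. -/
def R2 (p : ℕ) (g b : Γ) : Prop := ∃ K E : Subgroup Γ, g ∈ K ∧ b ∈ N[K] ∧ b ∈ N[E] ∧ K ≤ N[E] ∧ (#E).Coprime p ∧
  ∀ x ∈ K, ∃ i, x ^ p ^ i ∈ E

theorem mem_norm_map (f : Γ →* H) (h : b ∈ N[A]) : f b ∈ N[A.map f] :=
  norms_map f (zpowers_le.2 h) (mem_map_of_mem f (mem_zpowers b))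

theorem norms_comap (f : H →* Γ) (h : B ≤ N[A]) : B.comap f ≤ N[A.comap f] := fun x hx =>
  mem_normalizer_iff.2 fun y => by simpa using mem_normalizer_iff.1 (h hx) (f y)

theorem R1.map (f : Γ →* H) (h : R1 p g b) : R1 p (f g) (f b) :=
  let ⟨E, h1, h2, h3⟩ := h; ⟨_, mem_map_of_mem f h1, mem_norm_map f h2, h3.coprime_dvd_left (card_map_dvd E f)⟩

theorem R1.comap {f : H →* Γ} (hf : Function.Injective f) {g b : H} (h : R1 p (f g) (f b)) : R1 p g b :=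
  let ⟨E, h1, h2, h3⟩ := h
  ⟨E.comap f, h1, norms_comap f le_rfl h2, h3.coprime_dvd_left (card_comap_dvd_of_injective E f hf)⟩

theorem R2.map (f : Γ →* H) (h : R2 p g b) : R2 p (f g) (f b) := by
  obtain ⟨K, E, h1, h2, h3, h4, h5, h6⟩ := h
  refine ⟨_, _, mem_map_of_mem f h1, mem_norm_map f h2, mem_norm_map f h3, norms_map f h4,
    h5.coprime_dvd_left (card_map_dvd E f), ?_⟩
  rintro _ ⟨x, hx, rfl⟩
  exact (h6 x hx).imp fun i hi => ⟨_, hi, map_pow ..⟩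

theorem R2.comap {f : H →* Γ} (hf : Function.Injective f) {g b : H} (h : R2 p (f g) (f b)) : R2 p g b :=
  let ⟨K, E, h1, h2, h3, h4, h5, h6⟩ := h
  ⟨K.comap f, E.comap f, h1, norms_comap f le_rfl h2, norms_comap f le_rfl h3, norms_comap f h4,
    h5.coprime_dvd_left (card_comap_dvd_of_injective E f hf),
    fun x hx => (h6 _ hx).imp fun i hi => by rwa [mem_comap, map_pow]⟩

variable [Finite Γ] [hp : Fact p.Prime]

theorem R2.r1 (h : R2 p g b) (hz : z ∈ zpowers g) (h' : (orderOf z).Coprime p) : R1 p z b := by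
  obtain ⟨K, E, h1, h2, h3, h4, h5, h6⟩ := h
  obtain ⟨i, hi⟩ := h6 z (zpowers_le.2 h1 hz)
  exact ⟨E, mem_of_pow_mem_coprime (pow_orderOf_eq_one z) (h'.symm.pow_left i) hi, h3, h5⟩

theorem R1_of_mem (h : g ∈ pPrimeCore p Γ) (b : Γ) : R1 p g b :=
  ⟨_, h, norm_of_normal _ ⊤ trivial, Solv.coprime_card_pPrimeCore p Γ⟩

theorem R2_of_mem (h : g ∈ pPrimePCore p Γ) (b : Γ) : R2 p g b :=
  ⟨_, _, h, norm_of_normal _ ⊤ trivial, norm_of_normal _ ⊤ trivial, norm_of_normal _ _,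
    Solv.coprime_card_pPrimeCore p Γ, fun x hx => by
      obtain ⟨i, hi⟩ := Solv.isPGroup_pCore p _ ⟨_, hx⟩
      exact ⟨i, (QuotientGroup.eq_one_iff _).1 (congrArg Subtype.val hi)⟩⟩

theorem eq_one_of_R1 (hc : C[pCore p Γ] ≤ pCore p Γ) (h : ∀ b, R1 p g b) : g = 1 := by
  have hP := Solv.isPGroup_pCore p Γ
  have key : ∀ {E : Subgroup Γ}, (#E).Coprime p → E ⊓ pCore p Γ = ⊥ := fun h =>
    coprime_TI (pnat_coprime' ((p'nat_coprime hp.out).2 h) (IsPGroup.pi hP))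
  obtain ⟨E, h1, -, h2⟩ := h 1
  refine mem_bot.1 ((key h2).le ⟨h1, hc (mem_cent.2 fun v hv => ?_)⟩)
  obtain ⟨E, h1, h2, h3⟩ := h v
  rw [← commutatorElement_eq_one_iff_mul_comm]
  exact mem_bot.1 ((key h3).le ⟨commg_subr (zpowers_le.2 h2) (commutator_mem_commutator (mem_zpowers v) h1),
    commg_subl (norm_of_normal _ ⊤) (commutator_mem_commutator hv trivial)⟩)

theorem mem_of_R1 (hG : IsPSolvable p Γ) (h : ∀ b, R1 p g b) : g ∈ pPrimeCore p Γ :=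
  (QuotientGroup.eq_one_iff _).1 (eq_one_of_R1 (PLocal.centralizer_pCore_le_of_pSolv (PLocal.pSolv_quotient hG _)
    (Solv.pPrimeCore_quotient_pPrimeCore p Γ)) fun b => by
      obtain ⟨b, rfl⟩ := QuotientGroup.mk_surjective b
      exact (h b).map (QuotientGroup.mk' _))

theorem Frame.comm_of_R2 (hF : Frame p Γ) (h : ∀ b, R2 p z b) {k : Γ}
    (hk : (k : Γ ⧸ pCore p Γ) ∈ pPrimeCore p (Γ ⧸ pCore p Γ)) : ⁅z, k⁆ ∈ pCore p Γ := by
  have hP := Solv.isPGroup_pCore p Γ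
  have ab := hF.ab.abelian
  have hc := hF.cent
  have hπ := QuotientGroup.ker_mk' (pCore p Γ)
  change QuotientGroup.mk' _ k ∈ _ at hk
  have hN := Solv.coprime_card_pPrimeCore p (Γ ⧸ pCore p Γ)
  have nN := fun A => norm_of_normal (pPrimeCore p (Γ ⧸ pCore p Γ)) A
  have nV := fun A => norm_of_normal (pCore p Γ) A
  generalize pPrimeCore p (Γ ⧸ pCore p Γ) = N at hk hN nN
  generalize QuotientGroup.mk' (pCore p Γ) = π at hk hπ
  set V := pCore p Γ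
  set M := ⁅zpowers (π z), zpowers (π k)⁆ with hM
  have h1 : (#M).Coprime p :=
    hN.coprime_dvd_left (card_dvd_of_le ((commgS _ (zpowers_le.2 hk)).trans (commg_subr (nN _))))
  have h2 : ∀ v ∈ V, ∃ E : Subgroup Γ, (#V).Coprime #E ∧ z ∈ N[E] ∧ k * v ∈ N[E] ∧ V ⊔ E = M.comap π := fun v hv => by
    obtain ⟨K, E, k1, k2, k3, k4, k5, k6⟩ := h (k * v)
    have e : π (k * v) = π k := by rw [map_mul, hπ.ge hv, mul_one]
    refine ⟨E ⊓ M.comap π, (pnat_coprime (IsPGroup.pi hP) ((p'nat_coprime hp.out).2 k5)).coprime_dvd_right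
      (card_dvd_of_le inf_le_left), zpowers_le.1 (normsI (zpowers_le.2 (k4 k1)) (zpowers_le.2 (norms_comap π le_rfl
        (commg_norml _ _ (mem_zpowers _))))), zpowers_le.1 (normsI (zpowers_le.2 k3) (zpowers_le.2
        (norms_comap π le_rfl (by rw [mem_comap, e]; exact commg_normr _ _ (mem_zpowers _))))),
      le_antisymm (sup_le (hπ.ge.trans (ker_le_comap _ _)) inf_le_right) fun m hm => ?_⟩
    obtain ⟨x, hx, e1⟩ : π m ∈ K.map π := (commSg _ (zpowers_le.2 (mem_map_of_mem π k1))).trans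
      (commg_subl (zpowers_le.2 (e ▸ mem_norm_map π k2))) hm
    obtain ⟨i, hi⟩ := k6 x hx
    obtain ⟨y, hy, e2⟩ : π m ∈ E.map π := mem_of_pow_mem_coprime
      (congrArg Subtype.val (pow_card_eq_one' (x := (⟨_, hm⟩ : M)))) (h1.symm.pow_left i) ⟨_, hi, by rw [map_pow, e1]⟩
    rw [← inv_mul_cancel_right m y]
    exact mul_mem_sup (hπ.le (by rw [MonoidHom.mem_ker, map_mul, map_inv, e2, mul_inv_cancel]))
      ⟨hy, show π y ∈ M from e2 ▸ hm⟩
  obtain ⟨E, k1, k2, k3, k4⟩ := h2 1 (one_mem _)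
  rw [mul_one] at k3
  have k5 := coprime_abel_cent_TI (nV E) k1 ab
  have k6 := coprime_cent_prod (nV E) k1 (pgroup_sol hP)
  have k7 := commg_subl (nV E)
  have k8 : ∀ {x}, x ∈ N[E] → x ∈ N[⁅V, E⁆] := fun hx => zpowers_le.1 (normsR (nV _) (zpowers_le.2 hx))
  have k9 : ∀ {x}, x ∈ N[E] → x ∈ ⁅V, E⁆ → x = 1 := fun hx hx' =>
    mem_bot.1 (k5.le ⟨hx', ((coprime_norm_cent (nV E) k1).le ⟨k7 hx', hx⟩).2⟩)
  have k10 : ∀ {x a}, x ∈ N[E] → a ∈ ⁅V, E⁆ → x⁻¹ * a * x ∈ ⁅V, E⁆ := fun hx ha => by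
    simpa using (mem_normalizer_iff.1 (inv_mem (k8 hx)) _).1 ha
  have h3 : ⁅V, E⁆ ≤ C1[z] := inf_eq_left.1 (eq_of_le_of_card_ge inf_le_left (Nat.card_le_card_of_surjective
    (fun a : ↥(⁅V, E⁆ ⊓ C1[z]) => (⟨k⁻¹ * a * k * (a : Γ)⁻¹, mul_mem (k10 k3 a.2.1) (inv_mem a.2.1)⟩ : ↥⁅V, E⁆))
    fun v => by
      obtain ⟨E', l1, l2, l3, l4⟩ := h2 v (k7 v.2)
      obtain ⟨u, hu, rfl⟩ := SchurZassenhaus_trans (nV E) (k4.trans l4.symm) k1 l1 (.inl (pgroup_sol hP))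
      obtain ⟨a, ha, c, hc, rfl⟩ := (mem_sup_normr (k7.trans (sub_abelian_norm ab inf_le_left))).1 (k6.ge hu)
      rw [cj_mul, cj_of_cent hc.2, N_cj, mem_cj] at l2 l3
      have l5 := k9 (mul_mem (inv_mem k2) l2) (by
        simpa only [mul_assoc] using mul_mem (k10 k2 (inv_mem ha)) ha)
      have l6 := k9 (mul_mem (inv_mem k3) l3) (by
        simpa only [mul_assoc] using mul_mem (mul_mem (k10 k3 (inv_mem ha)) v.2) ha)
      refine ⟨⟨a, ha, mem_cent1.2 ?_⟩, Subtype.ext ?_⟩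
      · rw [← mul_one (a * z), ← l5]; group
      · change k⁻¹ * a * k * a⁻¹ = v
        rw [← mul_one (k⁻¹ * a * k), ← l6]; group))
  have h4 : M.comap π = ⁅zpowers z, zpowers k⁆ ⊔ V := by
    rw [hM, ← MonoidHom.map_zpowers, ← MonoidHom.map_zpowers, ← map_commutator, comap_map_eq, hπ]
  have h5 : E ≤ C[⁅V, E⁆] := le_sup_right.trans (k4.le.trans (h4.le.trans (sup_le ((commSg _ (zpowers_le.2
    (le_cent1_iff.1 h3))).trans (commg_subl (norms_cent (zpowers_le.2 (k8 k3))))) (sub_abelian_cent ab k7))))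
  have h6 : E ≤ V := (centsC.1 (commG1.1 (eq_bot_iff.2 ((le_inf le_rfl (centsC.1 h5)).trans k5.le)))).trans hc
  exact sup_le le_rfl h6 (k4.ge (h4.ge (mem_sup_left (commutator_mem_commutator (mem_zpowers z) (mem_zpowers k)))))

theorem mem_of_R2 (hG : IsPSolvable p Γ) (h : ∀ b, R2 p g b) : g ∈ pPrimePCore p Γ := by
  obtain ⟨H, _, _, f, hf, hF, e⟩ := exists_frame hG
  have h1 : ∀ b, R2 p (f g) b := fun b => let ⟨b, hb⟩ := hf b; hb ▸ (h b).map f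
  rw [← e, mem_comap, ← QuotientGroup.eq_one_iff]
  generalize f g = g at h1
  have h2 : constt {p}ᶜ g = 1 := eq_one_of_R1 hF.cent fun b => (h1 b).r1 (constt_mem_zpowers _ _)
    ((p'nat_coprime hp.out).1 (p_elt_constt _ _))
  rw [constt1P, compl_compl] at h2
  refine p_elt_eq_one (PiNat.of_dvd h2 (orderOf_map_dvd (QuotientGroup.mk' _) g)) (mem_p_elt ((p'nat_coprime hp.out).2
    (Solv.coprime_card_pPrimeCore p _)) (PLocal.centralizer_pPrimeCore_le_of_pSolv (PLocal.pSolv_quotient hF.sol _)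
    (Solv.pCore_quotient_pCore p H) (mem_cent.2 fun k hk => ?_)))
  obtain ⟨k, rfl⟩ := QuotientGroup.mk_surjective k
  rw [eq_comm, ← commutatorElement_eq_one_iff_mul_comm]
  exact (QuotientGroup.eq_one_iff ⁅g, k⁆).2 (hF.comm_of_R2 h1 hk)

theorem exists_R2 (h2 : p ≠ 2) (hd : p ∣ Nat.card Γ) (h : ∀ x y z : Γ, IsPSolvable p (closure {x, y, z})) :
    ∃ g : Γ, g ≠ 1 ∧ ∀ b, R2 p g b := by
  classical
  have h0 : ∃ e, PExp p e Γ := ⟨Nat.card Γ, fun x k hx => by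
    obtain ⟨j, -, hj⟩ := (Nat.dvd_prime_pow hp.out).1 (orderOf_dvd_of_pow_eq_one hx)
    exact orderOf_dvd_iff_pow_eq_one.1 (hj ▸ pow_dvd_pow _ ((Nat.lt_pow_self hp.out.one_lt).le.trans
      (hj ▸ orderOf_le_card)))⟩
  obtain ⟨e, he⟩ := Nat.exists_eq_succ_of_ne_zero fun e : Nat.find h0 = 0 => (e ▸ Nat.find_spec h0).not_dvd hd
  have h1 : PExp p e.succ Γ := he ▸ Nat.find_spec h0
  have h3 : ∀ L : Subgroup Γ, PExp p (e + 1) L := fun L x k hx => Subtype.ext (h1 x k (congrArg Subtype.val hx))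
  have m1 : ∀ x y z : Γ, x ∈ closure {x, y, z} := fun _ _ _ => subset_closure (by simp)
  have m2 : ∀ x y z : Γ, y ∈ closure {x, y, z} := fun _ _ _ => subset_closure (by simp)
  have m3 : ∀ x y z : Γ, z ∈ closure {x, y, z} := fun _ _ _ => subset_closure (by simp)
  by_cases h4 : ∀ D : Subgroup Γ, IsPGroup p D → ∀ x ∈ D, ∀ y ∈ D, ⁅x ^ p ^ e, y ^ p ^ e⁆ = 1
  · obtain ⟨x, hx⟩ := not_forall.1 (Nat.find_min h0 (he ▸ e.lt_succ_self))
    obtain ⟨k, hk⟩ := not_forall.1 hx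
    rw [Classical.not_imp] at hk
    refine ⟨_, hk.2, fun b => ?_⟩
    obtain ⟨H, _, _, f, hf, hF, e1⟩ := exists_frame (h x x b)
    refine (R2_of_mem (p := p) (Γ := closure {x, x, b}) (g := ⟨x, m1 x x b⟩ ^ p ^ e) ?_ ⟨b, m3 x x b⟩).map
      (Subgroup.subtype _)
    have k1 : f ⟨x, m1 x x b⟩ ^ p ^ (e + 1) = 1 := by
      rw [← map_pow, h3 _ _ k (Subtype.ext hk.1), map_one]
    rw [← e1, mem_comap, map_pow]
    refine hF.mem_of_comm h2 (k1 ▸ one_mem _) fun v hv => ?_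
    obtain ⟨D, hD, e'⟩ := PLocal.exists_lift_pgroup hf
      (pgroup_sup (.inr (norm_of_normal _ _)) (Solv.isPGroup_pCore p H) (pg_zpowers k1))
    obtain ⟨a, ha, e1⟩ := e'.ge (mul_mem_sup hv (mem_zpowers _))
    obtain ⟨c, hc, e2⟩ := e'.ge (mem_sup_right (mem_zpowers _))
    rw [← e1, ← e2, ← map_pow, ← map_pow, ← map_commutatorElement, show ⁅a ^ p ^ e, c ^ p ^ e⁆ = 1 from
      Subtype.ext (h4 _ (hD.map (Subgroup.subtype _)) _ (mem_map_of_mem _ ha) _ (mem_map_of_mem _ hc)), map_one]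
  push Not at h4
  obtain ⟨D, hD, x, hx, y, hy, h4⟩ := h4
  refine ⟨_, h4, fun b => ?_⟩
  obtain ⟨H, _, _, f, hf, hF, e1⟩ := exists_frame (h x y b)
  refine (R2_of_mem (p := p) (Γ := closure {x, y, b}) (g := ⁅(⟨x, m1 x y b⟩ : closure {x, y, b}) ^ p ^ e,
    (⟨y, m2 x y b⟩ : closure {x, y, b}) ^ p ^ e⁆) ?_
    ⟨b, m3 x y b⟩).map (Subgroup.subtype _)
  rw [← e1, mem_comap, map_commutatorElement, map_pow, map_pow, ← QuotientGroup.eq_one_iff]
  exact hF.pow_comm h2 ((h3 _).of_surj hf) (((hD.comap_subtype (K := closure {x, y, b})).map f).map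
    (QuotientGroup.mk' _)) (mem_map_of_mem _ (mem_map_of_mem f (x := ⟨x, _⟩) hx))
    (mem_map_of_mem _ (mem_map_of_mem f (x := ⟨y, _⟩) hy))

theorem powell [IsSimpleGroup Γ] (h2 : p ≠ 2) (hd : p ∣ Nat.card Γ)
    (h : ∀ x y z : Γ, IsPSolvable p (closure {x, y, z})) : IsPGroup p Γ := by
  have m1 : ∀ x y z : Γ, x ∈ closure {x, y, z} := fun _ _ _ => subset_closure (by simp)
  have m2 : ∀ x y z : Γ, y ∈ closure {x, y, z} := fun _ _ _ => subset_closure (by simp)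
  have m3 : ∀ x y z : Γ, z ∈ closure {x, y, z} := fun _ _ _ => subset_closure (by simp)
  let W₁ : Subgroup Γ := ⟨⟨⟨{g | ∀ b, R1 p g b}, fun {x y} hx hy b => (R1_of_mem (mul_mem
      (mem_of_R1 (g := ⟨x, m1 x y b⟩) (h x y b) fun c => R1.comap (subtype_injective _) (g := ⟨_, _⟩) (hx c))
      (mem_of_R1 (g := ⟨y, m2 x y b⟩) (h x y b) fun c => R1.comap (subtype_injective _) (g := ⟨_, _⟩) (hy c)))
      ⟨b, m3 x y b⟩).map (Subgroup.subtype _)⟩, R1_of_mem (one_mem _)⟩,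
    fun hx b => let ⟨E, h1, h2⟩ := hx b; ⟨E, inv_mem h1, h2⟩⟩
  let W₂ : Subgroup Γ := ⟨⟨⟨{g | ∀ b, R2 p g b}, fun {x y} hx hy b => (R2_of_mem (mul_mem
      (mem_of_R2 (g := ⟨x, m1 x y b⟩) (h x y b) fun c => R2.comap (subtype_injective _) (g := ⟨_, _⟩) (hx c))
      (mem_of_R2 (g := ⟨y, m2 x y b⟩) (h x y b) fun c => R2.comap (subtype_injective _) (g := ⟨_, _⟩) (hy c)))
      ⟨b, m3 x y b⟩).map (Subgroup.subtype _)⟩, R2_of_mem (one_mem _)⟩,
    fun hx b => let ⟨K, E, h1, h2⟩ := hx b; ⟨K, E, inv_mem h1, h2⟩⟩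
  have n1 : W₁.Normal := ⟨fun x hx g b => by
    simpa [mul_assoc] using (hx (g⁻¹ * b * g)).map (MulAut.conj g).toMonoidHom⟩
  have n2 : W₂.Normal := ⟨fun x hx g b => by
    simpa [mul_assoc] using (hx (g⁻¹ * b * g)).map (MulAut.conj g).toMonoidHom⟩
  obtain ⟨g, g1, hg⟩ := exists_R2 h2 hd h
  have e2 := n2.eq_bot_or_eq_top.resolve_left fun e => g1 (e.le hg)
  have e1 := n1.eq_bot_or_eq_top.resolve_right fun e => by
    obtain ⟨x, hx⟩ := exists_prime_orderOf_dvd_card' p hd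
    obtain ⟨E, h1, -, h3⟩ := e.ge (mem_top x) 1
    exact hp.out.coprime_iff_not_dvd.1 h3.symm (hx ▸ orderOf_dvd_natCard E h1)
  intro x
  have h3 : constt {p}ᶜ x = 1 := e1.le fun b => (e2.ge (mem_top x) b).r1 (constt_mem_zpowers _ _)
    ((p'nat_coprime hp.out).1 (p_elt_constt _ _))
  rw [constt1P, compl_compl] at h3
  obtain ⟨k, hk⟩ := (p_natP hp.out).1 h3
  exact ⟨k, hk ▸ pow_orderOf_eq_one x⟩

end Cfsg.Agent.Sig.HH
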