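import Cfsg.Agent.Sig.Ward
import Cfsg.Agent.S3784

/-! Gross's theorem: a solvable group with a fixed-point-free automorphism of order `2 ^ n`, `n ≥ 2`, has Fitting height
at most `2 n - 2` (`gross`). -/

set_option linter.dupNamespace false
set_option linter.unusedSectionVars false
set_option linter.unusedVariables false

namespace Cfsg.Agent.Sig
open Subgroup Cfsg.Agent.BG
open scoped commutatorElement
universe u

local notation "Sol" => Group.IsSolvable
local notation "Nil" => Group.IsNilpotent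

theorem mat2_sq_comm {F : Type*} [Field F] (h2 : (2 : F) ≠ 0) {y b c : Matrix (Fin 2) (Fin 2) F} (hb : b * c = 1)
    (hc : c * b = 1) {r : ℕ} (hr : (r : F) ≠ 0) (hy : y ^ r = 1) (h : y * (b * y * c) = b * y * c * y) :
    b * b * y = y * (b * b) := by
  have key : ∀ m m' : Matrix (Fin 2) (Fin 2) F, m.trace = 0 → m'.trace = 0 →
      m * m' + m' * m = (m * m').trace • 1 := fun m m' h h' => by
    rw [Matrix.trace_fin_two, add_eq_zero_iff_eq_neg] at h h'
    ext i j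
    fin_cases i <;> fin_cases j <;> simp [Matrix.mul_apply, Fin.sum_univ_two, Matrix.trace_fin_two, h, h'] <;> ring
  obtain ⟨n, hn⟩ : ∃ n, n = (2 : F) • y - y.trace • 1 := ⟨_, rfl⟩
  have e : y = (2 : F)⁻¹ • (n + y.trace • 1) := by rw [hn, sub_add_cancel, inv_smul_smul₀ h2]
  have t0 : n.trace = 0 := by simp [hn, mul_comm]
  have t1 : ∀ m : Matrix (Fin 2) (Fin 2) F, (b * m * c).trace = m.trace := fun m => by
    rw [Matrix.trace_mul_cycle, hc, one_mul]
  suffices b * b * n = n * (b * b) by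
    rw [e]; simp only [mul_smul_comm, smul_mul_assoc, mul_add, add_mul, this, mul_one, one_mul]
  have k1 := key n n t0 t0
  have k2 := key _ _ ((t1 n).trans t0) ((t1 n).trans t0)
  have k3 := key n _ t0 ((t1 n).trans t0)
  rw [show b * n * c * (b * n * c) = b * (n * n) * c by simp only [mul_assoc, ← mul_assoc c b, hc, one_mul], t1] at k2
  rw [show b * n * c * n = n * (b * n * c) by
    simp only [hn, mul_sub, sub_mul, mul_smul_comm, smul_mul_assoc, mul_one, one_mul, hb, h, smul_sub,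
      smul_comm (2 : F) y.trace]
    abel] at k3
  generalize (n * n).trace = t at k1 k2
  generalize (n * (b * n * c)).trace = s at k3
  by_cases ht : t = 0
  · have h0 : n * n = 0 := by
      rw [ht, zero_smul, ← two_smul F] at k1
      exact (smul_eq_zero.1 k1).resolve_left h2
    generalize y.trace = τ at e
    have h1 : ∀ k : ℕ, (n + τ • 1) ^ (k + 1) = ((k + 1 : F) * τ ^ k) • n + τ ^ (k + 1) • 1 := fun k => by
      induction k with
      | zero => simp
      | succ k ih =>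
        rw [pow_succ, ih]
        simp only [mul_add, add_mul, smul_mul_assoc, mul_smul_comm, h0, smul_zero, mul_one, one_mul, smul_smul,
          Nat.cast_add, Nat.cast_one]
        module
    obtain ⟨k, rfl⟩ := Nat.exists_eq_succ_of_ne_zero fun e : r = 0 => hr (by simp [e])
    rw [e, smul_pow, h1, inv_pow, inv_smul_eq_iff₀ (pow_ne_zero _ h2)] at hy
    have h3 := congrArg Matrix.trace hy
    simp only [Matrix.trace_add, Matrix.trace_smul, t0, mul_zero, zero_add, Matrix.trace_one, smul_eq_mul,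
      Fintype.card_fin, Nat.cast_ofNat, mul_left_inj' h2] at h3
    rw [h3, add_eq_right, smul_eq_zero] at hy
    rw [hy.resolve_left
      (mul_ne_zero (by simpa using hr) (pow_ne_zero _ fun e => pow_ne_zero k.succ h2 (by rw [← h3, e, zero_pow k.succ_ne_zero]))),
      mul_zero, zero_mul]
  have h4 : t • (b * n * c) = s • n := by
    calc t • (b * n * c) = (n * n + n * n) * (b * n * c) := by rw [k1, smul_mul_assoc, one_mul]
      _ = n * (n * (b * n * c) + n * (b * n * c)) := by simp only [add_mul, mul_add, mul_assoc]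
      _ = _ := by rw [k3, mul_smul_comm, mul_one]
  have h5 : s * s = t * t := by
    have h6 := congrArg₂ (· * ·) h4 h4
    simp only [smul_mul_assoc, mul_smul_comm, smul_smul] at h6
    have h7 := congrArg₂ (· + ·) h6 h6
    simp only [← smul_add, show b * n * c * (b * n * c) = b * (n * n) * c by
      simp only [mul_assoc, ← mul_assoc c b, hc, one_mul], k1, k2, smul_smul] at h7
    exact (mul_right_cancel₀ ht (smul_left_injective F one_ne_zero h7)).symm
  refine smul_right_injective _ (mul_ne_zero ht ht) ?_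
  calc (t * t) • (b * b * n) = t • (b * (t • (b * n * c)) * c) * (b * b) := by
        simp only [mul_smul_comm, smul_mul_assoc, smul_smul, mul_assoc, ← mul_assoc c b, hc, one_mul, mul_one]
    _ = t • (b * (s • n) * c) * (b * b) := by rw [h4]
    _ = s • (t • (b * n * c)) * (b * b) := by simp only [mul_smul_comm, smul_mul_assoc, smul_comm t s]
    _ = _ := by rw [h4, smul_smul, h5, smul_mul_assoc]

variable {G : Type*} [Group G] [Finite G] {A B D E H K L M N P Q R T U V W X Y Z : Subgroup G} {n p q r : ℕ} {b x y z : G}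

theorem abelem2_sq_comm [hq : Fact q.Prime] (h2 : q ≠ 2) (hV : Abelem q V) (hc : #V = q ^ 2) (hy : y ∈ N[V])
    (hb : b ∈ N[V]) (hr : r.Coprime q) (h1 : y ^ r = 1) (h : ⁅y, b * y * b⁻¹⁆ ∈ C[V]) : ⁅b * b, y⁆ ∈ C[V] := by
  let σ := (LinearMap.toMatrixAlgEquiv (Module.finBasisOfFinrankEq _ _ (AbV.finrank_eq hV hc))).toMulEquiv.toMonoidHom.comp
    (abRep hV (le_refl N[V]))
  have k0 : ∀ a : N[V], σ a = 1 ↔ (a : G) ∈ C[V] := fun a =>
    (map_eq_one_iff _ (LinearMap.toMatrixAlgEquiv _).injective).trans abRep_eq_one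
  have k : ∀ a c : N[V], σ a * σ c = σ c * σ a ↔ ⁅(a : G), (c : G)⁆ ∈ C[V] := fun a c => by
    refine Iff.trans ⟨fun h => ?_, fun h => ?_⟩ (k0 ⁅a, c⁆)
    · rw [show ⁅a, c⁆ = a * c * (c * a)⁻¹ by group, map_mul, map_mul, h, ← map_mul, ← map_mul, mul_inv_cancel, map_one]
    · rw [← map_mul, show a * c = ⁅a, c⁆ * (c * a) by group, map_mul, h, one_mul, map_mul]
  refine (k (⟨b, hb⟩ * ⟨b, hb⟩) ⟨y, hy⟩).1 ?_
  rw [map_mul]
  refine mat2_sq_comm (c := σ ⟨b, hb⟩⁻¹) (r := r) (fun e => h2 ((Nat.prime_dvd_prime_iff_eq hq.out Nat.prime_two).1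
    ((ZMod.natCast_eq_zero_iff 2 q).1 e))) (by rw [← map_mul, mul_inv_cancel, map_one])
    (by rw [← map_mul, inv_mul_cancel, map_one])
    (fun e => hq.out.coprime_iff_not_dvd.1 hr.symm ((ZMod.natCast_eq_zero_iff r q).1 e))
    (by rw [← map_pow, show (⟨y, hy⟩ : N[V]) ^ r = 1 from Subtype.ext h1, map_one]) ?_
  simpa only [map_mul] using (k ⟨y, hy⟩ (⟨b, hb⟩ * ⟨y, hy⟩ * ⟨b, hb⟩⁻¹)).2 h

variable [hq : Fact q.Prime]

theorem es3_cent1 (hE : IsExtraspecial q E) (hc : #E = q ^ 3) (hx : x ∈ N[E]) (hZ : x ∈ C[Z[E]])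
    (hc' : (#E).Coprime #(zpowers x)) (h : x ∉ C[E]) : E ⊓ C1[x] = Z[E] := by
  obtain ⟨h1, -, h2, -⟩ := es_comm hE (zpowers_le.2 hx) hc' (zpowers_le.2 hZ) fun e => h (zpowers_le.1 (commG1'.1 e))
  obtain ⟨d, hd, e⟩ := card_extraspecial h1
  rwa [eq_of_le_of_card_ge (commg_subl (zpowers_le.2 hx)) (by
    rw [hc, e]; exact Nat.pow_le_pow_right hq.out.pos (by omega)), C_zpowers] at h2

/-- an odd `q'`-group normalised by a Singer cycle of order `q + 1 = 2 ^ k` centralises `q ^ (1 + 2)` -/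
theorem es3_aux (hE : IsExtraspecial q E) (hc : #E = q ^ 3) (hB : IsCyclic B) (pB : IsPGroup 2 B) (cB : #B = q + 1)
    (hBE : B ≤ N[E]) (hBZ : B ≤ C[Z[E]]) (hB0 : B ⊓ C[E] = ⊥) (hY : Odd #Y) (cY : (#E).Coprime #Y) (hYE : Y ≤ N[E])
    (hYZ : Y ≤ C[Z[E]]) (hBY : B ≤ N[Y]) (hf : Y ⊓ C[E] = ⊥) : Y = ⊥ := by
  haveI := Fact.mk Nat.prime_two
  obtain ⟨pE, e1, -, cZ⟩ := extraspecial_spec hE
  have q2 : q ≠ 2 := by
    rintro rfl
    obtain ⟨k, hk⟩ := pB.exists_card_eq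
    rcases k with _ | k <;> rw [cB] at hk <;> omega
  have cq : (#Y).Coprime q := (cY.coprime_dvd_left (hc ▸ dvd_pow_self q three_ne_zero)).symm
  have nY := norms_Phi hYE
  have nB := norms_Phi hBE
  have ab := Phi_quotient_abelem pE
  have c2 : #(E /ᵍ Phi E) = q ^ 2 := by
    have := card_mul_quotient (Phi_normal E)
    rw [hc, pow_succ' q 2, show #(Phi E) = q from e1 ▸ cZ] at this
    exact Nat.eq_of_mul_eq_mul_left hq.out.pos this
  have key : ∀ X ≤ Y, X /ᵍ Phi E ≤ C[E /ᵍ Phi E] → X = ⊥ := fun X hX h =>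
    eq_bot_iff.2 (hf ▸ le_inf hX (cent_of_Phi (hX.trans hYE) (coprimegS hX cY) h))
  have aY : IsMulCommutative Y := der1_eq_bot.1 (key _ (der_sub Y) (by
    rw [quotient_der nY]
    exact charf'_abelem2_abelian ab c2.dvd (quotient_norms _ hYE) (quotient_odd _ hY)
      (quotient_pgroup _ ((p'nat_coprime hq.out).2 cq))))
  by_contra h
  obtain ⟨r, hr, hr'⟩ := Nat.exists_prime_and_dvd (mt card_eq_one.1 h)
  obtain ⟨y, hy, oy⟩ := Cauchy hr hr'
  obtain ⟨b, rfl⟩ := cyclicP.1 hB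
  have hb := mem_zpowers b
  have yb : b * y * b⁻¹ ∈ Y := (mem_normalizer_iff.1 (hBY hb) y).1 hy
  have b2 := mul_mem hb hb
  have h1 : ⁅b * b, y⁆ = 1 := zpowers_eq_bot.1 (key _ (zpowers_le.2 (commg_subr hBY (commutator_mem_commutator b2 hy))) (by
    rw [quotient_zpowers (der_sub _ (commutator_mem_commutator (nB b2) (nY hy))), zpowers_le, coset_comm (nB b2) (nY hy),
      coset_mul (nB hb) (nB hb)]
    refine abelem2_sq_comm q2 ab c2 (quotient_norms _ hYE (mem_quotient (nY hy) hy))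
      (quotient_norms _ hBE (mem_quotient (nB hb) hb)) cq (by rw [← coset_pow (nY hy), expg_cardG hy, coset_one]) ?_
    rw [← coset_inv (nB hb), ← coset_mul (nB hb) (nY hy), ← coset_mul (mul_mem (nB hb) (nY hy)) (inv_mem (nB hb)),
      ← coset_comm (nY hy) (nY yb), commutatorElement_eq_one_iff_mul_comm.2 (aY.comm hy yb), coset_one]
    exact one_mem _))
  have l1 := zpowers_le.2 hy
  have l2 := zpowers_le.2 b2
  have cYB : (#Y).Coprime #(zpowers b) := (pnat_coprime (IsPGroup.pi pB) (pnat_odd.2 hY)).symm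
  have c3 := coprimeSg l1 (coprimegS l2 cYB)
  have c4 : zpowers (b * b) ≤ C[zpowers y] :=
    zpowers_le.2 (by rw [C_zpowers]; exact mem_cent1.2 (commutatorElement_eq_one_iff_mul_comm.1 h1))
  have cEB : (#E).Coprime #(zpowers b) := IsPGroup.coprime_card_of_ne _ _ q2 _ _ pE pB
  have c5 := card_sup_TI (.inr (cents_norm c4)) (coprime_TI c3)
  have c6 : (#E).Coprime #(zpowers y ⊔ zpowers (b * b)) := c5 ▸ (coprimegS l1 cY).mul_right (coprimegS l2 cEB)
  have := repr_extraspecial_prime_sdprod_cycle (n := 1) hE hc (cyclicY inferInstance inferInstance (centsC.1 c4) c3)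
    (c6.coprime_dvd_left (hc ▸ dvd_pow_self q three_ne_zero)).symm (sup_le (l1.trans hYE) (l2.trans hBE))
    fun x hx x1 => es3_cent1 hE hc (sup_le (l1.trans hYE) (l2.trans hBE) hx) (sup_le (l1.trans hYZ) (l2.trans hBZ) hx)
      (coprimegS (zpowers_le.2 hx) c6) fun h4 => by
        obtain ⟨u, hu, v, hv, rfl⟩ := (mem_sup_norml (cents_norm c4)).1 hx
        have h5 := pow_mem h4 #(zpowers b)
        rw [Commute.mul_pow (mem_cent.1 (c4 hv) u hu), expg_cardG (l2 hv), mul_one] at h5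
        obtain rfl : u = 1 := mem_bot.1 (hf.le ⟨l1 hu, mem_of_pow_mem_coprime (expg_cardG (l1 hu)) cYB.symm h5⟩)
        rw [one_mul] at x1 h4
        exact x1 (mem_bot.1 (hB0.le ⟨l2 hv, h4⟩))
  rw [c5, Nat.card_zpowers, oy, pow_one] at this
  have r2 : r ≠ 2 := by rintro rfl; exact Nat.not_even_iff_odd.2 hY (even_iff_two_dvd.2 hr')
  have r3 := hr.two_le.lt_of_ne' r2
  have h6 : q + 1 ≤ #(zpowers (b * b)) * 2 := by
    rw [← cB, Nat.card_zpowers, Nat.card_zpowers]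
    exact Nat.le_of_dvd (mul_pos (orderOf_pos _) two_pos) (orderOf_dvd_of_pow_eq_one (by
      rw [pow_mul', pow_two, pow_orderOf_eq_one]))
  have := Nat.mul_le_mul_right #(zpowers (b * b)) r3
  have := hq.out.one_lt
  rcases ‹_ ∨ _› with h | h <;> have := Nat.le_of_dvd (by omega) h <;> omega

theorem es3_cent (hE : IsExtraspecial q E) (hc : #E = q ^ 3) (hB : IsCyclic B) (pB : IsPGroup 2 B) (cB : #B = q + 1)
    (hBE : B ≤ N[E]) (hBZ : B ≤ C[Z[E]]) (hB0 : B ⊓ C[E] = ⊥) (hY : Odd #Y) (cY : (#E).Coprime #Y) (hYE : Y ≤ N[E])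
    (hYZ : Y ≤ C[Z[E]]) (hBY : B ≤ N[Y]) : Y ≤ C[E] := by
  haveI := Fact.mk Nat.prime_two
  have n1 : E ≤ N[Y ⊓ C[E]] := cents_norm (centsC.1 inf_le_right)
  have n2 := subcent_normal hYE
  have n3 : B ≤ N[Y ⊓ C[E]] := normsI hBY (norms_cent hBE)
  have i1 := coprime_TI (coprimegS (inf_le_left : Y ⊓ C[E] ≤ Y) cY)
  obtain ⟨h1, h2, h3⟩ := es_quo hE n1 i1
  have key : ∀ X, X ≤ N[E] → X ≤ N[Y ⊓ C[E]] → X ⊓ C[E] ≤ Y ⊓ C[E] →
      X /ᵍ (Y ⊓ C[E]) ⊓ C[E /ᵍ (Y ⊓ C[E])] = ⊥ := fun X a b c => eq_bot_iff.2 fun x hx => by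
    obtain ⟨y, hy, ny, rfl⟩ := mem_quotient_iff.1 hx.1
    exact coset_id (c ⟨hy, zpowers_le.1 (cent_of_quo (zpowers_le.2 (a hy)) (zpowers_le.2 ny) inf_le_right i1
      (by rw [quotient_zpowers ny]; exact zpowers_le.2 hx.2))⟩)
  exact ((quotient_sub1 n2.2).1 (es3_aux h1 (h3.trans hc) (quotient_cyclic _ hB) (pB.quo _) ((card_quotient_TI n3
    (eq_bot_iff.2 (hB0 ▸ le_inf inf_le_right (inf_le_left.trans inf_le_right)))).trans cB) (quotient_norms _ hBE)
    (h2 ▸ quotient_cents _ hBZ) (key B hBE n3 (hB0 ▸ bot_le)) (quotient_odd _ hY) (coprime_morph _ cY)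
    (quotient_norms _ hYE) (h2 ▸ quotient_cents _ hYZ) (quotient_norms _ hBY) (key Y hYE n2.2 le_rfl))).trans inf_le_right

/-- a Frobenius group acting on an extraspecial group -/
theorem es_wiel (hP : IsExtraspecial q P) (hc : #P = q ^ (2 * n + 1)) (hn : 0 < n) (hF : Frob R B L) (hL : L ≤ N[P])
    (cL : (#P).Coprime #L) (hBZ : B ≤ C[Z[P]]) (h0 : P ⊓ C[R] = Z[P]) :
    ∃ e c, #⁅P, B⁆ = q ^ (2 * e + 1) ∧ n = e + c ∧ n = c * #B := by
  obtain ⟨pP, -, -, cZ⟩ := extraspecial_spec hP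
  have hBP := hF.ler.trans hL
  have cB := coprimegS hF.ler cL
  have h2 := (Frobenius_Wielandt_fixpoint hF hL cL (pgroup_sol pP)).1
  obtain ⟨c, h5⟩ := (pP.to_le (inf_le_left : P ⊓ C[B] ≤ P)).exists_card_eq
  rw [show P ⊓ C[L] = Z[P] from le_antisymm (h0 ▸ inf_le_inf_left _ (centS hF.lel)) (le_inf inf_le_left (centsC.1
    (hF.sd.sup.ge.trans (sup_le (centsC.1 (h0.ge.trans inf_le_right)) hBZ)))), h0, cZ, hc, h5, ← pow_mul, ← pow_add,
    ← pow_succ] at h2
  have h6 := Nat.pow_right_injective hq.out.two_le h2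
  have b2 := (one_lt_card_iff_ne_bot B).2 hF.neE
  obtain ⟨h1, -, h3, -⟩ := es_comm hP hBP cB hBZ fun h => by
    rw [inf_eq_left.2 (commG1.1 h), hc] at h5
    rw [← Nat.pow_right_injective hq.out.two_le h5] at h6
    nlinarith
  obtain ⟨e, -, h7⟩ := card_extraspecial h1
  have h4 := card_sup_mul_inf (A := ⁅P, B⁆) (B := P ⊓ C[B]) (.inr (inf_le_left.trans (commg_norml _ _)))
  rw [coprime_cent_prod hBP cB (pgroup_sol pP), ← inf_assoc, inf_eq_left.2 (commg_subl hBP), h3, cZ, hc, h7, h5,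
    ← pow_succ, ← pow_add] at h4
  have h8 := Nat.pow_right_injective hq.out.two_le h4
  obtain ⟨c, rfl⟩ : ∃ k, c = 2 * k + 1 := ⟨n - e, by
    rcases c with _ | c
    · omega
    · omega⟩
  exact ⟨e, c, h7, by omega, by nlinarith⟩

theorem gross_es [hr : Fact r.Prime] (r2 : r ≠ 2) (hrq : r ≠ q) (n : ℕ) : ∀ {G : Type u} [Group G] [Finite G]
    {P R B T : Subgroup G}, #R = n → IsExtraspecial q P → IsPGroup r R → IsCyclic B → IsPGroup 2 B → #B = q + 1 →
    T ≤ B → #T = 2 → B ≤ N[R] → R ≤ N[P] → B ≤ N[P] → R ≤ C[Z[P]] → B ≤ C[Z[P]] → #⁅P, T⁆ = q ^ 3 →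
    ⁅R, T⁆ ≤ C[P] := by
  haveI := Fact.mk Nat.prime_two
  induction n using Nat.strong_induction_on with | _ n ih => ?_
  intro G _ _ P R B T hn hP pR hB pB cB hT cT hBR hRP hBP hRZ hBZ h3
  obtain ⟨pP, -, -, cZ⟩ := extraspecial_spec hP
  have cPR := IsPGroup.coprime_card_of_ne _ _ hrq.symm _ _ pP pR
  have cRB := IsPGroup.coprime_card_of_ne _ _ r2 _ _ pR pB
  by_cases hC : R ⊓ C[P] = ⊥
  swap
  · have n1 : P ≤ N[R ⊓ C[P]] := cents_norm (centsC.1 inf_le_right)
    have n2 := subcent_normal hRP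
    have n3 : B ≤ N[R ⊓ C[P]] := normsI hBR (norms_cent hBP)
    have i1 := coprime_TI (coprimegS (inf_le_left : R ⊓ C[P] ≤ R) cPR)
    obtain ⟨h1, h2, -⟩ := es_quo hP n1 i1
    have l := commg_subl (hT.trans hBP)
    refine cent_of_quo (comm_subG hRP (hT.trans hBP)) (comm_subG n2.2 (hT.trans n3)) inf_le_right i1 ?_
    rw [quotientR n2.2 (hT.trans n3)]
    refine ih _ (hn ▸ ltn_quotient hC inf_le_left) rfl h1 (pR.quo _) (quotient_cyclic _ hB) (pB.quo _)
      ((card_quotient_TI n3 (coprime_TI (coprimeSg inf_le_left cRB))).trans cB) (quotientS _ hT)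
      ((card_quotient_TI (hT.trans n3) (coprime_TI (coprimeSg inf_le_left (coprimegS hT cRB)))).trans cT)
      (quotient_norms _ hBR) (quotient_norms _ hRP) (quotient_norms _ hBP) (h2 ▸ quotient_cents _ hRZ)
      (h2 ▸ quotient_cents _ hBZ) ?_
    rw [← quotientR n1 (hT.trans n3), card_quotient_TI (l.trans n1) (eq_bot_iff.2 (i1 ▸ le_inf (inf_le_right.trans l)
      inf_le_left)), h3]
  by_contra hcon
  have aB := cyclic_abelian hB
  obtain ⟨h1, h2, h4, h5, -⟩ := Gen.minimal_action pR hBR hT (sub_abelian_norm aB hT)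
    (cT ▸ (Nat.coprime_primes Nat.prime_two hr.out).2 r2.symm) (fun h => hcon (h ▸ bot_le)) fun U hU hBU =>
    eq_bot_iff.2 (hC ▸ le_inf ((commg_subl (hT.trans hBU)).trans hU.le) (ih _ (hn ▸ proper_card hU) rfl hP
      (pR.to_le hU.le) hB pB cB hT cT hBU (hU.le.trans hRP) hBP (hU.le.trans hRZ) hBZ h3))
  have q2 : q ≠ 2 := by
    rintro rfl
    obtain ⟨k, hk⟩ := pB.exists_card_eq
    rcases k with _ | k <;> rw [cB] at hk <;> omega
  have cPB := IsPGroup.coprime_card_of_ne _ _ q2 _ _ pP pB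
  have hτ := cyc_le_zpowers hB pB hT cT
  have hTP := hT.trans hBP
  have cPT := coprimegS hT cPB
  have ne : ⁅P, T⁆ ≠ ⊥ := fun e => by
    rw [e, Subgroup.card_bot] at h3; exact absurd h3.symm (Nat.one_lt_pow three_ne_zero hq.out.one_lt).ne'
  obtain ⟨k1, k2, k3, -⟩ := es_comm hP hTP cPT (hT.trans hBZ) ne
  have lY := Phi_sub R
  have YT : Phi R ≤ C[T] := h2.ge.trans inf_le_right
  have k4 : Phi R ≤ C[⁅P, T⁆] := es3_cent k1 h3 hB pB cB (normsR hBP (sub_abelian_norm aB hT)) (k2 ▸ hBZ)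
    (eq_bot_iff.2 fun x hx => by_contra fun x1 => ne (by
      rw [← coprime_commGid hTP cPT, commG1']
      exact (hτ x hx.1 x1).trans (zpowers_le.2 hx.2)))
    (pnat_odd.1 (p'group_of_ne (pR.to_le lY) r2)) (coprimeSg (commg_subl hTP) (coprimegS lY cPR))
    (normsR (lY.trans hRP) (cents_norm YT)) (k2 ▸ lY.trans hRZ) (norms_Phi hBR)
  have key : ∀ U ≤ P, R ≤ N[U] → T ≤ N[U] → ⁅U, T⁆ ≤ Z[P] → R ≤ C[U] := fun U hU a b c => by
    have : T ≤ C[U] := commG1'.1 (by
      rw [← coprime_commGid b (coprimeSg hU cPT)]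
      exact eq_bot_iff.2 ((commSg _ c).trans (commG1'.2 (hT.trans hBZ)).le))
    exact h1.ge.trans ((commgS _ this).trans (commg_subr (norms_cent a)))
  have k5 : Phi R = ⊥ := eq_bot_iff.2 (hC ▸ le_inf lY (commG1'.1 (by_contra fun e => by
    obtain ⟨-, -, l1, -⟩ := es_comm hP (lY.trans hRP) (coprimegS lY cPR) (lY.trans hRZ) e
    have l := commg_subl (lY.trans hRP)
    have nT := normsR hTP (cents_norm (centsC.1 YT))
    refine e ?_
    rw [← coprime_commGid (lY.trans hRP) (coprimegS lY cPR), commG1']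
    exact lY.trans (key _ l (normsR hRP (Phi_normal R).2) nT
      (l1 ▸ le_inf (commg_subl nT) ((commSg _ l).trans (centsC.1 k4)))))))
  rw [k5] at h2
  have R1 : R ≠ ⊥ := fun e => hcon (by simp [e])
  have T1 : T ≠ ⊥ := ne_bot_of_prime (cT ▸ Nat.prime_two)
  obtain ⟨l1, l2, l3, -⟩ := es_comm hP hRP cPR hRZ fun e => R1 (hC ▸ (inf_eq_left.2 (commG1'.1 e)).symm)
  obtain ⟨m, m0, cm⟩ := card_extraspecial l1
  have l := commg_subl hRP
  have w : ∀ X ≤ B, T ≤ X → ∃ e c, #⁅⁅P, R⁆, X⁆ = q ^ (2 * e + 1) ∧ m = e + c ∧ m = c * #X := fun X a b =>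
    es_wiel l1 cm m0 (Frob.mk' (a.trans hBR) R1 (fun e => T1 (eq_bot_iff.2 (e ▸ b))) fun x hx x1 => eq_bot_iff.2
      (h2 ▸ inf_le_inf_left _ (C_zpowers x ▸ centS (hτ x (a hx) x1))))
      (sup_le (commg_normr _ _) (a.trans (normsR hBP hBR))) (((coprimeSg l cPR).mul_right
        (coprimeSg l (coprimegS a cPB))).coprime_dvd_right (card_sup_dvd (.inr (a.trans hBR))))
      (l2 ▸ a.trans hBZ) (l3.trans l2.symm)
  obtain ⟨e, c, w1, w2, w3⟩ := w T hT le_rfl
  obtain ⟨-, c', -, -, w4⟩ := w B le_rfl hT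
  have w5 := card_le_of_le (commSg T l)
  rw [w1, h3, Nat.pow_le_pow_iff_right hq.out.one_lt] at w5
  rw [cT] at w3
  rw [cB] at w4
  have := hq.out.two_le.lt_of_ne' q2
  rcases c' with _ | c' <;> nlinarith

theorem gross_aux [hr : Fact r.Prime] (q2 : q ≠ 2) (r2 : r ≠ 2) (hrq : r ≠ q) (n : ℕ) : ∀ {G : Type u} [Group G]
    [Finite G] {Q R A T V : Subgroup G}, #Q = n → IsPGroup q Q → IsPGroup r R → IsCyclic A → IsPGroup 2 A → T ≤ A →
    #T = 2 → IsMulCommutative V → A ≤ N[R] → A ≤ N[Q] → A ≤ N[V] → R ≤ N[Q] → R ≤ N[V] → Q ≤ N[V] →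
    (#V).Coprime #Q → (#V).Coprime #A → ⁅R, T⁆ = R → V ⊓ C[A] = ⊥ → ⁅Q, R⁆ ≤ C[V] := by
  haveI := Fact.mk Nat.prime_two
  induction n using Nat.strong_induction_on with | _ n ih => ?_
  intro G _ _ Q R A T V hn hQ pR hA pA hT cT hV hAR hAQ hAV hRQ hRV hQV cQ cA hR h0
  have aA := cyclic_abelian hA
  have sA := abelian_sol aA
  have cQA := IsPGroup.coprime_card_of_ne _ _ q2 _ _ hQ pA
  have cQR := IsPGroup.coprime_card_of_ne _ _ hrq.symm _ _ hQ pR
  by_cases hC : Q ⊓ C[V] = ⊥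
  swap
  · have nN := subcent_normal hQV
    have nA := normsI hAQ (norms_cent hAV)
    have nR := normsI hRQ (norms_cent hRV)
    have nV : V ≤ N[Q ⊓ C[V]] := cents_norm (centsC.1 inf_le_right)
    refine cent_of_quo (comm_subG hQV hRV) (comm_subG nN.2 nR) inf_le_right (coprime_TI (coprimegS inf_le_left cQ)) ?_
    rw [quotientR nN.2 nR]
    refine ih _ (hn ▸ ltn_quotient hC inf_le_left) rfl (hQ.quo _) (pR.quo _) (quotient_cyclic _ hA) (pA.quo _)
      (quotientS _ hT)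
      ((card_quotient_TI (hT.trans nA) (coprime_TI (coprimeSg inf_le_left (coprimegS hT cQA)))).trans cT)
      (quotient_abelian _ hV) (quotient_norms _ hAR) (quotient_norms _ hAQ) (quotient_norms _ hAV)
      (quotient_norms _ hRQ) (quotient_norms _ hRV) (quotient_norms _ hQV) (coprime_morph _ cQ)
      (coprime_morph _ cA) (by rw [← quotientR nR (hT.trans nA), hR]) ?_
    rw [← coprime_quotient_cent' nV nA hAV cA (.inl sA), h0, quotient_bot]
  by_contra hcon
  have hQ1 : Q ≠ ⊥ := fun h => hcon (by simp [h])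
  have cq : ∀ {X : Subgroup G}, (#Q).Coprime #X → (#X).Coprime q := fun h =>
    (h.coprime_dvd_left (pgroup_pdiv hQ hQ1)).symm
  obtain ⟨h1, h2, h3, -, h5, -⟩ := Gen.minimal_action hQ (sup_le hRQ hAQ) le_sup_left (sup_le (normG R) hAR) (cq cQR)
    (fun h => hcon (h ▸ bot_le)) fun U hU hAU => eq_bot_iff.2 (hC ▸ le_inf
    ((commg_subl (le_sup_left.trans hAU)).trans hU.le) (ih _ (hn ▸ proper_card hU) rfl (hQ.to_le hU.le) pR hA pA hT cT hV
      hAR (le_sup_right.trans hAU) hAV (le_sup_left.trans hAU) hRV (hU.le.trans hQV) (coprimegS hU.le cQ) cA hR h0))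
  have hτ := cyc_le_zpowers hA pA hT cT
  by_cases hab : IsMulCommutative Q
  · have : T ≤ C[Q] := commG1'.1 (eq_bot_iff.2 (hC ▸ le_inf (commg_subl (hT.trans hAQ))
      (abel_comm_cent hab aA hT hτ hAQ cQA (abelian_sol hV) hQV hAV cQ cA h0)))
    exact hQ1 (h1 ▸ commG1'.2 (hR.ge.trans ((commgS _ this).trans (commg_subr (norms_cent hRQ)))))
  replace h5 := h5 hab
  obtain ⟨Y, B, K, W, hY, hB, kB, nK, eK, hW, wK, kX, f1, f2, cz, es⟩ := special_setup hQ h5 (h3.symm.trans h5) hQ1 hV hQV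
    cQ hC hAV hAQ cA h0
  obtain ⟨b1, b2, b3⟩ := kX B (hB.trans hAV) (hB.trans hAQ) ((kB B hB).2 le_rfl)
  obtain ⟨q1, -, -⟩ := kX Q hQV (normG Q) (by rw [commG1.2 inf_le_right]; exact bot_le)
  obtain ⟨r1, r2', r3⟩ := kX R hRV hRQ (by rw [commG1.2 ((h2.trans h5).ge.trans inf_le_right)]; exact bot_le)
  have z1 : Z[Q] /ᵍ K ≠ ⊥ := ne_bot_of_prime (cz ▸ hq.out)
  have P1 : Q /ᵍ K ≠ ⊥ := fun e => z1 (eq_bot_iff.2 (e ▸ quotientS K inf_le_left))
  have hTB : T ≤ B := by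
    obtain ⟨x, hx, x1⟩ := (bot_or_exists_ne_one B).resolve_left (by
      rintro rfl
      rw [quotient_bot, BG.cent_bot, inf_top_eq] at f2
      rw [f2, BG.cent_bot, inf_top_eq] at f1
      exact P1 f1)
    exact (hτ x (hB hx) x1).trans (zpowers_le.2 hx)
  have cT' : #(T /ᵍ K) = 2 :=
    (card_quotient_TI (hTB.trans b2) (coprime_TI (coprimeSg nK.1 (coprimegS hT cQA)))).trans cT
  have cyB := quotient_cyclic K (cyclicS hB hA)
  have pB := (pA.to_le hB).quo K
  have lT := quotientS K hTB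
  have hτ' := cyc_le_zpowers cyB pB lT cT'
  have sW := quotient_sol K (abelian_sol (abelianS hW hV))
  have cWQ := coprime_morph (qmk K) (coprimeSg hW cQ)
  have cWB := coprime_morph (qmk K) (coprimeSg hW (coprimegS hB cA))
  have cPB := coprime_morph (qmk K) (coprimegS hB cQA)
  have nB := quotient_norms K (hB.trans hAQ)
  have nR := quotient_norms K hRQ
  have eR : Q /ᵍ K ⊓ C[R /ᵍ K] = Z[Q] /ᵍ K := by
    rw [← coprime_quotient_cent' nK.2 r2' hRQ cQR (.inl (pgroup_sol pR)), h2, h5]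
  have eP : ⁅Q /ᵍ K, R /ᵍ K⁆ = Q /ᵍ K := by rw [← quotientR nK.2 r2', h1]
  have eT : ⁅R /ᵍ K, T /ᵍ K⁆ = R /ᵍ K := by rw [← quotientR r2' (hTB.trans b2), hR]
  have rP : ¬ R /ᵍ K ≤ C[Q /ᵍ K] := fun h => P1 (eP ▸ commG1'.2 h)
  have eB' : ∀ X, R /ᵍ K ≤ N[X] → T /ᵍ K ≤ C[X] → R /ᵍ K ≤ C[X] := fun X h h' =>
    eT.ge.trans ((commgS _ h').trans (commg_subr (norms_cent h)))
  obtain ⟨hE, eZ⟩ := es (by
    have nZ := norms_center nB
    exact eR ▸ le_inf inf_le_left (centsC.1 (eB' _ (norms_center nR) (commG1'.1 (eq_bot_iff.2 (f1 ▸ le_inf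
      ((commg_subl (lT.trans nZ)).trans inf_le_left) (abel_comm_cent (center_abelian _) (cyclic_abelian cyB) lT hτ' nZ
      (coprimeSg inf_le_left cPB) sW (inf_le_left.trans (quotient_norms K q1)) (quotient_norms K b1)
      (coprimegS inf_le_left cWQ) cWB f2)))))))
  obtain ⟨d, hd, e1, e2⟩ := es_bound hE cyB ((cq (coprimegS hB cQA)).coprime_dvd_left (dvdn_quotient _ _)) nB (eZ ▸ b3)
    lT hτ' (fun h => rP (eB' _ nR (commG1'.1 h))) sW (quotient_norms K q1) (quotient_norms K b1) cWQ cWB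
    (fun h => z1 (eq_bot_iff.2 (f1 ▸ eZ ▸ le_inf inf_le_left h))) f2
  obtain ⟨k, hk⟩ := pB.exists_card_eq
  obtain rfl : d = 1 := by
    rcases S3784.result 2 q k d Nat.prime_two hq.out (Nat.pos_of_ne_zero fun e => by
      rw [e2, e] at hk; have := pow_pos hq.out.pos d; omega) hd (hk.symm.trans e2) with h | h | h
    exacts [h.2.1, absurd h.1 q2, absurd ((hq.out.eq_two_or_odd'.resolve_left q2).pow (n := d)) (by rw [h.2]; decide)]
  exact rP (eT.ge.trans (gross_es r2 hrq _ rfl hE (pR.quo K) cyB pB (e2.trans (by rw [pow_one])) lT cT'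
    (quotient_norms K (hB.trans hAR)) nR nB (eZ ▸ r3) (eZ ▸ b3) e1))

omit hq in
theorem fh2_comm_of_fpf (hs : Sol K) (hc : IsCyclic A) (hA : IsPGroup 2 A) (hT : T ≤ A) (cT : #T = 2) (hAK : A ≤ N[K])
    (h0 : K ⊓ C[A] = ⊥) : FH 2 ⁅K, T⁆ := by
  haveI := Fact.mk Nat.prime_two
  have hK := p'group_of_fpf hA hAK h0
  have c := pnat_coprime' hK hA.pi
  refine fh2_of_tower hs hAK c hT fun s q r hs' hq hr hqs hrq Q hQ R hR pQ pR aQ aR nQ => ?_
  haveI := Fact.mk hs'
  haveI := Fact.mk hq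
  haveI := Fact.mk hr
  by_cases Q1 : Q = ⊥
  · simp [Q1]
  by_cases R1 : R = ⊥
  · simp [R1]
  have nV := pcore_normal {s} K
  have aV := norms_pcore {s} hAK
  have pV := Op_pgroup s K
  change Op s K ⊴ K at nV
  change A ≤ N[Op s K] at aV
  generalize Op s K = V at nV aV pV
  have cQ := IsPGroup.coprime_card_of_ne _ _ hqs.symm _ _ pV pQ
  have kP := norms_Phi nV.2
  have aP := norms_Phi aV
  have l := commg_subl (hT.trans aR)
  have e := coprime_commGid (hT.trans aR) (coprimeSg hR (coprimegS hT c))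
  have a1 := normsR aR (sub_abelian_norm (cyclic_abelian hc) hT)
  generalize ⁅R, T⁆ = S at l e a1
  have l1 := l.trans hR
  refine cent_of_Phi ((commg_subl (l.trans nQ)).trans (hQ.trans nV.2)) (coprimegS (commg_subl (l.trans nQ)) cQ) ?_
  have cP := coprimeSg ((Phi_sub V).trans nV.1) c
  rw [quotientR (hQ.trans kP) (l1.trans kP)]
  refine gross_aux (fun h => hK q hq ((pgroup_pdiv pQ Q1).trans (cardSg hQ)) h)
    (fun h => hK r hr ((pgroup_pdiv pR R1).trans (cardSg hR)) h) hrq _ rfl (pQ.quo _) ((pR.to_le l).quo _)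
    (quotient_cyclic _ hc) (hA.quo _) (quotientS _ hT)
    ((card_quotient_TI (hT.trans aP) (coprime_TI (coprimegS hT cP))).trans cT)
    (Phi_quotient_abelem pV).abelian (quotient_norms _ a1) (quotient_norms _ aQ) (quotient_norms _ aV)
    (quotient_norms _ (l.trans nQ)) (quotient_norms _ (l1.trans nV.2)) (quotient_norms _ (hQ.trans nV.2))
    (coprime_morph _ cQ) (coprime_morph _ (coprimeSg nV.1 c)) (by rw [← quotientR (l1.trans kP) (hT.trans aP), e]) ?_
  rw [← coprime_quotient_cent' (Phi_normal V).2 aP aV (coprimeSg nV.1 c) (.inr (pgroup_sol pV)),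
    eq_bot_iff.2 (h0 ▸ inf_le_inf_right _ nV.1 : V ⊓ C[A] ≤ ⊥), quotient_bot]

omit hq in
theorem gross (n : ℕ) : ∀ {G : Type u} [Group G] [Finite G] {K A : Subgroup G},
    Sol K → IsCyclic A → #A = 2 ^ (n + 2) → A ≤ N[K] → K ⊓ C[A] = ⊥ → FH (2 * n + 2) K := by
  haveI := Fact.mk Nat.prime_two
  induction n with
  | zero =>
    intro G _ _ K A hs hc hA hAK h0
    exact fh_succ.2 (nilpotentS ((nres_le_lcs K 1).trans (der_nil_of_fpf4 hs hc hA.dvd hAK h0)) (Fitting_nil K))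
  | succ n ih =>
  intro G _ _ K A hs hc hA hAK h0
  have pA := pgroup_of_card hA
  obtain ⟨T, hT, hTp⟩ := Cauchy_sub Nat.prime_two (hA ▸ dvd_pow_self 2 (n + 2).succ_ne_zero)
  rw [show 2 * (n + 1) + 2 = 2 + (2 * n + 2) by ring]
  refine fh_descend (p'group_of_fpf pA hAK h0) pA hc hT hAK h0 (fh2_comm_of_fpf hs hc pA hT hTp hAK h0)
    fun N e h => ih (quotient_sol _ hs) (quotient_cyclic _ hc) ?_ (quotient_norms _ hAK) h
  rw [hTp, hA, pow_succ] at e
  exact Nat.eq_of_mul_eq_mul_right two_pos e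

end Cfsg.Agent.Sig
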