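import Cfsg.Agent.Loc.Am4

/-! Goldschmidt amalgams with `Ω Z(T)` central in exactly one member (`MG`): the basic local lemmas. -/

set_option linter.unusedSectionVars false
set_option linter.unusedVariables false
set_option linter.unusedSimpArgs false

namespace Cfsg.Agent.Sig.GA
open Subgroup Cfsg MulAction Cfsg.Agent.Loc
open scoped commutatorElement

variable {G : Type*} [Group G] [Finite G] {V : Type*} [MulAction G V] {Γ : SimpleGraph V}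
  {a b c d e f a' b' c' d' : V} {X Y N L I M : Subgroup G} {g t s x y z u v w : G} {F : V → Subgroup G}

local notation "𝐆" => stabilizer G
local notation "𝐐" => Qv G
local notation "𝐙" => Zv G
local notation "𝐓" => Tv G

def Eqv (F : V → Subgroup G) : Prop := ∀ (g : G) (a : V), F (g • a) = cj g (F a)
def Up (Γ : SimpleGraph V) (F : V → Subgroup G) (a : V) : Subgroup G := ⨆ (b : V) (_ : Γ.Adj a b), F b
def Cn (F : V → Subgroup G) (a : V) : Subgroup G := centralizer (F a : Set G)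
def IsA (G : Type*) [Group G] [MulAction G V] (a : V) : Prop := ¬ stabilizer G a ≤ centralizer (Zv G a : Set G)
def Ix2 (L F : Subgroup G) : Prop := ∀ u ∈ F, ∀ v ∈ F, u ∉ L → v ∉ L → u * v ∈ L
def EA (X : Subgroup G) : Prop := ∀ x ∈ X, x * x = 1

theorem EA.inv (h : EA X) (hx : x ∈ X) : x⁻¹ = x := inv_eq_of_mul_eq_one_right (h x hx)
theorem EA.comm (h : EA X) (hx : x ∈ X) (hy : y ∈ X) : x * y = y * x := by
  rw [← h.inv (mul_mem hx hy), mul_inv_rev, h.inv hx, h.inv hy]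
theorem EA.mono (h : EA X) (hY : Y ≤ X) : EA Y := fun y hy => h y (hY hy)
theorem ea_of_isEA (h : IsElementaryAbelian 2 X) : EA X := fun x hx => by
  rw [← pow_two]; exact (isElementaryAbelian_iff.1 h).2 x hx

theorem Ix2.cj (h : Ix2 L X) (g : G) : Ix2 (cj g L) (cj g X) := by
  intro u hu v hv h1 h2
  rw [mem_cj] at hu hv h1 h2 ⊢
  have := h _ hu _ hv h1 h2
  rwa [show g⁻¹ * u * g * (g⁻¹ * v * g) = g⁻¹ * (u * v) * g by group] at this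

theorem Ix2.or (h : Ix2 L X) (hu : u ∈ X) (hn : u ∉ L) (hv : v ∈ X) : v ∈ L ∨ v * u ∈ L := by
  by_cases h1 : v ∈ L
  · exact Or.inl h1
  · exact Or.inr (h v hv u hu h1 hn)

theorem mem_Cn : x ∈ Cn F a ↔ ∀ y ∈ F a, y * x = x * y := mem_centralizer_iff
theorem Cn.comm (hx : x ∈ Cn F a) (hy : y ∈ F a) : y * x = x * y := mem_Cn.1 hx y hy

theorem le_Up (h : Γ.Adj a b) : F b ≤ Up Γ F a := le_iSup₂_of_le (f := fun b (_ : Γ.Adj a b) => F b) b h le_rfl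
theorem Up_le (h : ∀ b, Γ.Adj a b → F b ≤ X) : Up Γ F a ≤ X := iSup₂_le h

theorem comm_Up (h1 : ∀ b, Γ.Adj a b → F b ≤ normalizer (N : Set G)) (h2 : ∀ b, Γ.Adj a b → ∀ u ∈ F b, ⁅u, x⁆ ∈ N)
    (hw : w ∈ Up Γ F a) : ⁅w, x⁆ ∈ N := by
  let K : Subgroup G :=
    { carrier := {k | k ∈ normalizer (N : Set G) ∧ ⁅k, x⁆ ∈ N}
      one_mem' := ⟨one_mem _, by rw [commutatorElement_one_left]; exact one_mem _⟩
      mul_mem' := fun {a b} ha hb => ⟨mul_mem ha.1 hb.1, by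
        have : ⁅a * b, x⁆ = a * ⁅b, x⁆ * a⁻¹ * ⁅a, x⁆ := by simp only [commutatorElement_def]; group
        rw [this]; exact mul_mem (conj_mem_of_mem_normalizer ha.1 hb.2) ha.2⟩
      inv_mem' := fun {a} ha => ⟨inv_mem ha.1, by
        have : ⁅a⁻¹, x⁆ = a⁻¹ * ⁅a, x⁆⁻¹ * a⁻¹⁻¹ := by simp only [commutatorElement_def]; group
        rw [this]; exact conj_mem_of_mem_normalizer (inv_mem ha.1) (inv_mem ha.2)⟩ }
  have : Up Γ F a ≤ K := Up_le fun b hb u hu => ⟨h1 b hb hu, h2 b hb u hu⟩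
  exact (this hw).2

namespace Eqv
variable (hF : Eqv F)
include hF
theorem mem_iff (e : g • a = b) : g * x * g⁻¹ ∈ F b ↔ x ∈ F a := by rw [← e, hF, conj_mem_cj_iff]
theorem mem (e : g • a = b) (hx : x ∈ F a) : g * x * g⁻¹ ∈ F b := (hF.mem_iff e).2 hx
theorem conj (hg : g ∈ 𝐆 a) (hx : x ∈ F a) : g * x * g⁻¹ ∈ F a := hF.mem hg hx
theorem norm (a : V) : 𝐆 a ≤ normalizer (F a : Set G) := fun g hg =>
  mem_normalizer_iff_cj.2 (by rw [← hF, mem_stabilizer_iff.1 hg])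
theorem comm (hx : x ∈ F a) (hg : g ∈ 𝐆 a) : ⁅x, g⁆ ∈ F a := by
  rw [show ⁅x, g⁆ = x * (g * x⁻¹ * g⁻¹) by rw [commutatorElement_def]; group]
  exact mul_mem hx (hF.conj hg (inv_mem hx))
theorem comm' (hg : g ∈ 𝐆 a) (hx : x ∈ F a) : ⁅g, x⁆ ∈ F a := by
  rw [← commutatorElement_inv]; exact inv_mem (hF.comm hx hg)
theorem cn : Eqv (Cn F) := fun g a => by rw [Cn, Cn, hF, cj_centralizer]
theorem card (e : g • a = b) : Nat.card (F b) = Nat.card (F a) := by rw [← e, hF, card_cj]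
end Eqv

theorem eZ : Eqv (Zv G : V → Subgroup G) := Zv_smul
theorem eQ : Eqv (Qv G : V → Subgroup G) := Qv_smul
theorem eG : Eqv (fun a : V => stabilizer G a) := stabilizer_smul'

theorem isA_smul (g : G) : IsA G (g • a) ↔ IsA G a := by
  rw [IsA, IsA, stabilizer_smul', Zv_smul, ← cj_centralizer, cj_le_cj_iff]

structure MG (G : Type*) [Group G] [MulAction G V] (Γ : SimpleGraph V) : Prop where
  conn : Γ.Connected
  smul : ∀ (g : G) {a b : V}, Γ.Adj a b → Γ.Adj (g • a) (g • b)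
  trans : ∀ {a b c : V}, Γ.Adj a b → Γ.Adj a c → ∃ g ∈ stabilizer G a, g • b = c
  loc : ∀ {a b : V}, Γ.Adj a b → S3 (Tv G a b) (stabilizer G a)
  ch : ∀ a : V, ChP 2 (stabilizer G a)
  core : ∀ {a b : V}, Γ.Adj a b → ∀ {N : Subgroup G}, N ≤ Tv G a b → stabilizer G a ≤ normalizer (N : Set G) →
    stabilizer G b ≤ normalizer (N : Set G) → N = ⊥
  nbr : ∀ a, ∃ b, Γ.Adj a b
  alt : ∀ {a b : V}, Γ.Adj a b → (IsA G a ↔ ¬ IsA G b)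
  edge : ∀ {a b c d : V}, Γ.Adj a b → Γ.Adj c d → ∃ g : G, (g • a = c ∧ g • b = d) ∨ (g • a = d ∧ g • b = c)

namespace MG
variable (h : MG G Γ)
include h

theorem smul' (hg : g ∈ 𝐆 a) (hb : Γ.Adj a b) : Γ.Adj a (g • b) := by
  have := h.smul g hb; rwa [mem_stabilizer_iff.1 hg] at this
theorem loc' (hb : Γ.Adj a b) : S3 (𝐓 a b) (𝐆 b) := Tv_comm (G := G) b a ▸ h.loc hb.symm
theorem QT (hb : Γ.Adj a b) : 𝐐 a ≤ 𝐓 a b := (h.loc hb).Qle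
theorem QT' (hb : Γ.Adj a b) : 𝐐 b ≤ 𝐓 a b := (h.loc' hb).Qle
theorem Q_le (hb : Γ.Adj a b) : 𝐐 a ≤ 𝐆 b := (h.QT hb).trans inf_le_right
theorem A_of (hb : Γ.Adj a b) (hn : ¬ IsA G b) : IsA G a := (h.alt hb).2 hn
theorem B_of (hb : Γ.Adj a b) (ha : IsA G a) : ¬ IsA G b := (h.alt hb).1 ha
theorem up (hF : Eqv F) : Eqv (Up Γ F) := by
  have key : ∀ (g : G) a, cj g (Up Γ F a) ≤ Up Γ F (g • a) := fun g a => cj_le_iff.2 (Up_le fun b hb => cj_le_iff.1 (by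
    rw [← hF]; exact le_Up (h.smul g hb)))
  intro g a
  refine le_antisymm ?_ (key g a)
  have := key g⁻¹ (g • a)
  rwa [inv_smul_smul, ← le_cj_iff] at this

theorem ZO (a : V) : 𝐙 a ≤ OZ (𝐐 a) := sylowCenterClosure_le_omegaOne_center (h.ch a)
theorem ZQ (a : V) : 𝐙 a ≤ 𝐐 a := (h.ZO a).trans (omegaOne_center_le _ _)
theorem ea (a : V) : EA (𝐙 a) := (ea_of_isEA (isElementaryAbelian_omegaOne_center _ _)).mono (h.ZO a)
theorem ZcQ (hz : z ∈ 𝐙 a) (hx : x ∈ 𝐐 a) : z * x = x * z := (Loc.ZcQ a hz x hx).symm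
theorem Q_ne_bot (a : V) : 𝐐 a ≠ ⊥ := let ⟨_, hb⟩ := h.nbr a
  (h.ch a).pCoreOf_ne_bot fun e => (h.loc hb).not_le' (e.le.trans bot_le)
theorem OZ_ne_bot (hb : Γ.Adj a b) : OZ (𝐓 a b) ≠ ⊥ :=
  omegaOne_center_ne_bot (h.loc hb).syl.pg fun e => h.Q_ne_bot a (le_bot_iff.1 ((h.QT hb).trans e.le))
theorem Z_ne_bot (a : V) : 𝐙 a ≠ ⊥ := fun e =>
  let ⟨_, hb⟩ := h.nbr a
  h.OZ_ne_bot hb (le_bot_iff.1 ((h.loc hb).syl.le_sylowCenterClosure.trans e.le))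
theorem exZ (a : V) : ∃ z ∈ 𝐙 a, z ≠ 1 := by
  obtain ⟨⟨z, hz⟩, h1⟩ := (ne_bot_iff_exists_ne_one).1 (h.Z_ne_bot a)
  exact ⟨z, hz, fun e => h1 (Subtype.ext e)⟩

theorem T_ne (hb : Γ.Adj a b) (hc : Γ.Adj a c) (hne : b ≠ c) : 𝐓 a b ≠ 𝐓 a c := fun e => by
  obtain ⟨g, hg, rfl⟩ := h.trans hb hc
  have h1 : 𝐓 a (g • b) = cj g (𝐓 a b) := by rw [← Tv_smul, mem_stabilizer_iff.1 hg]
  exact hne ((h.loc hb).mem_of_mem_normalizer hg (mem_normalizer_iff_cj.2 (h1.symm.trans e.symm))).2.symm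

theorem Q_not_le (hb : Γ.Adj a b) : ¬ 𝐐 a ≤ 𝐐 b := fun e => by
  have h1 : 𝐐 a = 𝐐 b := eq_of_le_of_card_ge e (by
    have := (h.loc hb).cardT; have := (h.loc' hb).cardT; simp only [Qv]; omega)
  exact h.Q_ne_bot a (h.core hb (h.QT hb) (nQ a) ((nQ b).trans (by rw [← h1])))
theorem exQ (hb : Γ.Adj a b) : ∃ g ∈ 𝐐 a, g ∉ 𝐐 b := SetLike.not_le_iff_exists.1 (h.Q_not_le hb)

/-- an element fixing two neighbours lies in `Q`. -/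
theorem fix2 (hb : Γ.Adj a b) (hc : Γ.Adj a c) (hne : b ≠ c) (h0 : g ∈ 𝐆 a) (h1 : g ∈ 𝐆 b) (h2 : g ∈ 𝐆 c) :
    g ∈ 𝐐 a := ((h.loc hb).inf_eq (h.loc hc) (h.T_ne hb hc hne)).le ⟨⟨h0, h1⟩, h0, h2⟩

theorem ixQ (hb : Γ.Adj a b) (h0 : x ∈ 𝐆 a) (h1 : x ∈ 𝐆 b) (h2 : y ∈ 𝐆 a) (h3 : y ∈ 𝐆 b) (n1 : x ∉ 𝐐 a)
    (n2 : y ∉ 𝐐 a) : x * y ∈ 𝐐 a := mul_mem_of_idx2 (h.loc hb).idx2 ⟨h0, h1⟩ ⟨h2, h3⟩ n1 n2

theorem exists_ne (hb : Γ.Adj a b) : ∃ c, Γ.Adj a c ∧ c ≠ b := by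
  obtain ⟨g, hg, hn⟩ := SetLike.not_le_iff_exists.1 (h.loc hb).not_le'
  exact ⟨g • b, h.smul' hg hb, fun e => hn ⟨hg, e⟩⟩

theorem sw_ne (hb : Γ.Adj a b) (hc : Γ.Adj a c) (hne : b ≠ c) (h0 : t ∈ 𝐆 a) (h1 : t ∈ 𝐆 b) (hn : t ∉ 𝐐 a) :
    t • c ≠ c := fun e => hn (h.fix2 hb hc hne h0 h1 e)
omit h in
theorem sw_ne' (hne : b ≠ c) (h1 : t ∈ 𝐆 b) : t • c ≠ b := fun e =>
  hne (MulAction.injective t ((mem_stabilizer_iff.1 h1).trans e.symm))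

theorem third (hb : Γ.Adj a b) (hc : Γ.Adj a c) (hd : Γ.Adj a d) (hne : b ≠ c) (h0 : t ∈ 𝐆 a) (h1' : t ∈ 𝐆 b)
    (hn : t ∉ 𝐐 a) : d = b ∨ d = c ∨ d = t • c := by
  have h1 := h.sw_ne hb hc hne h0 h1' hn
  have h2 := sw_ne' hne h1'
  obtain ⟨x, hx, rfl⟩ := h.trans hb hc
  obtain ⟨y, hy, rfl⟩ := h.trans hb hd
  have key : ∀ u v : G, u⁻¹ * v ∈ 𝐓 a b → v • b = u • b := fun u v huv => by
    rw [← mul_inv_cancel_left u v, mul_smul, mem_stabilizer_iff.1 huv.2]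
  rcases three_cosets (h.loc hb).idx hx (mul_mem h0 hx) hy (fun e => hne e.2.symm)
    (fun e => h2 (by rw [← mul_smul]; exact e.2)) (fun e => h1 (by rw [← mul_smul]; exact key _ _ e)) with e | e | e
  · exact Or.inl e.2
  · exact Or.inr (Or.inl (key _ _ e))
  · exact Or.inr (Or.inr (by rw [← mul_smul]; exact key _ _ e))

/-- an element of `T a b` outside `Q a` swaps the two other neighbours. -/
theorem sw (hb : Γ.Adj a b) (hc : Γ.Adj a c) (hd : Γ.Adj a d) (n1 : b ≠ c) (n2 : b ≠ d) (n3 : c ≠ d) (h0 : t ∈ 𝐆 a)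
    (h1 : t ∈ 𝐆 b) (hn : t ∉ 𝐐 a) : t • c = d := by
  rcases h.third hb hc hd n1 h0 h1 hn with e | e | e
  · exact absurd e.symm n2
  · exact absurd e.symm n3
  · exact e.symm

theorem nbr3 (hb : Γ.Adj a b) (hc : Γ.Adj a c) (hd : Γ.Adj a d) (n1 : b ≠ c) (n2 : b ≠ d) (n3 : c ≠ d)
    (he : Γ.Adj a e) : e = b ∨ e = c ∨ e = d := by
  obtain ⟨t, ht, hn⟩ := h.exQ hb.symm
  have h0 := h.Q_le hb.symm ht
  rw [← h.sw hb hc hd n1 n2 n3 h0 (QG b ht) hn]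
  exact h.third hb hc he n1 h0 (QG b ht) hn

theorem ex3 (hb : Γ.Adj a b) (hc : Γ.Adj a c) (n1 : b ≠ c) : ∃ d, Γ.Adj a d ∧ b ≠ d ∧ c ≠ d := by
  obtain ⟨t, ht, hn⟩ := h.exQ hb.symm
  have h0 := h.Q_le hb.symm ht
  exact ⟨t • c, h.smul' h0 hc, (sw_ne' n1 (QG b ht)).symm, (h.sw_ne hb hc n1 h0 (QG b ht) hn).symm⟩

theorem trans2 (hb : Γ.Adj a b) (hc : Γ.Adj a c) (n1 : b ≠ c) (hb' : Γ.Adj a b') (hc' : Γ.Adj a c') (n2 : b' ≠ c') :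
    ∃ g ∈ 𝐆 a, g • b = b' ∧ g • c = c' := by
  obtain ⟨g, hg, rfl⟩ := h.trans hb hb'
  by_cases e : g • c = c'
  · exact ⟨g, hg, rfl, e⟩
  obtain ⟨t, ht, hn⟩ := h.exQ hb'.symm
  have h0 := h.Q_le hb'.symm ht
  refine ⟨t * g, mul_mem h0 hg, by rw [mul_smul]; exact QG _ ht, ?_⟩
  rw [mul_smul]
  exact h.sw hb' (h.smul' hg hc) hc' (fun e => n1 (MulAction.injective g e)) n2 e h0 (QG _ ht) hn

theorem tr1 (hb : Γ.Adj a b) (hb' : Γ.Adj a' b') (e : IsA G a ↔ IsA G a') : ∃ g : G, g • a = a' ∧ g • b = b' := by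
  obtain ⟨g, h1 | ⟨h1, h2⟩⟩ := h.edge hb hb'
  · exact ⟨g, h1⟩
  · have := h.alt hb'
    rw [← h1, isA_smul] at this
    tauto

theorem tr2 (hb : Γ.Adj a b) (hc : Γ.Adj a c) (n1 : b ≠ c) (hb' : Γ.Adj a' b') (hc' : Γ.Adj a' c') (n2 : b' ≠ c')
    (e : IsA G a ↔ IsA G a') : ∃ g : G, g • a = a' ∧ g • b = b' ∧ g • c = c' := by
  obtain ⟨g, rfl, rfl⟩ := h.tr1 hb hb' e
  obtain ⟨k, hk, e1, e2⟩ := h.trans2 hb' (h.smul g hc) (fun e => n1 (MulAction.injective g e)) hb' hc' n2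
  exact ⟨k * g, by rw [mul_smul]; exact hk, by rw [mul_smul, e1], by rw [mul_smul, e2]⟩

theorem tr3 (hb : Γ.Adj a b) (hc : Γ.Adj a c) (hd : Γ.Adj a d) (n1 : b ≠ c) (n2 : b ≠ d) (n3 : c ≠ d)
    (hb' : Γ.Adj a' b') (hc' : Γ.Adj a' c') (hd' : Γ.Adj a' d') (m1 : b' ≠ c') (m2 : b' ≠ d') (m3 : c' ≠ d')
    (e : IsA G a ↔ IsA G a') : ∃ g : G, g • a = a' ∧ g • b = b' ∧ g • c = c' ∧ g • d = d' := by
  obtain ⟨g, rfl, rfl, rfl⟩ := h.tr2 hb hc n1 hb' hc' m1 e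
  refine ⟨g, rfl, rfl, rfl, ?_⟩
  rcases h.nbr3 hb' hc' hd' m1 m2 m3 (h.smul g hd) with e | e | e
  · exact absurd (MulAction.injective g e).symm n2
  · exact absurd (MulAction.injective g e).symm n3
  · exact e

/-- `G a` is generated by `T a b` and any element moving `b`. -/
theorem gen (hb : Γ.Adj a b) (h1 : 𝐓 a b ≤ X) (hg : g ∈ 𝐆 a) (hn : g • b ≠ b) (h2 : g ∈ X) : 𝐆 a ≤ X := by
  rw [← (h.loc hb).sup_eq (zpowers_le.2 hg) fun e => hn (e (mem_zpowers g)).2]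
  exact sup_le h1 (zpowers_le.2 h2)

theorem nn (hF : Eqv F) (hb : Γ.Adj a b) (hq : F b ≤ 𝐐 b) (hne : F b ≠ ⊥) (hg : g ∈ 𝐆 a) (hn : g • b ≠ b)
    (hc : ∀ x ∈ F b, g * x * g⁻¹ ∈ F b) : False :=
  hne (h.core hb (hq.trans (h.QT' hb)) (h.gen hb (inf_le_right.trans (hF.norm b)) hg hn
    (mem_normalizer_of_cj_le (cj_le_iff_forall.2 hc))) (hF.norm b))

theorem nle (hF : Eqv F) (hb : Γ.Adj a b) (hc : Γ.Adj a c) (hne : b ≠ c) (hq : F c ≤ 𝐐 c) (h0 : F c ≠ ⊥) :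
    ¬ F b ≤ F c := fun e => by
  obtain ⟨g, hg, rfl⟩ := h.trans hc hb
  exact h.nn hF hc hq h0 hg hne fun x hx => e (hF.mem rfl hx)

theorem l3 (ha : IsA G a) (hb : Γ.Adj a b) : L3 (𝐓 a b) (𝐆 a) :=
  ⟨h.loc hb, h.ch a, fun e => ha (e.trans (centralizer_anti ((h.loc hb).syl.sylowCenterClosure_le le_rfl
    (le_normalizer_of_le_centralizer e))))⟩

theorem memQ (ha : IsA G a) (h0 : x ∈ 𝐆 a) (hc : ∀ z ∈ 𝐙 a, z * x = x * z) : x ∈ 𝐐 a :=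
  let ⟨_, hb⟩ := h.nbr a
  (h.l3 ha hb).cent.le ⟨h0, mem_centralizer_iff.2 hc⟩

theorem Bc (hb : ¬ IsA G b) (hz : z ∈ 𝐙 b) (hg : g ∈ 𝐆 b) : z * g = g * z := not_not.1 hb hg z hz

theorem Zb_eq (ha : IsA G a) (hb : Γ.Adj a b) : 𝐙 b = OZ (𝐓 a b) :=
  le_antisymm (le_OZ ((h.ZQ b).trans (h.QT' hb)) (fun z hz => mem_centralizer_iff.2 fun g hg =>
    (h.Bc (h.B_of hb ha) hz hg.2).symm) fun z hz => by rw [pow_two, h.ea b z hz]) (h.loc' hb).syl.le_sylowCenterClosure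

theorem Zle (ha : IsA G a) (hb : Γ.Adj a b) : 𝐙 b ≤ 𝐙 a :=
  (h.Zb_eq ha hb).le.trans (h.loc hb).syl.le_sylowCenterClosure

theorem memT (hb : Γ.Adj a b) (h0 : t ∈ 𝐆 a) (h1 : t ∈ 𝐆 b) (hn : t ∉ 𝐐 a) (hq : 𝐐 a ≤ X) (ht : t ∈ X) :
    𝐓 a b ≤ X := by
  rw [← (h.loc hb).supQ (X := zpowers t) (zpowers_le.2 ⟨h0, h1⟩) fun e => hn (e (mem_zpowers t))]
  exact sup_le hq (zpowers_le.2 ht)

/-- an involution of `Z(Q a)` centralised by an element of `T a b` outside `Q a` lies in `Z b`. -/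
theorem fixO (ha : IsA G a) (hb : Γ.Adj a b) (h0 : t ∈ 𝐆 a) (h1 : t ∈ 𝐆 b) (hn : t ∉ 𝐐 a) (hz : z ∈ 𝐐 a)
    (h2 : z * z = 1) (hq : ∀ x ∈ 𝐐 a, z * x = x * z) (hc : z * t = t * z) : z ∈ 𝐙 b := by
  rw [h.Zb_eq ha hb]
  have := h.memT (X := centralizer {z}) hb h0 h1 hn (fun x hx => mem_centralizer_singleton_iff.2 (hq x hx).symm)
    (mem_centralizer_singleton_iff.2 hc.symm)
  exact mem_omegaOne ⟨h.QT hb hz, mem_centralizer_iff.2 fun y hy => mem_centralizer_singleton_iff.1 (this hy)⟩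
    (by rw [pow_two, h2])

theorem fixZ (ha : IsA G a) (hb : Γ.Adj a b) (h0 : t ∈ 𝐆 a) (h1 : t ∈ 𝐆 b) (hn : t ∉ 𝐐 a) (hz : z ∈ 𝐙 a)
    (hc : z * t = t * z) : z ∈ 𝐙 b :=
  h.fixO ha hb h0 h1 hn (h.ZQ a hz) (h.ea a z hz) (fun _ hx => h.ZcQ hz hx) hc

/-- the same at a vertex of the second type. -/
theorem fixB (ha : IsA G a) (hb : Γ.Adj a b) (h0 : t ∈ 𝐆 a) (h1 : t ∈ 𝐆 b) (hn : t ∉ 𝐐 b) (hz : z ∈ 𝐐 b)
    (h2 : z * z = 1) (hq : ∀ x ∈ 𝐐 b, z * x = x * z) (hc : z * t = t * z) : z ∈ 𝐙 b := by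
  rw [h.Zb_eq ha hb, Tv_comm]
  have := h.memT (X := centralizer {z}) hb.symm h1 h0 hn (fun x hx => mem_centralizer_singleton_iff.2 (hq x hx).symm)
    (mem_centralizer_singleton_iff.2 hc.symm)
  exact mem_omegaOne ⟨h.QT hb.symm hz, mem_centralizer_iff.2 fun y hy => mem_centralizer_singleton_iff.1 (this hy)⟩
    (by rw [pow_two, h2])

end MG

end Cfsg.Agent.Sig.GA
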