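import Cfsg.Agent.Sig.GA1

/-! Goldschmidt amalgams of mixed type: structure of `Z a`, critical distance at least 2, the pattern lemma. -/

set_option linter.unusedSectionVars false
set_option linter.unusedVariables false
set_option linter.unusedSimpArgs false

namespace Cfsg.Agent.Sig.GA
open Subgroup Cfsg MulAction Cfsg.Agent.Loc
open scoped commutatorElement

variable {G : Type*} [Group G] [Finite G] {V : Type*} [MulAction G V] {Γ : SimpleGraph V}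
  {a b c d f a' b' c' d' : V} {X Y N I M : Subgroup G} {e g t s x y z u v w : G} {F L : V → Subgroup G}

local notation "𝐆" => stabilizer G
local notation "𝐐" => Qv G
local notation "𝐙" => Zv G
local notation "𝐓" => Tv G
local notation "𝐕" => Up Γ (Zv G)

theorem cm_iff : ⁅x, y⁆ = 1 ↔ x * y = y * x := commutatorElement_eq_one_iff_mul_comm
theorem cm_mul (x y g : G) : ⁅x * y, g⁆ = x * ⁅y, g⁆ * x⁻¹ * ⁅x, g⁆ := by simp only [commutatorElement_def]; group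
theorem cm_mul' (x y g : G) : ⁅g, x * y⁆ = ⁅g, x⁆ * (x * ⁅g, y⁆ * x⁻¹) := by simp only [commutatorElement_def]; group
theorem conj_eq (h : z * g = g * z) : g * z * g⁻¹ = z := by rw [← h]; group

theorem cent_of_three (h3 : orderOf e = 3) (h : e * e * y = y * (e * e)) : e * y = y * e := by
  have h4 : e = e * e * (e * e) := by
    have := pow_orderOf_eq_one e
    rw [h3] at this
    calc e = e ^ 3 * e := by rw [this, one_mul]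
      _ = _ := by simp only [pow_succ, pow_zero, one_mul, mul_assoc]
  calc e * y = e * e * (e * e * y) := by rw [← mul_assoc, ← h4]
    _ = e * e * y * (e * e) := by rw [mul_assoc (e * e) y, ← h]
    _ = y * e := by rw [h, mul_assoc, ← h4]

theorem cent_of_three' (h3 : orderOf e = 3) (h1 : ⁅y, e⁆ * e = e * ⁅y, e⁆) (h2 : ⁅y, e⁆ * ⁅y, e⁆ = 1) :
    e * y = y * e := by
  refine cent_of_three h3 ?_
  have h4 : y * e = ⁅y, e⁆ * (e * y) := by rw [commutatorElement_def]; group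
  symm
  calc y * (e * e) = ⁅y, e⁆ * e * (y * e) := by rw [← mul_assoc, h4]; group
    _ = e * (⁅y, e⁆ * ⁅y, e⁆) * (e * y) := by rw [h1]; nth_rewrite 1 [h4]; group
    _ = _ := by rw [h2]; group

def Ov (G : Type*) [Group G] [MulAction G V] (a : V) : Subgroup G := OZ (Qv G a)
theorem eO : Eqv (Ov G : V → Subgroup G) := fun g a => by rw [Ov, Ov, Qv_smul, cj_omegaOne_center]
theorem mem_Ov : z ∈ Ov G a ↔ z ∈ 𝐐 a ∧ z * z = 1 ∧ ∀ x ∈ 𝐐 a, z * x = x * z := by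
  rw [Ov, mem_omegaOne_iff (center_le_centralizer_self _), mem_inf, mem_centralizer_iff, pow_two]
  exact ⟨fun h => ⟨h.1.1, h.2, fun x hx => (h.1.2 x hx).symm⟩, fun h => ⟨⟨h.1, fun x hx => (h.2.2 x hx).symm⟩, h.2.1⟩⟩

namespace MG
variable (h : MG G Γ)
include h

theorem commO (hb : Γ.Adj a b) (h0 : t ∈ 𝐆 a) (h1 : t ∈ 𝐆 b) (hn : t ∉ 𝐐 a) (hz : z ∈ Ov G a) :
    ⁅z, t⁆ * t = t * ⁅z, t⁆ := by
  obtain ⟨z1, z2, z3⟩ := mem_Ov.1 hz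
  have h2 := z3 _ (h.ixQ hb h0 h1 h0 h1 hn hn)
  have h3 := z3 _ (eQ.conj h0 z1)
  have hi : z⁻¹ = z := inv_eq_of_mul_eq_one_right z2
  rw [commutatorElement_def, hi]
  calc z * t * z * t⁻¹ * t = z * (t * z * t⁻¹) * t := by group
    _ = t * z * t⁻¹ * (z * (t * t)) * t⁻¹ := by rw [h3]; group
    _ = _ := by rw [h2]; group

theorem commZ (ha : IsA G a) (hb : Γ.Adj a b) (h0 : t ∈ 𝐆 a) (h1 : t ∈ 𝐆 b) (hz : z ∈ Ov G a) : ⁅z, t⁆ ∈ 𝐙 b := by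
  by_cases hn : t ∈ 𝐐 a
  · rw [cm_iff.2 ((mem_Ov.1 hz).2.2 t hn)]; exact one_mem _
  obtain ⟨z1, z2, z3⟩ := mem_Ov.1 (eO.comm hz h0)
  exact h.fixO ha hb h0 h1 hn z1 z2 z3 (h.commO hb h0 h1 hn hz)

theorem commZ' (ha : IsA G a) (hb : Γ.Adj a b) (h0 : t ∈ 𝐆 a) (h1 : t ∈ 𝐆 b) (hz : z ∈ 𝐙 a) : ⁅z, t⁆ ∈ 𝐙 b :=
  h.commZ ha hb h0 h1 (h.ZO a hz)

theorem commB (ha : IsA G a) (hb : Γ.Adj a b) (h0 : t ∈ 𝐆 a) (h1 : t ∈ 𝐆 b) (hz : z ∈ Ov G b) : ⁅z, t⁆ ∈ 𝐙 b := by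
  by_cases hn : t ∈ 𝐐 b
  · rw [cm_iff.2 ((mem_Ov.1 hz).2.2 t hn)]; exact one_mem _
  obtain ⟨z1, z2, z3⟩ := mem_Ov.1 (eO.comm hz h1)
  exact h.fixB ha hb h0 h1 hn z1 z2 z3 (h.commO hb.symm h1 h0 hn hz)

theorem cen_one (ha : IsA G a) (hb : Γ.Adj a b) (hx : x ∈ 𝐙 b) (hg : g ∈ 𝐆 a) (hn : g • b ≠ b)
    (hc : x * g = g * x) : x = 1 := by
  have k : 𝐆 b ≤ centralizer {x} := fun y hy => mem_centralizer_singleton_iff.2 (h.Bc (h.B_of hb ha) hx hy).symm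
  have k2 : ∀ {X : Subgroup G}, X ≤ centralizer {x} → X ≤ normalizer ((zpowers x : Subgroup G) : Set G) := fun k =>
    le_normalizer_of_le_centralizer (by rwa [centralizer_zpowers])
  exact zpowers_eq_bot.1 (h.core hb (zpowers_le.2 (h.QT' hb (h.ZQ b hx)))
    (k2 (h.gen hb (inf_le_right.trans k) hg hn (mem_centralizer_singleton_iff.2 hc.symm))) (k2 k))

theorem fixA (ha : IsA G a) (hb : Γ.Adj a b) (hx : x ∈ 𝐙 b) (h1 : x ≠ 1) (hg : g ∈ 𝐆 a) (hc : x * g = g * x) :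
    g ∈ 𝐆 b := by
  by_contra hn
  exact h1 (h.cen_one ha hb hx hg hn hc)

theorem ZZ (ha : IsA G a) (hb : Γ.Adj a b) (hc : Γ.Adj a c) (hne : b ≠ c) (h1 : x ∈ 𝐙 b) (h2 : x ∈ 𝐙 c) : x = 1 := by
  obtain ⟨t, ht, hn⟩ := h.exQ hc.symm
  have h0 := h.Q_le hc.symm ht
  exact h.cen_one ha hb h1 h0 (h.sw_ne hc hb hne.symm h0 (QG c ht) hn) (h.ZcQ h2 ht)

theorem nbot (ha : IsA G a) (hN : N ≤ 𝐐 a) (hn : 𝐆 a ≤ normalizer (N : Set G)) (hx : x ∈ 𝐆 a) (hq : x ∉ 𝐐 a)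
    (hc : ∀ y ∈ N, y * x = x * y) : N = ⊥ := by
  obtain ⟨b, hb⟩ := h.nbr a
  by_contra hne
  have h1 : ¬ 𝐆 a ⊓ centralizer (N : Set G) ≤ 𝐓 a b := fun e => hq (le_pCoreOf inf_le_left
    (le_normalizer_inf le_normalizer (le_normalizer_centralizer hn)) ((h.loc hb).syl.pg.to_le e)
    ⟨hx, mem_centralizer_iff.2 hc⟩)
  obtain ⟨g, hg, hgn⟩ := SetLike.not_le_iff_exists.1 h1
  have hp := (h.loc hb).syl.pg.to_le (hN.trans (h.QT hb))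
  obtain ⟨y, hy, y1, y2⟩ := exists_pow_eq_one_of_isPGroup hp.to_inf_left
    (inf_centralizer_ne_bot (h.loc hb).syl.pg hp (inf_le_left.trans hn) hne)
  refine y1 (h.cen_one ha hb ?_ hg.1 (fun e => hgn ⟨hg.1, e⟩) (hg.2 y hy.1))
  rw [h.Zb_eq ha hb]
  exact mem_omegaOne ⟨h.QT hb (hN hy.1), hy.2⟩ y2

theorem surj (ha : IsA G a) (hb : Γ.Adj a b) (hc : Γ.Adj a c) (hne : b ≠ c) (h0 : t ∈ 𝐆 a) (h1 : t ∈ 𝐆 b)
    (hn : t ∉ 𝐐 a) (hz : z ∈ 𝐙 b) : ∃ v ∈ 𝐙 c, ⁅v, t⁆ = z := by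
  let φ : 𝐙 c → 𝐙 b := fun v => ⟨⁅(v : G), t⁆, h.commZ' ha hb h0 h1 (h.Zle ha hc v.2)⟩
  have hi : Function.Injective φ := by
    intro u v e
    have e1 : ⁅(u : G), t⁆ = ⁅(v : G), t⁆ := congrArg Subtype.val e
    have m : (v : G)⁻¹ * u ∈ 𝐙 c := mul_mem (inv_mem v.2) u.2
    have k := h.ZZ ha hb hc hne (h.fixZ ha hb h0 h1 hn (h.Zle ha hc m) (by
      calc (v : G)⁻¹ * u * t = (v : G)⁻¹ * ⁅(u : G), t⁆ * t * u := by rw [commutatorElement_def]; group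
        _ = _ := by rw [e1, commutatorElement_def]; group)) m
    exact Subtype.ext (inv_mul_eq_one.1 k).symm
  obtain ⟨g, hg, e⟩ := h.trans hb hc
  obtain ⟨v, hv⟩ := ((Nat.bijective_iff_injective_and_card φ).2 ⟨hi, eZ.card e⟩).2 ⟨z, hz⟩
  exact ⟨v, v.2, congrArg Subtype.val hv⟩

theorem dec (ha : IsA G a) (hb : Γ.Adj a b) (hc : Γ.Adj a c) (hne : b ≠ c) (hz : z ∈ Ov G a) :
    ∃ u ∈ 𝐙 b, ∃ v ∈ 𝐙 c, z = v * u := by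
  obtain ⟨t, ht, hn⟩ := h.exQ hb.symm
  have h0 := h.Q_le hb.symm ht
  have h1 := QG b ht
  obtain ⟨v, hv, e1⟩ := h.surj ha hb hc hne h0 h1 hn (h.commZ ha hb h0 h1 hz)
  obtain ⟨z1, z2, z3⟩ := mem_Ov.1 (mul_mem (inv_mem (h.ZO a (h.Zle ha hc hv))) hz)
  refine ⟨v⁻¹ * z, h.fixO ha hb h0 h1 hn z1 z2 z3 ?_, v, hv, by group⟩
  calc v⁻¹ * z * t = v⁻¹ * ⁅z, t⁆ * t * z := by rw [commutatorElement_def]; group
    _ = _ := by rw [← e1, commutatorElement_def]; group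

theorem memZ (ha : IsA G a) (hz : z ∈ 𝐐 a) (h2 : z * z = 1) (hc : ∀ x ∈ 𝐐 a, z * x = x * z) : z ∈ 𝐙 a := by
  obtain ⟨b, hb⟩ := h.nbr a
  obtain ⟨c, hc', hne⟩ := h.exists_ne hb
  obtain ⟨u, hu, v, hv, rfl⟩ := h.dec ha hb hc' hne.symm (mem_Ov.2 ⟨hz, h2, hc⟩)
  exact mul_mem (h.Zle ha hc' hv) (h.Zle ha hb hu)

theorem cenZ (ha : IsA G a) (hb : Γ.Adj a b) (hc : Γ.Adj a c) (hne : b ≠ c) (hg : g ∈ 𝐆 a)
    (h1 : ∀ z ∈ 𝐙 b, z * g = g * z) (h2 : ∀ z ∈ 𝐙 c, z * g = g * z) : g ∈ 𝐐 a := h.memQ ha hg fun z hz => by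
  obtain ⟨u, hu, v, hv, rfl⟩ := h.dec ha hb hc hne (h.ZO a hz)
  rw [mul_assoc, h1 u hu, ← mul_assoc, h2 v hv, mul_assoc]

theorem exZa (ha : IsA G a) (hb : Γ.Adj a b) : ∃ z ∈ 𝐙 a, z ∉ 𝐙 b := by
  obtain ⟨c, hc, hne⟩ := h.exists_ne hb
  obtain ⟨z, hz, h1⟩ := h.exZ c
  exact ⟨z, h.Zle ha hc hz, fun e => h1 (h.ZZ ha hb hc hne.symm e hz)⟩

theorem res3 (ha : IsA G a) (hb : Γ.Adj a b) (hC : 𝐆 b ≤ normalizer (Y : Set G)) (hX : X ≤ 𝐆 b) (hn : ¬ X ≤ 𝐐 b)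
    (hc : ⁅Y, X⁆ ≤ 𝐙 b) (he : e ∈ 𝐆 b) (h3 : orderOf e = 3) (hy : y ∈ Y) : e * y = y * e := by
  have k := (h.loc' hb).comm_res (nZ b) hC hX hn hc
    (commutator_mem_commutator hy (mem_pResidualOf he (by rw [h3]; norm_num)))
  exact cent_of_three' h3 (h.Bc (h.B_of hb ha) k he) (h.ea b _ k)

theorem ZQ1 (hb : Γ.Adj a b) : 𝐙 a ≤ 𝐐 b := by
  by_cases ha : IsA G a
  swap
  · exact (h.Zle (h.A_of hb.symm ha) hb.symm).trans (h.ZQ b)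
  by_contra hn
  obtain ⟨e, he, h3⟩ := (h.loc' hb).exists_three
  refine (h.loc' hb).not_mem_three h3 (h.QT' hb (h.ch b ⟨he, mem_centralizer_iff.2 fun y hy => ?_⟩))
  refine (h.res3 ha hb (nQ b) ((h.ZQ a).trans (h.Q_le hb)) hn (commutator_le.2 fun x hx z hz => ?_) he h3 hy).symm
  rw [← commutatorElement_inv]
  exact inv_mem (h.commZ' ha hb (h.Q_le hb.symm hx) (QG b hx) hz)

theorem QQ (hb : ¬ IsA G b) (ha : Γ.Adj b a) (hc : Γ.Adj b c) (hne : a ≠ c) : ∃ x ∈ 𝐐 b, x ∈ 𝐐 a ∧ x ∉ 𝐐 c := by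
  by_contra hcon
  push Not at hcon
  have hA := h.A_of ha.symm hb
  have key : ∀ {a' c' : V}, Γ.Adj b a' → Γ.Adj b c' → a' ≠ c' → ∀ x ∈ 𝐐 b, x ∈ 𝐐 a' → x ∈ 𝐐 c' := by
    intro a' c' h1 h2 h3 x hx hx'
    obtain ⟨g, hg, e1, e2⟩ := h.trans2 h1 h2 h3 ha hc hne
    exact (eQ.mem_iff e2).1 (hcon _ (eQ.conj hg hx) (eQ.mem e1 hx'))
  obtain ⟨e, he, h3⟩ := (h.loc ha).exists_three
  have n1 : e • a ≠ a := fun k => (h.loc ha).not_mem_three h3 ⟨he, k⟩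
  have ha' := h.smul' he ha
  refine h.nn eZ ha (h.ZQ a) (h.Z_ne_bot a) he n1 fun z hz => ?_
  have hz' : e * z * e⁻¹ ∈ 𝐙 (e • a) := eZ.mem rfl hz
  have zb := h.ZQ1 ha.symm hz
  have c1 : e * z * e⁻¹ * z = z * (e * z * e⁻¹) := h.ZcQ hz' (key ha ha' n1.symm z zb (h.ZQ a hz))
  have hy : z * (e * z * e⁻¹) ∈ Ov G b := by
    refine mem_Ov.2 ⟨mul_mem zb (h.ZQ1 ha'.symm hz'), ?_, fun x hx => ?_⟩
    · calc _ = z * (e * z * e⁻¹ * z) * (e * z * e⁻¹) := by group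
        _ = z * z * (e * z * e⁻¹ * (e * z * e⁻¹)) := by rw [c1]; group
        _ = 1 := by rw [h.ea a z hz, h.ea _ _ hz', one_mul]
    by_cases hq : x ∈ 𝐐 a
    · rw [mul_assoc, h.ZcQ hz' (key ha ha' n1.symm x hx hq), ← mul_assoc, h.ZcQ hz hq, mul_assoc]
    have hx' : e⁻¹ * x * e⁻¹⁻¹ ∈ 𝐐 b := eQ.conj (inv_mem he) hx
    have hq' : e⁻¹ * x * e⁻¹⁻¹ ∉ 𝐐 a := fun k =>
      hq (key ha' ha n1 x hx ((eQ.mem_iff (inv_smul_smul e a)).1 k))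
    have k := h.ZcQ hz (h.ixQ ha.symm (inv_mem (h.Q_le ha hx)) (inv_mem (QG b hx)) (h.Q_le ha hx') (QG b hx')
      (fun k => hq ((inv_mem_iff).1 k)) hq')
    have m := h.commZ' hA ha.symm (h.Q_le ha hx) (QG b hx) hz
    have e1 : ⁅e * z * e⁻¹, x⁆ = ⁅z, x⁆ := by
      calc ⁅e * z * e⁻¹, x⁆ = e * (z * x * z⁻¹ * (z * (x⁻¹ * (e⁻¹ * x * e⁻¹⁻¹))) * z⁻¹ *
            (e⁻¹ * x * e⁻¹⁻¹)⁻¹) * e⁻¹ := by rw [commutatorElement_def]; group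
        _ = e * ⁅z, x⁆ * e⁻¹ := by rw [k, commutatorElement_def]; group
        _ = _ := conj_eq (h.Bc hb m he)
    rw [← cm_iff, cm_mul, e1, conj_eq (h.Bc hb m (QG b zb)), h.ea b _ m]
  have k := h.res3 hA ha.symm (eO.norm b) (X := 𝐓 a b) inf_le_right (h.loc' ha.symm).not_le
    (commutator_le.2 fun y hy t ht => h.commB hA ha.symm ht.1 ht.2 hy) he h3 hy
  have k2 : e * e * z = z * (e * e) := by
    calc e * e * z = (e * z * e⁻¹)⁻¹ * (e * (z * (e * z * e⁻¹))) * e := by group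
      _ = (e * z * e⁻¹)⁻¹ * (e * z * e⁻¹ * z) * (e * e) := by rw [k, c1]; group
      _ = _ := by group
  rwa [cent_of_three h3 k2, mul_inv_cancel_right]

theorem ZZ' (hb : ¬ IsA G b) (ha : Γ.Adj b a) (hc : Γ.Adj b c) (hne : a ≠ c) (h1 : x ∈ 𝐙 a) (h2 : x ∈ 𝐙 c) :
    x ∈ 𝐙 b := by
  obtain ⟨t, t1, t2, t3⟩ := h.QQ hb ha hc hne
  exact h.fixZ (h.A_of hc.symm hb) hc.symm (h.Q_le hc t1) (QG b t1) t3 h2 (h.ZcQ h1 t2)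

theorem fixB' (hb : ¬ IsA G b) (ha : Γ.Adj b a) (hz : z ∈ 𝐙 a) (hn : z ∉ 𝐙 b) (hg : g ∈ 𝐆 b) (hc : z * g = g * z) :
    g ∈ 𝐆 a := by
  by_contra k
  exact hn (h.ZZ' hb ha (h.smul' hg ha) (Ne.symm k) hz (conj_eq hc ▸ eZ.mem rfl hz))

theorem eV : Eqv (𝐕 : V → Subgroup G) := h.up eZ
theorem VQ (b : V) : 𝐕 b ≤ 𝐐 b := Up_le fun _ ha => h.ZQ1 ha.symm
theorem ZV (hb : ¬ IsA G b) : 𝐙 b ≤ 𝐕 b := let ⟨_, ha⟩ := h.nbr b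
  (h.Zle (h.A_of ha.symm hb) ha.symm).trans (le_Up ha)
theorem V_ne_bot (b : V) : 𝐕 b ≠ ⊥ := fun e => let ⟨a, ha⟩ := h.nbr b
  h.Z_ne_bot a (le_bot_iff.1 ((le_Up ha).trans e.le))
omit h in
theorem Up_ne_bot (hb : Γ.Adj a b) (h0 : F b ≠ ⊥) : Up Γ F a ≠ ⊥ := fun e => h0 (le_bot_iff.1 ((le_Up hb).trans e.le))

theorem commV (hb : ¬ IsA G b) (hv : v ∈ 𝐕 b) (hx : x ∈ 𝐐 b) : ⁅v, x⁆ ∈ 𝐙 b :=
  comm_Up (fun a ha => (h.ZQ1 ha.symm).trans ((QG b).trans (nZ b)))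
    (fun a ha u hu => h.commZ' (h.A_of ha.symm hb) ha.symm (h.Q_le ha hx) (QG b hx) hu) hv

theorem CG (hb : ¬ IsA G b) (ha : Γ.Adj b a) (hg : g ∈ 𝐆 b) (hc : g ∈ Cn 𝐕 b) : g ∈ 𝐐 a := by
  have hA := h.A_of ha.symm hb
  obtain ⟨z, hz, hn⟩ := h.exZa hA ha.symm
  exact h.memQ hA (h.fixB' hb ha hz hn hg (Cn.comm hc (le_Up ha hz))) fun z hz => Cn.comm hc (le_Up ha hz)

theorem CQ (hb : ¬ IsA G b) (hg : g ∈ 𝐆 b) (hc : g ∈ Cn 𝐕 b) : g ∈ 𝐐 b := by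
  obtain ⟨a, ha⟩ := h.nbr b
  obtain ⟨c, hc', hne⟩ := h.exists_ne ha
  exact h.fix2 ha hc' hne.symm hg (QG a (h.CG hb ha hg hc)) (QG c (h.CG hb hc' hg hc))

theorem cnUp (hb : Γ.Adj a b) (hc : Γ.Adj a c) (hd : Γ.Adj a d) (n1 : b ≠ c) (n2 : b ≠ d) (n3 : c ≠ d)
    (h1 : g ∈ Cn F b) (h2 : g ∈ Cn F c) (h3 : g ∈ Cn F d) : g ∈ Cn (Up Γ F) a := by
  have : Up Γ F a ≤ centralizer {g} := Up_le fun e he y hy => mem_centralizer_singleton_iff.2 (by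
    rcases h.nbr3 hb hc hd n1 n2 n3 he with rfl | rfl | rfl
    exacts [Cn.comm h1 hy, Cn.comm h2 hy, Cn.comm h3 hy])
  exact mem_Cn.2 fun y hy => mem_centralizer_singleton_iff.1 (this hy)

theorem memC (hb : Γ.Adj a b) (hc : Γ.Adj a c) (hd : Γ.Adj a d) (n1 : b ≠ c) (n2 : b ≠ d) (n3 : c ≠ d)
    (h1 : g ∈ 𝐐 b) (h2 : g ∈ 𝐐 c) (h3 : g ∈ 𝐐 d) : g ∈ Cn 𝐕 a :=
  h.cnUp hb hc hd n1 n2 n3 (mem_Cn.2 fun _ hy => h.ZcQ hy h1) (mem_Cn.2 fun _ hy => h.ZcQ hy h2)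
    (mem_Cn.2 fun _ hy => h.ZcQ hy h3)

end MG

end Cfsg.Agent.Sig.GA
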