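import Cfsg.Agent.Sig.GA2

/-! Goldschmidt amalgams of mixed type: counting, distance lemmas, the pattern lemma, critical distance 2. -/

set_option linter.unusedSectionVars false
set_option linter.unusedVariables false
set_option linter.unusedSimpArgs false

namespace Cfsg.Agent.Sig.GA
open Subgroup Cfsg MulAction Cfsg.Agent.Loc
open scoped commutatorElement

variable {G : Type*} [Group G] [Finite G] {V : Type*} [MulAction G V] {Γ : SimpleGraph V}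
  {a b c d f a' b' c' d' : V} {X Y N I J K M : Subgroup G} {e g t s x y z u v w : G} {F L : V → Subgroup G}
  {k l m n i j : ℕ}

local notation "𝐆" => stabilizer G
local notation "𝐐" => Qv G
local notation "𝐙" => Zv G
local notation "𝐓" => Tv G
local notation "𝐕" => Up Γ (Zv G)
local notation "𝐖" => Up Γ (Up Γ (Zv G))

theorem card_le_comm (h : ∀ x ∈ X, ⁅v, x⁆ ∈ M) :
    Nat.card X ≤ Nat.card M * Nat.card (X ⊓ centralizer {v} : Subgroup G) := by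
  let φ : X → M := fun x => ⟨⁅v, (x : G)⁆, h x x.2⟩
  let r := Function.invFun φ
  have hr : ∀ x : X, ⁅v, (r (φ x) : G)⁆ = ⁅v, (x : G)⁆ := fun x =>
    congrArg Subtype.val (Function.invFun_eq (f := φ) ⟨x, rfl⟩)
  let ψ : X → M × (X ⊓ centralizer {v} : Subgroup G) := fun x => (φ x, ⟨(r (φ x) : G)⁻¹ * x,
    X.mul_mem (X.inv_mem (r (φ x)).2) x.2, mem_centralizer_singleton_iff.2 (by
      calc (r (φ x) : G)⁻¹ * x * v = (r (φ x) : G)⁻¹ * ⁅v, (x : G)⁆⁻¹ * v * x := by rw [commutatorElement_def]; group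
        _ = _ := by rw [← hr x, commutatorElement_def]; group)⟩)
  rw [← Nat.card_prod]
  refine Nat.card_le_card_of_injective ψ fun x y e => ?_
  have e1 : φ x = φ y := congrArg Prod.fst e
  have e2 : (r (φ x) : G)⁻¹ * x = (r (φ y) : G)⁻¹ * y := congrArg (fun p => (p.2 : G)) e
  rw [e1] at e2
  exact Subtype.ext (mul_left_cancel e2)

theorem Ix2.card (h : Ix2 K X) : Nat.card X ≤ 2 * Nat.card (X ⊓ K : Subgroup G) := by
  have h1 : K.relIndex X ∣ 2 := by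
    by_cases h2 : X ≤ K
    · rw [relIndex_eq_one.2 h2]; exact one_dvd _
    obtain ⟨u, hu, hn⟩ := SetLike.not_le_iff_exists.1 h2
    exact relIndex_dvd_two_iff.2 ⟨u, hu, fun b hb => (h.or hu hn hb).symm⟩
  rw [← Solv.card_mul_relIndex (inf_le_left : X ⊓ K ≤ X), inf_relIndex_left, mul_comm]
  exact Nat.mul_le_mul_right _ (Nat.le_of_dvd two_pos h1)

theorem Ix2.le (h : Ix2 J X) (hu : u ∈ X) (hn : u ∉ J) (h1 : J ≤ K) (h2 : u ∈ K) : X ≤ K := fun v hv => by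
  rcases h.or hu hn hv with e | e
  · exact h1 e
  · simpa using mul_mem (h1 e) (inv_mem h2)

theorem Ix2.cen (h : Ix2 J X) (hu : u ∈ X) (hn : u ∉ J) (h1 : ∀ y ∈ J, y * g = g * y) (h2 : u * g = g * u)
    (hy : y ∈ X) : y * g = g * y :=
  mem_centralizer_singleton_iff.1 (h.le (K := centralizer {g}) hu hn (fun y hy => mem_centralizer_singleton_iff.2 (h1 y hy))
    (mem_centralizer_singleton_iff.2 h2) hy)

theorem Ix2.comm (h : Ix2 J X) (h1 : x ∈ normalizer (J : Set G)) (h2 : x ∈ normalizer (X : Set G)) (hv : v ∈ X) :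
    ⁅v, x⁆ ∈ J := by
  rw [show ⁅v, x⁆ = v * (x * v⁻¹ * x⁻¹) by rw [commutatorElement_def]; group]
  by_cases hn : v ∈ J
  · exact mul_mem hn (conj_mem_of_mem_normalizer h1 (inv_mem hn))
  · exact h _ hv _ (conj_mem_of_mem_normalizer h2 (inv_mem hv)) hn fun e =>
      hn (inv_mem_iff.1 ((mem_normalizer_iff.1 h1 _).2 e))

theorem Up_cn (h : ∀ b, Γ.Adj a b → x ∈ Cn F b) : x ∈ Cn (Up Γ F) a := by
  have : Up Γ F a ≤ centralizer {x} := Up_le fun e he y hy => mem_centralizer_singleton_iff.2 (Cn.comm (h e he) hy)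
  exact mem_Cn.2 fun y hy => mem_centralizer_singleton_iff.1 (this hy)

theorem EA_Up (h1 : ∀ b, Γ.Adj a b → EA (F b)) (h2 : Up Γ F a ≤ Cn (Up Γ F) a) : EA (Up Γ F a) := fun x hx => by
  have : Up Γ F a ≤ omegaOne 2 (Up Γ F a) := Up_le fun b hb y hy =>
    mem_omegaOne (le_Up hb hy) (by rw [pow_two, h1 b hb y hy])
  rw [← pow_two]; exact pow_eq_one_of_mem_omegaOne h2 (this hx)

/-- `J ∪ J u` inside an elementary abelian group. -/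
def TC (hE : EA X) (J : Subgroup G) (hu : u ∈ X) : Subgroup G where
  carrier := {w | w ∈ X ∧ (w ∈ J ∨ w * u ∈ J)}
  one_mem' := ⟨one_mem _, Or.inl (one_mem _)⟩
  mul_mem' := fun {x y} hx hy => ⟨mul_mem hx.1 hy.1, by
    rcases hx.2 with h1 | h1 <;> rcases hy.2 with h2 | h2
    · exact Or.inl (mul_mem h1 h2)
    · exact Or.inr (mul_assoc x y u ▸ mul_mem h1 h2)
    · refine Or.inr ?_
      rw [mul_assoc, hE.comm hy.1 hu, ← mul_assoc]; exact mul_mem h1 h2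
    · refine Or.inl ?_
      have := mul_mem h1 h2
      rwa [mul_assoc, hE.comm hy.1 hu, ← mul_assoc u, hE u hu, one_mul] at this⟩
  inv_mem' := fun {x} hx => by rwa [hE.inv hx.1]

def Lv (Γ : SimpleGraph V) (G : Type*) [Group G] [MulAction G V] : ℕ → V → Subgroup G
  | 0 => Zv G
  | i + 1 => Up Γ (Lv Γ G i)

def D (Γ : SimpleGraph V) (k : ℕ) (a c : V) : Prop := Γ.dist a c ≤ k
def Cb (Γ : SimpleGraph V) (G : Type*) [Group G] [MulAction G V] (n : ℕ) : Prop :=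
  ∀ a c : V, Γ.dist a c < n → Zv G a ≤ Qv G c
def Q2 (Γ : SimpleGraph V) (G : Type*) [Group G] [MulAction G V] : Prop :=
  ∀ a b : V, Γ.Adj a b → IsA G a → Ix2 (Zv G b) (Zv G a)
def NV (Γ : SimpleGraph V) (G : Type*) [Group G] [MulAction G V] : Prop :=
  ∀ a b : V, Γ.Adj a b → IsA G a → Ix2 (Zv G a) (Up Γ (Zv G) b)

theorem D.refl (a : V) : D Γ 0 a a := by simp [D]
theorem D.symm (h : D Γ k a c) : D Γ k c a := by rwa [D, SimpleGraph.dist_comm]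
theorem D.adj (h : Γ.Adj a b) : D Γ 1 a b := (SimpleGraph.dist_eq_one_iff_adj.2 h).le

namespace MG
variable (h : MG G Γ)
include h

theorem DT (h1 : D Γ k a b) (h2 : D Γ l b c) : D Γ (k + l) a c :=
  (h.conn.dist_triangle (v := b)).trans (Nat.add_le_add h1 h2)
theorem DL (h1 : Γ.Adj a b) (h2 : D Γ k b c) : D Γ (k + 1) a c := add_comm 1 k ▸ h.DT (D.adj h1) h2
theorem DR (h2 : D Γ k a b) (h1 : Γ.Adj b c) : D Γ (k + 1) a c := h.DT h2 (D.adj h1)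
theorem D2 (h1 : Γ.Adj a b) (h2 : Γ.Adj b c) : D Γ 2 a c := h.DR (D.adj h1) h2

theorem next (hd : Γ.dist a c = n + 1) : ∃ a1, Γ.Adj a a1 ∧ Γ.dist a1 c = n := by
  obtain ⟨a1, h1, h2⟩ := exists_adj_dist_succ h.conn (a := a) (b := c) (by rintro rfl; simp at hd)
  exact ⟨a1, h1, by omega⟩

theorem LQ (hb : Cb Γ G n) : ∀ (i : ℕ) {k : ℕ} {a c : V}, D Γ k a c → k + i < n → Lv Γ G i a ≤ 𝐐 c
  | 0, _, _, _, hd, hk => hb _ _ (lt_of_le_of_lt hd hk)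
  | i + 1, _, _, _, hd, hk => Up_le fun _ h1 => LQ hb i (h.DL h1.symm hd) (by omega)

theorem LC (hb : Cb Γ G n) (i : ℕ) : ∀ (j : ℕ) {k : ℕ} {a c : V}, D Γ k a c → k + i + j < n →
    Lv Γ G i a ≤ Cn (Lv Γ G j) c
  | 0, _, _, _, hd, hk => fun _ hx => mem_Cn.2 fun _ hy => h.ZcQ hy (h.LQ hb i hd hk hx)
  | j + 1, _, _, _, hd, hk => fun _ hx => Up_cn fun _ h1 => LC hb i j (h.DR hd h1) (by omega) hx

theorem LE (hb : Cb Γ G n) : ∀ (i : ℕ) (a : V), i + i < n → EA (Lv Γ G i a)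
  | 0, a, _ => h.ea a
  | i + 1, a, hk => EA_Up (fun b _ => LE hb i b (by omega)) (h.LC hb (i + 1) (i + 1) (D.refl a) (by omega))

theorem ZD (hb : Cb Γ G n) (hd : D Γ k a c) (hk : k < n) : 𝐙 a ≤ 𝐐 c := h.LQ hb 0 hd hk
theorem VD (hb : Cb Γ G n) (hd : D Γ k a c) (hk : k + 1 < n) : 𝐕 a ≤ 𝐐 c := h.LQ hb 1 hd hk
theorem WD (hb : Cb Γ G n) (hd : D Γ k a c) (hk : k + 2 < n) : 𝐖 a ≤ 𝐐 c := h.LQ hb 2 hd hk
theorem VV (hb : Cb Γ G n) (hd : D Γ k a c) (hk : k + 2 < n) : 𝐕 a ≤ Cn 𝐕 c := h.LC hb 1 1 hd hk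
theorem WV (hb : Cb Γ G n) (hd : D Γ k a c) (hk : k + 3 < n) : 𝐖 a ≤ Cn 𝐕 c := h.LC hb 2 1 hd hk
theorem WW (hb : Cb Γ G n) (hd : D Γ k a c) (hk : k + 4 < n) : 𝐖 a ≤ Cn 𝐖 c := h.LC hb 2 2 hd hk
theorem EV (hb : Cb Γ G n) (hk : 2 < n) (a : V) : EA (𝐕 a) := h.LE hb 1 a hk
theorem EW (hb : Cb Γ G n) (hk : 4 < n) (a : V) : EA (𝐖 a) := h.LE hb 2 a hk
theorem eW : Eqv (𝐖 : V → Subgroup G) := h.up h.eV
theorem W_ne_bot (a : V) : 𝐖 a ≠ ⊥ := let ⟨b, hb⟩ := h.nbr a; Up_ne_bot hb (h.V_ne_bot b)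

section pat
variable (hF : Eqv F) (hL : Eqv L) (hE : EA (Up Γ F d)) (hix : ∀ c, Γ.Adj d c → Ix2 (L d) (F c))
include hF hL hE hix

theorem pat_s (ha : Γ.Adj d a) (hb : Γ.Adj d b) (hne : a ≠ b) (hu : u ∈ F b) (g0 : g ∈ 𝐆 d) (g1 : g ∈ 𝐆 a)
    (gn : g ∉ 𝐐 d) (x0 : x ∈ 𝐆 d) (x1 : x ∈ 𝐆 a) : ⁅u * (g * u * g⁻¹), x⁆ ∈ L d := by
  by_cases hn : u ∈ L d
  · exact hL.comm (mul_mem hn (hL.conj g0 hn)) x0
  have hc := h.smul' g0 hb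
  have n1 := sw_ne' hne g1
  have n2 := h.sw_ne ha hb hne g0 g1 gn
  have hu' : g * u * g⁻¹ ∈ F (g • b) := hF.mem rfl hu
  have hn' : g * u * g⁻¹ ∉ L d := fun e => hn ((hL.mem_iff g0).1 e)
  generalize g * u * g⁻¹ = u' at hu' hn'
  have m1 := le_Up hb hu
  have m2 := le_Up hc hu'
  have eU := h.up hF
  have m3 := eU.conj x0 m1
  have m4 := eU.conj x0 m2
  have k1 : x * u * x⁻¹ ∉ L d := fun e => hn ((hL.mem_iff x0).1 e)
  have k2 : x * u' * x⁻¹ ∉ L d := fun e => hn' ((hL.mem_iff x0).1 e)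
  have e1 : ⁅u * u', x⁆ = u * (u' * (x * u * x⁻¹)) * (x * u' * x⁻¹) := by
    rw [commutatorElement_def, hE.inv (mul_mem m1 m2)]; group
  by_cases hq : x ∈ 𝐐 d
  · rw [e1, hE.comm m2 m3, ← mul_assoc u, mul_assoc _ u']
    exact mul_mem (hix b hb _ hu _ (hF.conj (h.Q_le hb hq) hu) hn k1)
      (hix _ hc _ hu' _ (hF.conj (h.Q_le hc hq) hu') hn' k2)
  · rw [e1, mul_assoc u, hE.comm (mul_mem m2 m3) m4, ← mul_assoc u]
    exact mul_mem (hix b hb _ hu _ (hF.mem (h.sw ha hc hb n1.symm hne n2 x0 x1 hq) hu') hn k2)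
      (hix _ hc _ hu' _ (hF.mem (h.sw ha hb hc hne n1.symm n2.symm x0 x1 hq) hu) hn' k1)

theorem pat_dec (hle : ∀ c, Γ.Adj d c → L d ≤ F c) (ha : Γ.Adj d a) (hb : Γ.Adj d b) (hc : Γ.Adj d c) (n1 : a ≠ b)
    (n2 : a ≠ c) (n3 : b ≠ c) (hu : u ∈ F b) (hn : u ∉ L d) (hv : v ∈ F c) (hn' : v ∉ L d) (hw : w ∈ Up Γ F d) :
    w ∈ F a ∨ w * (u * v) ∈ F a ∨ w * u ∈ F a ∨ w * v ∈ F a := by
  have m1 := le_Up hb hu
  have m2 := le_Up hc hv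
  have k : ∀ y ∈ F a, y ∈ TC hE (F a) (mul_mem m1 m2) := fun y hy => ⟨le_Up ha hy, Or.inl hy⟩
  have : Up Γ F d ≤ TC hE (TC hE (F a) (mul_mem m1 m2)) m1 := Up_le fun e he y hy => ⟨le_Up he hy, by
    rcases h.nbr3 ha hb hc n1 n2 n3 he with rfl | rfl | rfl
    · exact Or.inl (k y hy)
    · exact ((hix _ he).or hu hn hy).imp (fun e => k _ (hle a ha e)) fun e => k _ (hle a ha e)
    · refine ((hix _ he).or hv hn' hy).imp (fun e => k _ (hle a ha e)) fun e' => ⟨mul_mem (le_Up he hy) m1, Or.inr ?_⟩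
      rw [mul_assoc, ← mul_assoc u, hE u m1, one_mul]; exact hle a ha e'⟩
  rcases (this hw).2 with e | e
  · exact e.2.imp_right Or.inl
  · refine Or.inr (Or.inr (e.2.imp_right fun e => ?_))
    rwa [mul_assoc, ← mul_assoc u, hE u m1, one_mul] at e

theorem pat (hle : ∀ c, Γ.Adj d c → L d ≤ F c) (ha : Γ.Adj d a) (h1 : F a ≤ I) (h2 : I ≤ Up Γ F d)
    (h3 : ¬ Up Γ F d ≤ I) (g0 : g ∈ 𝐆 d) (g1 : g ∈ 𝐆 a) (gn : g ∉ 𝐐 d) (hg : ∀ w ∈ I, g * w * g⁻¹ ∈ I)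
    (x0 : x ∈ 𝐆 d) (x1 : x ∈ 𝐆 a) (hM : L d ≤ M) (hM' : ∀ y ∈ F a, ⁅y, x⁆ ∈ M) (hw : w ∈ I) : ⁅w, x⁆ ∈ M := by
  obtain ⟨b, hb, hne⟩ := h.exists_ne ha
  have hc := h.smul' g0 hb
  have n1 := sw_ne' hne.symm g1
  have n2 := h.sw_ne ha hb hne.symm g0 g1 gn
  have k0 : ∀ {b c : V}, g • b = c → F b ≤ I → F c ≤ I := fun {b c} e k y hy => by
    have := hg _ (k ((hF.mem_iff (x := g⁻¹ * y * g) e).1 (by simpa [mul_assoc] using hy)))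
    simpa [mul_assoc] using this
  have k1 : ¬ F b ≤ I := fun k => h3 (Up_le fun e he => by
    rcases h.nbr3 ha hb hc hne.symm n1.symm n2.symm he with rfl | rfl | rfl
    exacts [h1, k, k0 rfl k])
  have k2 : ¬ F (g • b) ≤ I := fun k => k1 (k0 (h.sw ha hc hb n1.symm hne.symm n2 g0 g1 gn) k)
  have hLI := (hle a ha).trans h1
  obtain ⟨u, hu, hn⟩ := SetLike.not_le_iff_exists.1 fun k : F b ≤ L d => k1 (k.trans hLI)
  have hu' : g * u * g⁻¹ ∈ F (g • b) := hF.mem rfl hu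
  have hn' : g * u * g⁻¹ ∉ L d := fun e => hn ((hL.mem_iff g0).1 e)
  have hs := h.pat_s hF hL hE hix ha hb hne.symm hu g0 g1 gn x0 x1
  have ms := mul_mem (le_Up hb hu) (le_Up hc hu')
  rcases h.pat_dec hF hL hE hix hle ha hb hc hne.symm n1.symm n2.symm hu hn hu' hn' (h2 hw) with e | e | e | e
  · exact hM' w e
  · generalize u * (g * u * g⁻¹) = s at hs ms e
    rw [show w = w * s * s by rw [mul_assoc, hE s ms, mul_one], cm_mul,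
      conj_eq (hE.comm (le_Up ha (hle a ha hs)) (le_Up ha e))]
    exact mul_mem (hM hs) (hM' _ e)
  · exact absurd ((hix b hb).le hu hn hLI (by simpa using mul_mem (inv_mem hw) (h1 e))) k1
  · exact absurd ((hix _ hc).le hu' hn' hLI (by simpa using mul_mem (inv_mem hw) (h1 e))) k2

end pat

theorem q2_of (ha : IsA G a) (hb : Γ.Adj a b) (k : Ix2 (𝐙 b) (𝐙 a)) : Q2 Γ G := fun a' b' hb' ha' => by
  obtain ⟨g, rfl, rfl⟩ := h.tr1 hb hb' (iff_of_true ha ha')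
  rw [Zv_smul, Zv_smul]; exact k.cj g

theorem nv_of (ha : IsA G a) (hb : Γ.Adj a b) (k : Ix2 (𝐙 a) (𝐕 b)) : NV Γ G := fun a' b' hb' ha' => by
  obtain ⟨g, rfl, rfl⟩ := h.tr1 hb hb' (iff_of_true ha ha')
  rw [Zv_smul, h.eV]; exact k.cj g

theorem two (q : Q2 Γ G) (hb : ¬ IsA G b) (hx : x ∈ 𝐙 b) (hy : y ∈ 𝐙 b) (h1 : x ≠ 1) (h2 : y ≠ 1) : x = y := by
  obtain ⟨a, ha⟩ := h.nbr b
  have hA := h.A_of ha.symm hb
  obtain ⟨c, hc, hne⟩ := h.exists_ne ha.symm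
  have := h.ZZ hA hc ha.symm hne (q a c hc hA x (h.Zle hA ha.symm hx) y (h.Zle hA ha.symm hy)
    (fun e => h1 (h.ZZ hA hc ha.symm hne e hx)) fun e => h2 (h.ZZ hA hc ha.symm hne e hy)) (mul_mem hx hy)
  rw [← (h.ea b).inv hy]; exact eq_inv_of_mul_eq_one_left this

theorem Zle2 (q : Q2 Γ G) (hb : ¬ IsA G b) (hx : x ∈ 𝐙 b) (h1 : x ≠ 1) (hK : x ∈ K) : 𝐙 b ≤ K := fun y hy => by
  by_cases h2 : y = 1
  · rw [h2]; exact one_mem _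
  · rwa [h.two q hb hy hx h2 h1]

theorem cardZb (q : Q2 Γ G) (hb : ¬ IsA G b) : Nat.card (𝐙 b) ≤ 2 := by
  have : Ix2 ⊥ (𝐙 b) := fun x hx y hy h1 h2 => by
    rw [h.two q hb hx hy h1 h2]; exact h.ea b y hy
  simpa using this.card

theorem cardZa (q : Q2 Γ G) (ha : IsA G a) : Nat.card (𝐙 a) ≤ 4 := by
  obtain ⟨b, hb⟩ := h.nbr a
  have h1 := (q a b hb ha).card
  have h2 := h.cardZb q (h.B_of hb ha)
  have h3 := card_le_of_le (inf_le_right : 𝐙 a ⊓ 𝐙 b ≤ 𝐙 b)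
  omega

theorem exVa (ha : IsA G a) (hb : Γ.Adj a b) : ∃ v ∈ 𝐕 b, v ∉ 𝐙 a := by
  obtain ⟨c, hc, hne⟩ := h.exists_ne hb.symm
  obtain ⟨z, hz, hn⟩ := h.exZa (h.A_of hc.symm (h.B_of hb ha)) hc.symm
  exact ⟨z, le_Up hc hz, fun e => hn (h.ZZ' (h.B_of hb ha) hc hb.symm hne hz e)⟩

theorem P0 (hb : Cb Γ G n) (hn : 2 < n) (q : Q2 Γ G) (ha : IsA G a) (h1 : Γ.Adj a b) (h2 : Γ.Adj a c) (hne : b ≠ c)
    (m1 : x ∈ 𝐕 b) (m2 : x ∈ 𝐕 c) : x ∈ 𝐙 a := by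
  have key : ∀ {b c : V}, Γ.Adj a b → Γ.Adj a c → b ≠ c → x ∈ 𝐕 b → x ∈ 𝐕 c → ∀ y ∈ 𝐐 a, ⁅x, y⁆ ∈ 𝐙 b := by
    intro b c h1 h2 hne m1 m2 y hy
    have hB := h.B_of h1 ha
    obtain ⟨g, hg, gn⟩ := h.exQ h1
    exact h.pat (I := 𝐕 b ⊓ 𝐕 c) eZ eZ (h.EV hb hn b) (fun c hc => q c b hc.symm (h.A_of hc.symm hB))
      (fun c hc => h.Zle (h.A_of hc.symm hB) hc.symm) h1.symm (le_inf (le_Up h1.symm) (le_Up h2.symm)) inf_le_left
      (fun k => h.nle h.eV h1 h2 hne (h.VQ c) (h.V_ne_bot c) (k.trans inf_le_right)) (h.Q_le h1 hg) (QG a hg) gn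
      (fun w hw => ⟨h.eV.conj (h.Q_le h1 hg) hw.1, h.eV.conj (h.Q_le h2 hg) hw.2⟩) (h.Q_le h1 hy) (QG a hy) le_rfl
      (fun z hz => by rw [cm_iff.2 (h.ZcQ hz hy)]; exact one_mem _) ⟨m1, m2⟩
  exact h.memZ ha (h.VD hb (D.adj h1.symm) hn m1) (h.EV hb hn b x m1) fun y hy =>
    cm_iff.1 (h.ZZ ha h1 h2 hne (key h1 h2 hne m1 m2 y hy) (key h2 h1 hne.symm m2 m1 y hy))

theorem commVa (nv : NV Γ G) (ha : IsA G a) (hb : Γ.Adj a b) (hv : v ∈ 𝐕 b) (h0 : x ∈ 𝐆 a) (h1 : x ∈ 𝐆 b) :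
    ⁅v, x⁆ ∈ 𝐙 a := (nv a b hb ha).comm (nZ a h0) (h.eV.norm b h1) hv

theorem commW (hb : Cb Γ G n) (hn : 2 < n) (nv : NV Γ G) (ha : IsA G a) (hw : w ∈ 𝐖 a) (hx : x ∈ 𝐐 a) :
    ⁅w, x⁆ ∈ 𝐙 a :=
  comm_Up (fun b k => (h.VD hb (D.adj k.symm) hn).trans ((QG a).trans (nZ a)))
    (fun b k u hu => h.commVa nv ha k hu (QG a hx) (h.Q_le k hx)) hw

theorem genV (nv : NV Γ G) (hb : ¬ IsA G b) (ha : Γ.Adj b a) (hc : Γ.Adj b c) (hne : a ≠ c) (h1 : g ∈ 𝐐 a)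
    (h2 : g ∈ 𝐐 c) : g ∈ Cn 𝐕 b := by
  obtain ⟨z, hz, hn⟩ := h.exZa (h.A_of hc.symm hb) hc.symm
  exact mem_Cn.2 fun y hy => (nv a b ha.symm (h.A_of ha.symm hb)).cen (le_Up hc hz)
    (fun e => hn (h.ZZ' hb ha hc hne e hz)) (fun y hy => h.ZcQ hy h1) (h.ZcQ hz h2) hy

theorem cardI (hb : Γ.Adj a b) (h0 : X ≤ 𝐆 a) (h1 : X ≤ 𝐆 b) : Nat.card X ≤ 2 * Nat.card (X ⊓ 𝐐 a : Subgroup G) :=
  Ix2.card fun _ hu _ hv => h.ixQ hb (h0 hu) (h1 hu) (h0 hv) (h1 hv)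

theorem cardC (hA : IsA G a) (hb : Γ.Adj a b) (hX : X ≤ 𝐐 a) :
    Nat.card X ≤ 8 * Nat.card (X ⊓ Cn 𝐕 b : Subgroup G) := by
  obtain ⟨c, hc, n1⟩ := h.exists_ne hb.symm
  obtain ⟨d, hd, n2, n3⟩ := h.ex3 hb.symm hc n1.symm
  have h1 := h.cardI hb.symm (hX.trans (h.Q_le hb)) (hX.trans (QG a))
  have h2 := h.cardI (X := X ⊓ 𝐐 b) hc.symm (inf_le_right.trans (h.Q_le hc)) (inf_le_right.trans (QG b))
  have h3 := h.cardI (X := X ⊓ 𝐐 b ⊓ 𝐐 c) hd.symm (inf_le_left.trans (inf_le_right.trans (h.Q_le hd)))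
    (inf_le_left.trans (inf_le_right.trans (QG b)))
  have h4 : Nat.card (X ⊓ 𝐐 b ⊓ 𝐐 c ⊓ 𝐐 d : Subgroup G) ≤ Nat.card (X ⊓ Cn 𝐕 b : Subgroup G) :=
    card_le_of_le fun g hg => ⟨hg.1.1.1, h.memC hb.symm hc hd n1.symm n2 n3 (hX hg.1.1.1) hg.1.2 hg.2⟩
  omega

theorem b2 (hA : IsA G a) (hb : Γ.Adj a b) (hn : ¬ 𝐕 b ≤ 𝐐 a) : Nat.card (𝐐 a) ≤ 64 := by
  obtain ⟨x, hx, xn⟩ := SetLike.not_le_iff_exists.1 hn
  obtain ⟨c, hc, n1⟩ := h.exists_ne hb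
  have x0 := h.Q_le hb.symm (h.VQ b hx)
  have x1 := QG b (h.VQ b hx)
  have k : 𝐐 a ⊓ Cn 𝐖 a = ⊥ := h.nbot hA inf_le_left (le_normalizer_inf (nQ a) (h.eW.cn.norm a)) x0 xn
    fun y hy => (Cn.comm hy.2 (le_Up hb hx)).symm
  have h1 := h.cardC hA hb le_rfl
  have h2 := h.cardC (X := 𝐐 a ⊓ Cn 𝐕 b) hA hc inf_le_left
  have h3 : 𝐐 a ⊓ Cn 𝐕 b ⊓ Cn 𝐕 c ≤ ⊥ := k ▸ fun g hg => ⟨hg.1.1, h.cnUp hb hc (h.smul' x0 hc) n1.symm
    (sw_ne' n1.symm x1).symm (h.sw_ne hb hc n1.symm x0 x1 xn).symm hg.1.2 hg.2 (by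
      have := h.eV.cn.mem (rfl : x • c = _) hg.2
      rwa [conj_eq (Cn.comm hg.1.2 hx).symm] at this)⟩
  have h4 := card_le_of_le h3
  rw [card_bot] at h4
  omega

end MG

end Cfsg.Agent.Sig.GA
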