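import Cfsg.Agent.Sig.GA3

/-! Goldschmidt amalgams of mixed type: an even critical distance is 2. -/

set_option linter.unusedSectionVars false
set_option linter.unusedVariables false
set_option linter.unusedSimpArgs false

namespace Cfsg.Agent.Sig.GA
open Subgroup Cfsg MulAction Cfsg.Agent.Loc
open scoped commutatorElement

variable {G : Type*} [Group G] [Finite G] {V : Type*} [MulAction G V] {Γ : SimpleGraph V}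
  {a b c d f a0 a1 a2 c0 c1 c2 c3 : V} {X Y N I J K M : Subgroup G} {e g t s x y z z' u v w : G}
  {k l m n i j : ℕ}

local notation "𝐆" => stabilizer G
local notation "𝐐" => Qv G
local notation "𝐙" => Zv G
local notation "𝐓" => Tv G
local notation "𝐕" => Up Γ (Zv G)
local notation "𝐖" => Up Γ (Up Γ (Zv G))

theorem cm_inv (hE : EA X) (hv : v ∈ X) : ⁅v, g⁆ = v * (g * v * g⁻¹) := by
  rw [commutatorElement_def, hE.inv hv]; group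

theorem cm_symm (h : ⁅x, y⁆ ∈ X) : ⁅y, x⁆ ∈ X := by rw [← commutatorElement_inv]; exact inv_mem h

namespace MG
variable (h : MG G Γ)
include h

theorem E1 (hb : Cb Γ G (m + 2)) (A0 : IsA G a0) (C0 : IsA G c0) (h1 : Γ.Adj a0 a1) (k1 : Γ.Adj c0 c1)
    (hd : D Γ m a1 c1) (cr : ¬ 𝐙 a0 ≤ 𝐐 c0) :
    Q2 Γ G ∧ 𝐙 c1 ≤ 𝐙 a1 ∧ ∃ z' ∈ 𝐙 c0, z' ∉ 𝐐 a0 := by
  have l1 := h.ZD hb (h.DL h1 hd) (by omega)
  have l2 := h.ZD hb (h.DL k1 hd.symm) (by omega)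
  obtain ⟨z, hz, zn⟩ := SetLike.not_le_iff_exists.1 cr
  have z0 := h.Q_le k1.symm (l1 hz)
  obtain ⟨z', hz', zn'⟩ : ∃ z' ∈ 𝐙 c0, z' ∉ 𝐐 a0 := by
    by_contra hcon
    push Not at hcon
    exact zn (h.memQ C0 z0 fun y hy => (h.ZcQ hz (hcon y hy)).symm)
  have z1 := h.Q_le h1.symm (l2 hz')
  have z2 := QG a1 (l2 hz')
  have key : ∀ y ∈ 𝐙 a0, y ∈ 𝐐 c0 → y ∈ 𝐙 a1 := fun y hy k => h.fixZ A0 h1 z1 z2 zn' hy (h.ZcQ hz' k).symm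
  have q := h.q2_of A0 h1 fun u hu v hv n1 n2 => key _ (mul_mem hu hv) (h.ixQ k1 (h.Q_le k1.symm (l1 hu)) (QG c1 (l1 hu))
    (h.Q_le k1.symm (l1 hv)) (QG c1 (l1 hv)) (fun e => n1 (key u hu e)) fun e => n2 (key v hv e))
  refine ⟨q, h.Zle2 q (h.B_of k1 C0) (cm_symm (h.commZ' C0 k1 z0 (QG c1 (l1 hz)) hz')) (fun e => zn ?_)
    (h.commZ' A0 h1 z1 z2 hz), z', hz', zn'⟩
  exact h.ZD hb hd (by omega) (h.fixZ A0 h1 z1 z2 zn' hz (cm_iff.1 e)) |> fun _ =>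
    h.ZD hb (h.DR hd k1.symm) (by omega) (h.fixZ A0 h1 z1 z2 zn' hz (cm_iff.1 e))

theorem E2 (hb : Cb Γ G (m + 4)) (A0 : IsA G a0) (C0 : IsA G c0) (h1 : Γ.Adj a0 a1) (k1 : Γ.Adj c0 c1)
    (k2 : Γ.Adj c1 c2) (k3 : Γ.Adj c2 c3) (hd : D Γ m a1 c3) (cr : ¬ 𝐙 a0 ≤ 𝐐 c0) : 𝐖 a0 ≤ 𝐐 c2 := by
  have d1 := h.DR (h.DR hd k3.symm) k2.symm
  obtain ⟨q, -, z', hz', zn'⟩ := h.E1 hb A0 C0 h1 k1 d1 cr
  have l2 := h.ZD hb (h.DL k1 d1.symm) (by omega) hz'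
  have C2 := h.A_of k2.symm (h.B_of k1 C0)
  refine Up_le fun b hb1 => ?_
  by_cases e : b = a1
  · rw [e]; exact h.VD hb (h.DR hd k3.symm) (by omega)
  refine Up_le fun d hd1 => ?_
  by_contra cr'
  obtain ⟨-, le, -⟩ := h.E1 hb (h.A_of hd1.symm (h.B_of hb1 A0)) C2 hd1.symm k3 (h.DL hb1.symm (h.DL h1 hd)) cr'
  obtain ⟨r, hr, r1⟩ := h.exZ c3
  exact r1 (h.ZZ A0 hb1 h1 e (le hr) (h.fixZ A0 h1 (h.Q_le h1.symm l2) (QG a1 l2) zn' (h.Zle A0 hb1 (le hr))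
    (h.ZcQ (h.Zle C2 k3 hr) (h.ZD hb (h.D2 k1 k2) (by omega) hz'))))

theorem E4 (hb : Cb Γ G 4) (A0 : IsA G a0) (C0 : IsA G c0) (h1 : Γ.Adj a0 a1) (k1 : Γ.Adj c0 c1)
    (k2 : Γ.Adj c1 c2) (k3 : Γ.Adj c2 a1) (cr : ¬ 𝐙 a0 ≤ 𝐐 c0) : False := by
  have w := h.E2 (m := 0) hb A0 C0 h1 k1 k2 k3 (D.refl _) cr
  obtain ⟨-, -, z', hz', zn'⟩ := h.E1 (m := 2) hb A0 C0 h1 k1 (h.D2 k3.symm k2.symm) cr
  have ne : a0 ≠ c2 := by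
    rintro rfl; exact cr (h.ZD hb (h.D2 k2.symm k1.symm) (by omega))
  obtain ⟨g, -, e1, e2⟩ := h.trans2 h1.symm k3.symm ne k3.symm h1.symm ne.symm
  have : g⁻¹ * z' * g⁻¹⁻¹ ∈ 𝐖 a0 := h.eW.mem (by rw [← e1, inv_smul_smul]) (le_Up k2.symm (le_Up k1.symm hz'))
  exact zn' ((eQ.mem_iff (g := g⁻¹) (by rw [← e2, inv_smul_smul])).1 (w this))

/-- the commutator `w = v * v ^ z'` for a vertex `a0` moved correctly by `z'`. -/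
theorem E5 (hb : Cb Γ G n) (hn : 2 < n) (q : Q2 Γ G) (A0 : IsA G a0) (h1 : Γ.Adj a0 a1) (hb1 : Γ.Adj a0 b) (ne : b ≠ a1)
    (z0 : z' ∈ 𝐐 a1) (zn : z' ∉ 𝐐 a0) (hv : v ∈ 𝐕 b) (hw : ⁅v, z'⁆ ∈ 𝐕 b) : v ∈ 𝐙 a0 := by
  have z1 := h.Q_le h1.symm z0
  rw [cm_inv (h.EV hb hn b) hv, mul_mem_cancel_left hv] at hw
  exact (eZ.mem_iff z1).1 (h.P0 hb hn q A0 hb1 (h.smul' z1 hb1) (h.sw_ne h1 hb1 ne.symm z1 (QG a1 z0) zn).symm hw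
    (h.eV.mem rfl hv))

theorem E3 (hb : Cb Γ G (m + 4)) (A0 : IsA G a0) (C0 : IsA G c0) (h1 : Γ.Adj a0 a1) (k1 : Γ.Adj c0 c1)
    (k2 : Γ.Adj c1 c2) (k3 : Γ.Adj c2 c3) (hd : D Γ m a1 c3) (cr : ¬ 𝐙 a0 ≤ 𝐐 c0) : NV Γ G := by
  have w := h.E2 hb A0 C0 h1 k1 k2 k3 hd cr
  have d1 := h.DR (h.DR hd k3.symm) k2.symm
  obtain ⟨q, le, z', hz', zn'⟩ := h.E1 hb A0 C0 h1 k1 d1 cr
  have l2 := h.ZD hb (h.DL k1 d1.symm) (by omega) hz'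
  obtain ⟨b, hb1, ne⟩ := h.exists_ne h1
  have key : ∀ v ∈ 𝐕 b, v ∈ 𝐐 c1 → v ∈ 𝐙 a0 := fun v hv k => h.E5 hb (by omega) q A0 h1 hb1 ne l2 zn' hv
    (le_Up hb1.symm (h.Zle A0 h1 (le (cm_symm (h.commZ' C0 k1 (h.Q_le k1.symm k) (QG c1 k) hz')))))
  refine h.nv_of A0 hb1 fun u hu v hv n1 n2 => key _ (mul_mem hu hv) ?_
  have u1 := w (le_Up hb1 hu)
  have v1 := w (le_Up hb1 hv)
  exact h.ixQ k2 (h.Q_le k2.symm u1) (QG c2 u1) (h.Q_le k2.symm v1) (QG c2 v1) (fun e => n1 (key u hu e))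
    fun e => n2 (key v hv e)

theorem E6 (hb : Cb Γ G 6) (A0 : IsA G a0) (C0 : IsA G c0) (h1 : Γ.Adj a0 a1) (h2 : Γ.Adj a1 a2) (k1 : Γ.Adj c0 c1)
    (k2 : Γ.Adj c1 c2) (k3 : Γ.Adj c2 c3) (k4 : Γ.Adj c3 a2) (cr : ¬ 𝐙 a0 ≤ 𝐐 c0) : False := by
  have hd := h.D2 h2 k4.symm
  have w := h.E2 (m := 2) hb A0 C0 h1 k1 k2 k3 hd cr
  have nv := h.E3 (m := 2) hb A0 C0 h1 k1 k2 k3 hd cr
  have d1 := h.DR (h.DR hd k3.symm) k2.symm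
  obtain ⟨q, le, z', hz', zn'⟩ := h.E1 (m := 4) hb A0 C0 h1 k1 d1 cr
  have l2 := h.ZD hb (h.DL k1 d1.symm) (by omega) hz'
  have C2 := h.A_of k2.symm (h.B_of k1 C0)
  have B3 := h.B_of k3 C2
  have A2 := h.A_of k4.symm B3
  have n1 : a0 ≠ a2 := by
    rintro rfl; exact cr (h.ZD hb (h.DR (h.DR (h.D2 k4.symm k3.symm) k2.symm) k1.symm) (by omega))
  have n2 : a1 ≠ c3 := by
    rintro rfl; exact cr (h.ZD hb (h.DR (h.DR (h.D2 h1 k3.symm) k2.symm) k1.symm) (by omega))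
  have n3 : a2 ≠ c2 := by
    rintro rfl; exact cr (h.ZD hb (h.DR (h.DR (h.D2 h1 h2) k2.symm) k1.symm) (by omega))
  obtain ⟨b, hb1, ne⟩ := h.exists_ne h1
  obtain ⟨v, hv, vn⟩ := h.exVa A0 hb1
  have v1 := w (le_Up hb1 hv)
  have w1 : ⁅v, z'⁆ ∈ 𝐙 c2 := cm_symm (h.commVa nv C2 k2.symm (le_Up k1.symm hz') (QG c2 v1) (h.Q_le k2.symm v1))
  have w2 : ⁅v, z'⁆ ∉ 𝐙 c1 := fun e => vn (h.E5 hb (by omega) q A0 h1 hb1 ne l2 zn' hv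
    (le_Up hb1.symm (h.Zle A0 h1 (le e))))
  have l3 : 𝐙 c2 ≤ 𝐖 a0 := (q c2 c1 k2.symm C2).le w1 w2
    (le.trans ((h.Zle A0 h1).trans ((le_Up h1.symm).trans (le_Up h1)))) (h.eW.comm (le_Up hb1 hv) (h.Q_le h1.symm l2))
  obtain ⟨y, hy, yn⟩ := h.exZa C2 k3
  have l4 : 𝐕 c3 ≤ 𝐖 a0 := (nv a2 c3 k4.symm A2).le (le_Up k3.symm hy)
    (fun e => yn (h.ZZ' B3 k4 k3.symm n3 e hy)) ((le_Up h2).trans (le_Up h1)) (l3 hy)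
  obtain ⟨g, hg, gn⟩ := h.exQ h2
  have g0 := h.Q_le h2 hg
  refine h.nle h.eW h2 h1.symm n1.symm (h.WD hb (D.refl _) (by omega)) (h.W_ne_bot _) (Up_le fun e he => ?_)
  rcases h.third h2.symm k4.symm he n2 g0 (QG a1 hg) gn with rfl | rfl | rfl
  · exact le_Up h1
  · exact l4
  · rw [h.eV]; exact cj_le_of_mem_normalizer (h.eW.norm a0 (h.Q_le h1.symm hg)) l4

theorem E8 (hb : Cb Γ G (m + 5)) (hm : 2 ≤ m) (A0 : IsA G a0) (C0 : IsA G c0) (h1 : Γ.Adj a0 a1) (h2 : Γ.Adj a1 a2)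
    (k1 : Γ.Adj c0 c1) (k2 : Γ.Adj c1 c2) (k3 : Γ.Adj c2 c3) (hd0 : D Γ m a2 c3) (cr : ¬ 𝐙 a0 ≤ 𝐐 c0) : False := by
  have hd := h.DL h2 hd0
  have w := h.E2 (m := m + 1) hb A0 C0 h1 k1 k2 k3 hd cr
  have nv := h.E3 (m := m + 1) hb A0 C0 h1 k1 k2 k3 hd cr
  have d1 := h.DR (h.DR hd k3.symm) k2.symm
  obtain ⟨q, le, z', hz', zn'⟩ := h.E1 (m := m + 3) hb A0 C0 h1 k1 d1 cr
  have l2 := h.ZD hb (h.DL k1 d1.symm) (by omega) hz'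
  have B1 := h.B_of h1 A0
  have C1 := h.B_of k1 C0
  have C2 := h.A_of k2.symm C1
  have n1 : a0 ≠ a2 := by
    rintro rfl; exact cr (h.ZD hb (h.DR (h.DR (h.DR hd0 k3.symm) k2.symm) k1.symm) (by omega))
  have n2 : c1 ≠ c3 := by
    rintro rfl; exact cr (h.ZD hb (h.DR (h.DL h1 hd) k1.symm) (by omega))
  -- the commutators `⁅v, z'⁆`
  have key : ∀ {a b : V} {v : G}, Γ.Adj a a1 → Γ.Adj a b → b ≠ a1 → z' ∉ 𝐐 a → v ∈ 𝐕 b → v ∉ 𝐙 a → v ∈ 𝐐 c2 →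
      ⁅v, z'⁆ ∈ 𝐙 c2 ∧ ⁅v, z'⁆ ∉ 𝐙 c1 ∧ ∀ x ∈ 𝐐 a1, ⁅⁅v, z'⁆, x⁆ ∈ 𝐙 a := by
    intro a b v ha hb1 ne zn hv vn v1
    have A := h.A_of ha B1
    refine ⟨cm_symm (h.commVa nv C2 k2.symm (le_Up k1.symm hz') (QG c2 v1) (h.Q_le k2.symm v1)), fun e => vn
      (h.E5 hb (by omega) q A ha hb1 ne l2 zn hv (le_Up hb1.symm (h.Zle A ha (le e)))), fun x hx => ?_⟩
    rw [cm_inv (h.EV hb (by omega) b) hv]
    exact h.pat_s h.eV eZ (h.EW hb (by omega) a) (fun c hc => nv a c hc A) ha hb1 ne.symm hv (h.Q_le ha.symm l2)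
      (QG a1 l2) zn (h.Q_le ha.symm hx) (QG a1 hx)
  obtain ⟨b, hb1, ne⟩ := h.exists_ne h1
  obtain ⟨v, hv, vn⟩ := h.exVa A0 hb1
  obtain ⟨w1, w2, w3⟩ := key h1 hb1 ne zn' hv vn (w (le_Up hb1 hv))
  obtain ⟨a3, h3, n3, n4⟩ := h.ex3 h1.symm h2 n1
  have A3 := h.A_of h3.symm B1
  have zn3 : z' ∉ 𝐐 a3 := fun e => zn' (h.CG B1 h1.symm (QG a1 l2) (h.genV nv B1 h2 h3 n4
    (h.ZD hb (h.DL k1 (h.DL k2 (h.DL k3 hd0.symm))) (by omega) hz') e))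
  obtain ⟨b', hb', ne'⟩ := h.exists_ne h3.symm
  obtain ⟨v', hv', vn'⟩ := h.exVa A3 hb'
  have wW := h.eW.comm (le_Up hb1 hv) (h.Q_le h1.symm l2)
  have cW := h.WW hb (h.D2 h3.symm h1.symm) (by omega) (le_Up hb' hv')
  have v2 : v' ∈ 𝐐 c2 := h.memQ C2 (h.Q_le k3.symm (h.WD hb (h.DL h3.symm hd) (by omega) (le_Up hb' hv')))
    fun y hy => (q c2 c1 k2.symm C2).cen w1 w2 (fun y hy => Cn.comm cW (le_Up h1 (le_Up h1.symm (h.Zle A0 h1 (le hy)))))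
      (Cn.comm cW wW) hy
  obtain ⟨u1, u2, u3⟩ := key h3.symm hb' ne' zn3 hv' vn' v2
  have w4 : ∀ x ∈ 𝐐 a1, ⁅⁅v, z'⁆, x⁆ ∈ 𝐙 a1 := fun x hx => by
    refine h.ZZ' B1 h1.symm h3 n3 (w3 x hx) ?_
    have r := le (q c2 c1 k2.symm C2 _ w1 _ u1 w2 u2)
    have := u3 x hx
    have e2 := h.ea c2 _ u1
    generalize ⁅v', z'⁆ = w' at r this e2
    generalize ⁅v, z'⁆ = w at r
    rw [show w = w * w' * w' by rw [mul_assoc, e2, mul_one], cm_mul, cm_iff.2 (h.ZcQ r hx), mul_one]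
    exact eZ.conj (QG a3 (h.ZQ a3 (h.Zle A3 h3.symm r))) this
  -- the element `u` of `Z a0`
  obtain ⟨u, hu, un⟩ := SetLike.not_le_iff_exists.1 cr
  obtain ⟨c4, k4, n5, n6⟩ := h.ex3 k2.symm k3 n2
  have d2 := h.DR hd k3.symm
  have p1 : u ∈ 𝐐 c2 := h.ZD hb (h.DL h1 d2) (by omega) hu
  have p2 : u ∈ 𝐐 c1 := h.ZD hb (h.DL h1 d1) (by omega) hu
  have p3 : u ∈ Cn 𝐕 c3 := h.LC hb 0 1 (h.DL h1 hd) (by omega) hu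
  have p4 : u ∈ Cn 𝐕 c4 := mem_Cn.2 fun y hy => by
    have y1 := h.VD hb (h.DR d2 k4).symm (by omega) hy
    have m1 := h.commV (h.B_of k4 C2) hy (h.ZD hb (h.DL h1 (h.DR d2 k4)) (by omega) hu)
    have m2 := cm_symm (h.commZ' A0 h1 (h.Q_le h1.symm y1) (QG a1 y1) hu)
    obtain ⟨r, hr, r1⟩ := h.exZ c1
    exact cm_iff.1 (h.ZZ C2 k2.symm k4 n5 (h.Zle2 q B1 (le hr) r1 hr m2) m1)
  have p5 : u ∉ Cn 𝐕 c1 := fun e => un (h.CG C1 k1.symm (QG c1 p2) e)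
  have z1 := h.Q_le h1.symm l2
  have hb2 := h.smul' z1 hb1
  obtain ⟨g, e0, e1, e2, e3⟩ := h.tr3 k2.symm k3 k4 n2 n5 n6 hb1 hb2 h1
    (h.sw_ne h1 hb1 ne.symm z1 (QG a1 l2) zn').symm ne (sw_ne' ne.symm (QG a1 l2)) (iff_of_true C2 A0)
  have x1 := eQ.mem e0 p1
  have x2 := eQ.mem e1 p2
  have x3 := h.eV.cn.mem e2 p3
  have x4 := h.eV.cn.mem e3 p4
  have x5 := mt (h.eV.cn.mem_iff e1).1 p5
  generalize g * u * g⁻¹ = x at x1 x2 x3 x4 x5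
  have k5 := w4 x (h.CQ B1 (h.Q_le h1 x1) x4)
  rw [cm_inv (h.EV hb (by omega) b) hv, cm_mul, cm_iff.2 (Cn.comm x3 (h.eV.mem rfl hv)), mul_one, mul_inv_cancel,
    one_mul] at k5
  exact x5 (mem_Cn.2 fun y hy => (nv a0 b hb1 A0).cen hv vn (fun y hy => h.ZcQ hy x1)
    (cm_iff.1 (h.ZZ A0 hb1 h1 ne (h.commV (h.B_of hb1 A0) hv x2) k5)) hy)

end MG

end Cfsg.Agent.Sig.GA
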