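import Cfsg.Agent.Sig.GA4

/-! Goldschmidt amalgams of mixed type, odd critical distance: `#Z b = 2` and `#V b = 8`. -/

set_option linter.unusedSectionVars false
set_option linter.unusedVariables false
set_option linter.unusedSimpArgs false

namespace Cfsg.Agent.Sig.GA
open Subgroup Cfsg MulAction Cfsg.Agent.Loc
open scoped commutatorElement

variable {G : Type*} [Group G] [Finite G] {V : Type*} [MulAction G V] {Γ : SimpleGraph V}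
  {a b c d a1 a2 k1 k2 x0 x1 xm y0 y1 y2 y3 yp : V} {X Y N I J K M : Subgroup G} {e g t s x y z z' u v w f f' r : G}
  {k l m n i j : ℕ} {F L : V → Subgroup G}

local notation "𝐆" => stabilizer G
local notation "𝐐" => Qv G
local notation "𝐙" => Zv G
local notation "𝐓" => Tv G
local notation "𝐕" => Up Γ (Zv G)
local notation "𝐖" => Up Γ (Up Γ (Zv G))

theorem ex_Up (h : ¬ Up Γ F a ≤ X) : ∃ b, Γ.Adj a b ∧ ∃ z ∈ F b, z ∉ X := by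
  by_contra hcon
  push Not at hcon
  exact h (Up_le hcon)

theorem ix_TC (hE : EA X) (hr : r ∈ X) (hJ : ∀ x ∈ J, ∀ y ∈ J, x ≠ 1 → y ≠ 1 → x = y) (hK : r ∈ K) :
    Ix2 K (TC hE J hr) := by
  have key : ∀ u ∈ TC hE J hr, u ∉ K → ∃ p ∈ J, p ≠ 1 ∧ (u = p ∨ u = p * r) := fun u hu hn => by
    rcases hu.2 with e | e
    · exact ⟨u, e, fun k => hn (k ▸ one_mem _), Or.inl rfl⟩
    · refine ⟨u * r, e, fun k => hn ?_, Or.inr (by rw [mul_assoc, hE r hr, mul_one])⟩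
      rw [eq_inv_of_mul_eq_one_left k]; exact inv_mem hK
  intro u hu v hv n1 n2
  obtain ⟨p, hp, p1, e1⟩ := key u hu n1
  obtain ⟨q, hq, q1, e2⟩ := key v hv n2
  obtain rfl := hJ p hp q hq p1 q1
  have pX : p ∈ X := by
    rcases e1 with e | e
    · exact e ▸ hu.1
    · simpa [e] using mul_mem hu.1 (inv_mem hr)
  rcases e1 with rfl | rfl <;> rcases e2 with rfl | rfl
  · rw [hE _ pX]; exact one_mem _
  · rwa [← mul_assoc, hE _ pX, one_mul]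
  · rwa [mul_assoc, hE.comm hr pX, ← mul_assoc, hE _ pX, one_mul]
  · rw [hE _ hu.1]; exact one_mem _

/-- `f` is centralised by `Q a` modulo `Z a`. -/
def ET (G : Type*) [Group G] [MulAction G V] (a : V) (f : G) : Prop := ∀ g ∈ Qv G a, ⁅f, g⁆ ∈ Zv G a

theorem ET.conj (h : ET G a f) (e : g • a = b) : ET G b (g * f * g⁻¹) := fun x hx => by
  have := eZ.mem e (h (g⁻¹ * x * g) ((eQ.mem_iff e).1 (by simpa [mul_assoc] using hx)))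
  rwa [show g * ⁅f, g⁻¹ * x * g⁆ * g⁻¹ = ⁅g * f * g⁻¹, x⁆ by simp only [commutatorElement_def]; group] at this

namespace MG
variable (h : MG G Γ)
include h

theorem q4 (B0 : ¬ IsA G x0) (C0 : ¬ IsA G y0) (hm : Γ.Adj x0 xm) (h1 : Γ.Adj x0 x1) (k1 : Γ.Adj y0 y1)
    (kp : Γ.Adj y0 yp) (ne : yp ≠ y1) (hz : z ∈ 𝐙 xm) (zn : z ∉ 𝐐 y0) (z1 : z ∈ 𝐐 y1) (hl : 𝐙 yp ≤ 𝐐 x1)
    (hq : ¬ Ix2 (𝐙 y0) (𝐙 yp)) : (∃ y ∈ 𝐙 yp, y ∉ 𝐐 x0) ∧ ∃ x ∈ 𝐙 yp, x ∈ 𝐐 x0 ∧ x ∉ 𝐐 xm := by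
  have z0 := h.Q_le k1.symm z1
  have key : ∀ a ∈ 𝐙 yp, a ∉ 𝐙 y0 → a ∉ 𝐐 xm := fun a ha an k =>
    zn (h.fix2 k1 kp ne.symm z0 (QG y1 z1) (h.fixB' C0 kp ha an z0 (h.ZcQ hz k).symm))
  rw [Ix2] at hq
  push Not at hq
  obtain ⟨u, hu, v, hv, n1, n2, n3⟩ := hq
  have huv := mul_mem hu hv
  constructor
  · by_contra hcon
    push Not at hcon
    exact key _ huv n3 (h.ixQ hm.symm (h.Q_le hm (hcon u hu)) (QG x0 (hcon u hu)) (h.Q_le hm (hcon v hv))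
      (QG x0 (hcon v hv)) (key u hu n1) (key v hv n2))
  by_cases e1 : u ∈ 𝐐 x0
  · exact ⟨u, hu, e1, key u hu n1⟩
  by_cases e2 : v ∈ 𝐐 x0
  · exact ⟨v, hv, e2, key v hv n2⟩
  exact ⟨_, huv, h.ixQ h1 (h.Q_le h1.symm (hl hu)) (QG x1 (hl hu)) (h.Q_le h1.symm (hl hv)) (QG x1 (hl hv)) e1 e2,
    key _ huv n3⟩

theorem q4' (hb : Cb Γ G (m + 3)) (B0 : ¬ IsA G x0) (C0 : ¬ IsA G y0) (h1 : Γ.Adj x0 x1) (k1 : Γ.Adj y0 y1)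
    (hd : D Γ m x1 y1) (cr : ¬ 𝐕 x0 ≤ 𝐐 y0) (hq : ¬ Q2 Γ G) :
    ∃ xm yp, Γ.Adj x0 xm ∧ Γ.Adj y0 yp ∧ xm ≠ x1 ∧ (∃ z ∈ 𝐙 xm, z ∉ 𝐐 y0) ∧ (∃ y ∈ 𝐙 yp, y ∉ 𝐐 x0) ∧
      (∃ x ∈ 𝐙 yp, x ∈ 𝐐 x0 ∧ x ∉ 𝐐 xm) ∧ ∃ u ∈ 𝐙 xm, u ∈ 𝐐 y0 ∧ u ∉ 𝐐 yp := by
  obtain ⟨xm, hm, z, hz, zn⟩ := ex_Up cr
  have ne : xm ≠ x1 := by
    rintro rfl; exact zn (h.ZD hb (h.DR hd k1.symm) (by omega) hz)
  obtain ⟨yp, kp, ne'⟩ := h.exists_ne k1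
  have l1 := h.ZD hb (h.DL hm.symm (h.DL h1 hd)) (by omega)
  have l2 := h.ZD hb (h.DL kp.symm (h.DL k1 hd.symm)) (by omega)
  obtain ⟨⟨y, hy, yn⟩, e2⟩ := h.q4 B0 C0 hm h1 k1 kp ne' hz zn (l1 hz) l2
    fun e => hq (h.q2_of (h.A_of kp.symm C0) kp.symm e)
  exact ⟨xm, yp, hm, kp, ne, ⟨z, hz, zn⟩, ⟨y, hy, yn⟩, e2, (h.q4 C0 B0 kp k1 h1 hm ne hy yn (l2 hy) l1
    fun e => hq (h.q2_of (h.A_of hm.symm B0) hm.symm e)).2⟩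

theorem Oq3 (hb : Cb Γ G 3) (A : IsA G a) (h1 : Γ.Adj a x0) (k1 : Γ.Adj a y0) (cr : ¬ 𝐕 x0 ≤ 𝐐 y0) : Q2 Γ G := by
  by_contra hq
  have B0 := h.B_of h1 A
  have C0 := h.B_of k1 A
  obtain ⟨xm, yp, hm, kp, -, -, -, ⟨x, hx, x1, x2⟩, u, hu, u1, u2⟩ :=
    h.q4' (m := 0) hb B0 C0 h1.symm k1.symm (D.refl _) cr hq
  have ne : x0 ≠ y0 := by rintro rfl; exact cr (h.VQ _)
  have Am := h.A_of hm.symm B0
  have e := h.ZZ A h1 k1 ne (h.commZ' Am hm.symm (h.Q_le hm x1) (QG x0 x1) hu)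
    (cm_symm (h.commZ' (h.A_of kp.symm C0) kp.symm (h.Q_le kp u1) (QG y0 u1) hx))
  exact u2 (h.ZD hb (h.D2 k1 kp) (by omega) (h.Zle A h1 (h.fixZ Am hm.symm (h.Q_le hm x1) (QG x0 x1) x2 hu (cm_iff.1 e))))

theorem Oq5 (hb : Cb Γ G (m + 5)) (B0 : ¬ IsA G x0) (C0 : ¬ IsA G y0) (h1 : Γ.Adj x0 x1) (k1 : Γ.Adj y0 y1)
    (k2 : Γ.Adj y1 y2) (k3 : Γ.Adj y2 y3) (hd : D Γ m x1 y3) (cr : ¬ 𝐕 x0 ≤ 𝐐 y0) : Q2 Γ G := by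
  by_contra hq
  have d1 := h.DR (h.DR hd k3.symm) k2.symm
  obtain ⟨xm, yp, hm, kp, ne, ⟨z, hz, zn⟩, ⟨y, hy, yn⟩, -, u, hu, u1, u2⟩ :=
    h.q4' (m := m + 2) hb B0 C0 h1 k1 d1 cr hq
  have A1 := h.A_of k1.symm C0
  have Ap := h.A_of kp.symm C0
  have B2 := h.B_of k2 A1
  have n1 : y0 ≠ y2 := by
    rintro rfl; exact cr (h.VD hb (h.DR (h.DL h1 hd) k3.symm) (by omega))
  have l2 := h.ZD hb (h.DL kp.symm (h.DL k1 d1.symm)) (by omega)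
  have l3 : 𝐙 y0 ≤ 𝐕 x0 := fun s hs => by
    obtain ⟨c, hc, ne⟩ := h.exists_ne kp.symm
    obtain ⟨v, hv, rfl⟩ := h.surj Ap kp.symm hc ne.symm (h.Q_le kp u1) (QG y0 u1) u2 hs
    exact h.eV.comm' (h.Q_le h1.symm (l2 (h.Zle Ap hc hv))) (le_Up hm hu)
  have l4 : 𝐖 xm ≤ 𝐐 y1 := Up_le fun c hc g hg => by
    have g1 := h.VV hb (h.D2 hc.symm hm.symm) (by omega) hg
    have g2 := h.Q_le k3.symm (h.VD hb (h.DL hc.symm (h.DL hm.symm (h.DL h1 hd))) (by omega) hg)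
    obtain ⟨s, hs, s1⟩ := h.exZ y0
    exact h.cenZ A1 k1.symm k2 n1 (h.fixB' B2 k2.symm (h.Zle A1 k1.symm hs) (fun e => s1 (h.ZZ A1 k1.symm k2 n1 hs e)) g2
      (Cn.comm g1 (l3 hs))) (fun s hs => Cn.comm g1 (l3 hs)) fun s hs => h.Bc B2 hs g2
  have y1' := l2 hy
  have y0' := h.Q_le h1.symm y1'
  refine h.nn h.eW hm (h.WD hb (D.refl _) (by omega)) (h.W_ne_bot _) y0' (h.sw_ne h1 hm ne.symm y0' (QG x1 y1') yn)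
    fun w hw => ?_
  have z1 := l4 (le_Up hm.symm (le_Up hm hz))
  obtain ⟨p, hp, p1⟩ : ∃ p ∈ 𝐕 x0, w * p ∈ 𝐐 y0 := by
    by_cases e : w ∈ 𝐐 y0
    · exact ⟨1, one_mem _, by rwa [mul_one]⟩
    · exact ⟨z, le_Up hm hz, h.ixQ k1 (h.Q_le k1.symm (l4 hw)) (QG y1 (l4 hw)) (h.Q_le k1.symm z1) (QG y1 z1) e zn⟩
  obtain ⟨p, hp, p1⟩ : ∃ p ∈ 𝐕 x0, w * p ∈ 𝐐 yp := by
    by_cases e : w * p ∈ 𝐐 yp
    · exact ⟨p, hp, e⟩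
    · exact ⟨p * u, mul_mem hp (le_Up hm hu), mul_assoc w p u ▸
        h.ixQ kp.symm (h.Q_le kp p1) (QG y0 p1) (h.Q_le kp u1) (QG y0 u1) e u2⟩
  rw [show y * w * y⁻¹ = y * (w * p) * y⁻¹ * (y * p⁻¹ * y⁻¹) by group, h.ZcQ hy p1, mul_inv_cancel_right]
  exact mul_mem (mul_mem hw (le_Up hm.symm hp)) (le_Up hm.symm (h.eV.conj y0' (inv_mem hp)))

theorem pat_ix (hF : Eqv F) (hL : Eqv L) (hE : EA (Up Γ F d)) (hix : ∀ c, Γ.Adj d c → Ix2 (L d) (F c))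
    (hle : ∀ c, Γ.Adj d c → L d ≤ F c) (ha : Γ.Adj d a) (hb : Γ.Adj d b) (hc : Γ.Adj d c) (n1 : a ≠ b)
    (n2 : a ≠ c) (n3 : b ≠ c) (hu : u ∈ F b) (hn : u ∉ L d) (hv : v ∈ F c) (hn' : v ∉ L d) (hs : u * v ∈ F a) :
    Ix2 (F a) (Up Γ F d) := by
  have m1 := le_Up hb hu
  have key : ∀ w ∈ Up Γ F d, w ∉ F a → w * u ∈ F a := fun w hw wn => by
    rcases h.pat_dec hF hL hE hix hle ha hb hc n1 n2 n3 hu hn hv hn' hw with e | e | e | e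
    · exact absurd e wn
    · exact absurd ((mul_mem_cancel_right hs).1 e) wn
    · exact e
    · have := mul_mem e hs
      rwa [hE.comm m1 (le_Up hc hv), mul_assoc, ← mul_assoc v, hE v (le_Up hc hv), one_mul] at this
  intro x hx y hy n1 n2
  have := mul_mem (key x hx n1) (key y hy n2)
  rwa [mul_assoc, hE.comm hy m1, ← mul_assoc u, hE u m1, one_mul] at this

theorem nv_of_comm (hb : Cb Γ G n) (hn : 2 < n) (q : Q2 Γ G) (B : ¬ IsA G d) (ha : Γ.Adj d a) (hb1 : Γ.Adj d b)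
    (ne : a ≠ b) (hu : u ∈ 𝐙 b) (un : u ∉ 𝐙 d) (g0 : g ∈ 𝐆 d) (g1 : g ∈ 𝐆 a) (gn : g ∉ 𝐐 d) (hc : ⁅u, g⁆ ∈ 𝐙 a) :
    NV Γ G := by
  rw [cm_inv (h.ea b) hu] at hc
  exact h.nv_of (h.A_of ha.symm B) ha.symm (h.pat_ix eZ eZ (h.EV hb hn d) (fun c hc => q c d hc.symm (h.A_of hc.symm B))
    (fun c hc => h.Zle (h.A_of hc.symm B) hc.symm) ha hb1 (h.smul' g0 hb1) ne (sw_ne' ne g1).symm
    (h.sw_ne ha hb1 ne g0 g1 gn).symm hu un (eZ.mem rfl hu) (fun e => un ((eZ.mem_iff g0).1 e)) hc)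

theorem sym3 (h1 : Γ.Adj a x0) (k1 : Γ.Adj a y0) (cr : ¬ 𝐕 x0 ≤ 𝐐 y0) (h2 : Γ.Adj a1 b) (k2 : Γ.Adj a1 c) (ne : b ≠ c)
    (e : IsA G a ↔ IsA G a1) : ¬ 𝐕 b ≤ 𝐐 c := by
  obtain ⟨g, -, rfl, rfl⟩ := h.tr2 h1 k1 (by rintro rfl; exact cr (h.VQ _)) h2 k2 ne e
  rwa [h.eV, Qv_smul, cj_le_cj_iff]

theorem Onv3 (hb : Cb Γ G 3) (A : IsA G a) (h1 : Γ.Adj a x0) (k1 : Γ.Adj a y0) (cr : ¬ 𝐕 x0 ≤ 𝐐 y0) : NV Γ G := by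
  have q := h.Oq3 hb A h1 k1 cr
  have ne : x0 ≠ y0 := by rintro rfl; exact cr (h.VQ _)
  obtain ⟨y, hy, yn⟩ := SetLike.not_le_iff_exists.1 (h.sym3 h1 k1 cr k1 h1 ne.symm Iff.rfl)
  have B0 := h.B_of h1 A
  obtain ⟨xm, hm, n1⟩ := h.exists_ne h1.symm
  obtain ⟨z, hz, zn⟩ := h.exZa (h.A_of hm.symm B0) hm.symm
  have y1 := h.VD hb (D.adj k1.symm) (by omega) hy
  exact h.nv_of_comm hb (by omega) q B0 h1.symm hm n1.symm hz zn (h.Q_le h1 y1) (QG a y1) yn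
    (h.P0 hb (by omega) q A h1 k1 ne (h.eV.comm (le_Up hm hz) (h.Q_le h1 y1))
      (h.eV.comm' (h.Q_le k1 (h.ZD hb (h.D2 hm.symm h1.symm) (by omega) hz)) hy))

theorem et_of (hb : Cb Γ G n) (hn : 2 < n) (q : Q2 Γ G) (B : ¬ IsA G d) (ha : Γ.Adj d a) (hb1 : Γ.Adj d b)
    (ne : a ≠ b) (hu : u ∈ 𝐙 b) (g0 : g ∈ 𝐆 d) (g1 : g ∈ 𝐆 a) (gn : g ∉ 𝐐 d) : ET G a ⁅u, g⁆ := fun x hx => by
  rw [cm_inv (h.ea b) hu]
  exact h.Zle (h.A_of ha.symm B) ha.symm (h.pat_s eZ eZ (h.EV hb hn d) (fun c hc => q c d hc.symm (h.A_of hc.symm B))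
    ha hb1 ne hu g0 g1 gn (h.Q_le ha.symm hx) (QG a hx))

theorem KEY (hb : Cb Γ G n) (hn : 2 < n) (q : Q2 Γ G) (B : ¬ IsA G b) (h1 : Γ.Adj b a1) (h2 : Γ.Adj b a2)
    (ne : a1 ≠ a2) (hk : Γ.Adj a2 k2) (nk : k2 ≠ b) (hf' : f' ∈ 𝐕 k2) (fn : f' ∉ 𝐙 a2) (e1 : ET G a1 f)
    (e2 : ET G a2 f') (hv : v ∈ 𝐕 b) (e : f' = v * f) : NV Γ G := by
  have A1 := h.A_of h1.symm B
  have A2 := h.A_of h2.symm B
  obtain ⟨x, x1, x2, x3⟩ := h.QQ B h1 h2 ne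
  have s1 : ⁅f', x⁆ ∈ 𝐙 a1 := by
    rw [e, cm_mul]
    exact mul_mem (eZ.conj (h.Q_le h1 (h.VQ b hv)) (e1 x x2)) (h.Zle A1 h1.symm (h.commV B hv x1))
  have s2 : ⁅f', x⁆ ∉ 𝐙 b := fun k => fn (h.E5 hb hn q A2 h2.symm hk nk x1 x3 hf' (le_Up hk.symm (h.Zle A2 h2.symm k)))
  obtain ⟨g, hg, gn⟩ := h.exQ h2.symm
  refine h.nv_of_comm hb hn q B h2 h1 ne.symm s1 s2 (h.Q_le h2.symm hg) (QG a2 hg) gn ?_
  rw [cm_inv (h.EV hb hn k2) hf', cm_mul]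
  exact mul_mem (eZ.conj (h.Q_le hk.symm (h.VQ k2 hf')) (e2.conj (h.Q_le h2 x1) g hg)) (e2 g hg)

/-- a neighbour condition coming from a critical pair at distance at least 5. -/
def G0 (Γ : SimpleGraph V) (G : Type*) [Group G] [MulAction G V] : Prop :=
  ∀ a b c : V, Γ.Adj a b → Γ.Adj a c → b ≠ c → IsA G a → ∃ g ∈ Qv G a, g ∈ Qv G b ∧ g ∉ Qv G c

theorem g0_of (A : IsA G a) (h1 : Γ.Adj a b) (h2 : Γ.Adj a c) (ne : b ≠ c) (g1 : g ∈ 𝐐 a) (g2 : g ∈ 𝐐 b)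
    (g3 : g ∉ 𝐐 c) : G0 Γ G := fun a' b' c' k1 k2 ne' A' => by
  obtain ⟨t, e1, e2, e3⟩ := h.tr2 h1 h2 ne k1 k2 ne' (iff_of_true A A')
  exact ⟨_, eQ.mem e1 g1, eQ.mem e2 g2, fun e => g3 ((eQ.mem_iff e3).1 e)⟩

theorem Onv5 (hb : Cb Γ G (m + 5)) (B0 : ¬ IsA G x0) (C0 : ¬ IsA G y0) (h1 : Γ.Adj x0 x1) (k1 : Γ.Adj y0 y1)
    (k2 : Γ.Adj y1 y2) (k3 : Γ.Adj y2 y3) (hd : D Γ m x1 y3) (cr : ¬ 𝐕 x0 ≤ 𝐐 y0) : NV Γ G := by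
  have q := h.Oq5 hb B0 C0 h1 k1 k2 k3 hd cr
  by_contra nv
  have hn : 2 < m + 5 := by omega
  have d1 := h.DR (h.DR hd k3.symm) k2.symm
  have A1 := h.A_of k1.symm C0
  have B2 := h.B_of k2 A1
  have n1 : y0 ≠ y2 := by
    rintro rfl; exact cr (h.VD hb (h.DR (h.DL h1 hd) k3.symm) (by omega))
  have n2 : y1 ≠ y3 := by
    rintro rfl; exact cr (h.VD hb (h.DR (h.DL h1 hd) k1.symm) (by omega))
  obtain ⟨xm, hm, z, hz, zn⟩ := ex_Up cr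
  have ne : xm ≠ x1 := by
    rintro rfl; exact zn (h.ZD hb (h.DR d1 k1.symm) (by omega) hz)
  have Am := h.A_of hm.symm B0
  obtain ⟨yp, kp, ne'⟩ := h.exists_ne k1
  have Ap := h.A_of kp.symm C0
  have z1 := h.ZD hb (h.DL hm.symm (h.DL h1 d1)) (by omega) hz
  have z0 := h.Q_le k1.symm z1
  have l2 : 𝐕 y0 ≤ 𝐐 x1 := h.VD hb (h.DL k1 d1.symm) (by omega)
  obtain ⟨p, hp, pn⟩ := h.exZa Ap kp.symm
  have r0 : ⁅p, z⁆ ∈ 𝐕 y0 := h.eV.comm (le_Up kp hp) z0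
  have r1 : ⁅p, z⁆ ∉ 𝐙 y1 := fun e => nv (h.nv_of_comm hb hn q C0 k1 kp ne'.symm hp pn z0 (QG y1 z1) zn e)
  have r2 : ⁅p, z⁆ ∈ 𝐕 x0 := h.eV.comm' (h.Q_le h1.symm (l2 (le_Up kp hp))) (le_Up hm hz)
  have r3 := h.et_of hb hn q C0 k1 kp ne'.symm hp z0 (QG y1 z1) zn
  have hE := h.EV hb hn y0
  have hA : ∀ v ∈ 𝐕 y0, ∀ g ∈ 𝐐 y1, ⁅v, g⁆ ∈ TC hE (𝐙 y0) r0 := fun v hv g hg => by
    have g0 := h.Q_le k1.symm hg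
    by_cases gn : g ∈ 𝐐 y0
    · exact ⟨h.eV.comm hv g0, Or.inl (h.commV C0 hv gn)⟩
    refine comm_Up (fun c hc => le_normalizer_of_le_centralizer fun y hy => mem_centralizer_iff.2 fun s hs =>
      hE.comm hs.1 (le_Up hc hy)) (fun c hc u hu => ⟨h.eV.comm (le_Up hc hu) g0, ?_⟩) hv
    by_cases un : u ∈ 𝐙 y0
    · rw [cm_iff.2 (h.Bc C0 un g0)]; exact Or.inl (one_mem _)
    have kp' := h.smul' z0 kp
    have m1 := sw_ne' ne'.symm (QG y1 z1)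
    have m2 := h.sw_ne k1 kp ne'.symm z0 (QG y1 z1) zn
    have hp' : z * p * z⁻¹ ∈ 𝐙 (z • yp) := eZ.mem rfl hp
    have pn' : z * p * z⁻¹ ∉ 𝐙 y0 := fun e => pn ((eZ.mem_iff z0).1 e)
    have un' : g * u * g⁻¹ ∉ 𝐙 y0 := fun e => un ((eZ.mem_iff g0).1 e)
    have mu := h.eV.conj g0 (le_Up hc hu)
    rcases h.nbr3 k1 kp kp' ne'.symm m1.symm m2.symm hc with rfl | rfl | rfl
    · rw [cm_iff.2 (h.ZcQ hu hg)]; exact Or.inl (one_mem _)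
    · refine Or.inr ?_
      rw [cm_inv (h.ea _) hu, cm_inv (h.ea _) hp, mul_assoc u, ← mul_assoc _ p, hE.comm mu (le_Up kp hp), mul_assoc p,
        ← mul_assoc u]
      exact mul_mem (q _ _ hc.symm Ap _ hu _ hp un pn) (q _ _ kp'.symm (h.A_of kp'.symm C0) _
        (eZ.mem (h.sw k1 hc kp' ne'.symm m1.symm m2.symm g0 (QG y1 hg) gn) hu) _ hp' un' pn')
    · refine Or.inr ?_
      rw [cm_inv (h.ea _) hu, cm_inv (h.ea _) hp, hE.comm (le_Up hc hu) mu, mul_assoc _ u, ← mul_assoc u,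
        hE.comm (le_Up hc hu) (le_Up kp hp), mul_assoc p, ← mul_assoc _ p]
      exact mul_mem (q _ _ kp.symm Ap _ (eZ.mem (h.sw k1 hc kp m1.symm ne'.symm m2 g0 (QG y1 hg) gn) hu) _ hp un' pn)
        (q _ _ kp'.symm (h.A_of kp'.symm C0) _ hu _ hp' un pn')
  have l4 : 𝐖 xm ≤ 𝐐 y1 := Up_le fun c hc g hg => by
    have g1 := conj_eq (Cn.comm (h.VV hb (h.D2 hc.symm hm.symm) (by omega) hg) r2)
    have g3 := h.VD hb (h.DL hc.symm (h.DL hm.symm (h.DL h1 hd))) (by omega) hg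
    have g2 := h.Q_le k3.symm g3
    have g4 : g ∈ 𝐆 y1 := by
      by_contra e
      refine nv (h.KEY hb hn q B2 k2.symm (h.smul' g2 k2.symm) (Ne.symm e) (h.smul g k1.symm) (sw_ne' n1.symm g2)
        (h.eV.mem rfl r0) (fun e => r1 ((eZ.mem_iff rfl).1 e)) r3 (r3.conj rfl) (one_mem _) (by rw [g1, one_mul]))
    have g5 : g ∈ 𝐆 y0 := by
      by_contra e
      exact r1 (h.P0 hb hn q A1 k1.symm (h.smul' g4 k1.symm) (Ne.symm e) r0 (g1 ▸ h.eV.mem rfl r0))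
    exact h.fix2 k1.symm k2 n1 g4 g5 g2
  have cc : ∀ y ∈ 𝐕 y0, ∀ w ∈ 𝐖 xm, ∀ w' ∈ 𝐖 xm, ∀ K : Subgroup G, ⁅p, z⁆ ∈ K → ⁅y, w⁆ ∉ K → ⁅y, w'⁆ ∉ K →
      ⁅y, w * w'⁆ ∈ K := fun y hy w hw w' hw' K hK e1 e2 => by
    have c1 := hA y hy w' (l4 hw')
    have w0 := h.Q_le k1.symm (l4 hw)
    have c2 : ⁅y, w'⁆ * w = w * ⁅y, w'⁆ := by
      rcases c1.2 with e | e
      · exact h.Bc C0 e w0
      · have e3 := h.Bc C0 e w0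
        rw [mul_assoc, (h.EW hb (by omega) xm).comm (le_Up hm.symm r2) hw, ← mul_assoc, ← mul_assoc] at e3
        exact mul_right_cancel e3
    rw [cm_mul', conj_eq c2]
    exact ix_TC hE r0 (fun x hx y hy => h.two q C0 hx hy) hK _ (hA y hy w (l4 hw)) _ c1 e1 e2
  obtain ⟨κ, hκ, nκ⟩ := h.exists_ne hm.symm
  by_cases ty : 𝐕 y0 ≤ 𝐐 x0
  · have p0 := ty (le_Up kp hp)
    have r4 : ⁅p, z⁆ ∈ 𝐙 xm := h.Zle Am hm.symm (cm_symm (h.commZ' Am hm.symm (h.Q_le hm p0) (QG x0 p0) hz))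
    have pq : p ∉ 𝐐 xm := fun e => r1 (by rw [cm_iff.2 (h.ZcQ hz e).symm]; exact one_mem _)
    have key : ∀ v ∈ 𝐕 κ, ⁅p, v⁆ ∈ 𝐕 κ → v ∈ 𝐙 xm := fun v hv e => h.E5 hb hn q Am hm.symm hκ nκ p0 pq hv (cm_symm e)
    exact nv (h.nv_of Am hκ fun u hu v hv n1 n2 => key _ (mul_mem hu hv) (cc p (le_Up kp hp) u (le_Up hκ hu) v
      (le_Up hκ hv) _ (le_Up hκ.symm r4) (fun e => n1 (key u hu e)) fun e => n2 (key v hv e)))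
  obtain ⟨y, hy, yn⟩ := SetLike.not_le_iff_exists.1 ty
  have y0' := h.Q_le h1.symm (l2 hy)
  have hm' := h.smul' y0' hm
  have m1 := h.sw_ne h1 hm ne.symm y0' (QG x1 (l2 hy)) yn
  have key : ∀ w ∈ 𝐖 xm, ⁅y, w⁆ ∈ 𝐕 x0 → w ∈ 𝐖 (y • xm) := fun w hw e => by
    have e1 : y * w * y⁻¹ ∈ 𝐖 xm := by
      rw [show y * w * y⁻¹ = ⁅y, w⁆ * w by rw [commutatorElement_def]; group]; exact mul_mem (le_Up hm.symm e) hw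
    have := h.eW.mem (rfl : y • xm = _) e1
    rwa [show y * (y * w * y⁻¹) * y⁻¹ = y * y * w * (y * y)⁻¹ by group, hE y hy, one_mul, inv_one, mul_one] at this
  obtain ⟨w0, hw0, wn⟩ := SetLike.not_le_iff_exists.1 (h.nle h.eW hm hm' m1.symm (h.WD hb (D.refl _) (by omega))
    (h.W_ne_bot _))
  have key' : ∀ w ∈ 𝐖 xm, w ∈ 𝐖 (y • xm) → ⁅y, w⁆ ∈ 𝐕 x0 := fun w hw e => by
    by_contra e1
    exact wn ((mul_mem_cancel_left e).1 (key _ (mul_mem hw hw0) (cc y hy w hw w0 hw0 _ r2 e1 fun e => wn (key _ hw0 e))))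
  obtain ⟨g, g1, g2, g3⟩ := h.g0_of A1 k2 k1.symm n1.symm z1 (h.ZD hb (h.DL hm.symm (h.DL h1 (h.DR hd k3.symm)))
    (by omega) hz) zn xm x0 κ hm.symm hκ nκ.symm Am
  have Bκ := h.B_of hκ Am
  obtain ⟨δ, hδ, nδ⟩ := h.exists_ne hκ.symm
  obtain ⟨s, hs, sn⟩ := h.exZa (h.A_of hδ.symm Bκ) hδ.symm
  have g0 := h.Q_le hκ g1
  have f0 : ⁅s, g⁆ ∈ 𝐕 κ := h.eV.comm (le_Up hδ hs) g0
  have f1 : ⁅s, g⁆ ∉ 𝐙 xm := fun e => nv (h.nv_of_comm hb hn q Bκ hκ.symm hδ nδ.symm hs sn g0 (QG xm g1) g3 e)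
  have f2 := h.et_of hb hn q Bκ hκ.symm hδ nδ.symm hs g0 (QG xm g1) g3
  have sW := le_Up hκ (le_Up hδ hs)
  have f3 : ⁅y, ⁅s, g⁆⁆ ∈ 𝐕 x0 := by
    by_cases e : s ∈ 𝐖 (y • xm)
    · exact key' _ (le_Up hκ f0) (h.eW.comm e (h.Q_le hm' g2))
    · rw [cm_inv (h.ea δ) hs]
      exact cc y hy s sW _ (h.eW.conj (QG xm g1) sW) _ r2 (fun k => e (key s sW k))
        fun k => e ((h.eW.mem_iff (h.Q_le hm' g2)).1 (key _ (h.eW.conj (QG xm g1) sW) k))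
  exact nv (h.KEY hb hn q B0 hm hm' m1.symm (h.smul y hκ) (sw_ne' nκ.symm y0') (h.eV.mem rfl f0)
    (fun e => f1 ((eZ.mem_iff rfl).1 e)) f2 (f2.conj rfl) f3 (by rw [commutatorElement_def y]; group))

end MG

end Cfsg.Agent.Sig.GA
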