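import Cfsg.Agent.Sig.GA5

/-! Goldschmidt amalgams of mixed type: critical distance 3 gives `#Q ≤ 64`, critical distance 5 is impossible. -/

set_option linter.unusedSectionVars false
set_option linter.unusedVariables false
set_option linter.unusedSimpArgs false

namespace Cfsg.Agent.Sig.GA
open Subgroup Cfsg MulAction Cfsg.Agent.Loc
open scoped commutatorElement

variable {G : Type*} [Group G] [Finite G] {V : Type*} [MulAction G V] {Γ : SimpleGraph V}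
  {a b c d a1 a2 b1 b2 b3 k1 k2 x0 x1 x2 x3 x4 y0 : V} {X Y N I J K M : Subgroup G} {e g t s x y z z' u v w r : G}
  {k l m n i j : ℕ} {F L : V → Subgroup G}

local notation "𝐆" => stabilizer G
local notation "𝐐" => Qv G
local notation "𝐙" => Zv G
local notation "𝐓" => Tv G
local notation "𝐕" => Up Γ (Zv G)
local notation "𝐖" => Up Γ (Up Γ (Zv G))

theorem cm_cent {s1 s2 k c : G} (h1 : s1 * k = k * s1) (h2 : s1 * c = c * s1) (h3 : s1 * s2 = s2 * s1)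
    (h4 : s2 * k = k * s2) (h5 : s2 * c = c * s2) : ⁅s1 * k, s2 * c⁆ = ⁅k, c⁆ := by
  have key : ∀ s : G, Commute s k → Commute s c → s * ⁅k, c⁆ * s⁻¹ = ⁅k, c⁆ := fun s a b =>
    conj_eq (((a.mul_right b).mul_right a.inv_right).mul_right b.inv_right).symm
  rw [cm_mul, cm_iff.2 (Commute.mul_right h3 h2), mul_one, cm_mul', cm_iff.2 h4.symm, one_mul, key s2 h4 h5,
    key s1 h1 h2]

namespace MG
variable (h : MG G Γ)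
include h

theorem ncomm (nv : NV Γ G) (A : IsA G a) (hb : Γ.Adj a b) (hv : v ∈ 𝐕 b) (vn : v ∉ 𝐙 a) (hu : u ∈ 𝐐 a)
    (un : u ∉ 𝐐 b) : ⁅v, u⁆ ∉ 𝐙 b := fun e => by
  have B := h.B_of hb A
  obtain ⟨c, hc, ne⟩ := h.exists_ne hb.symm
  obtain ⟨y, hy, yn⟩ := h.exZa (h.A_of hc.symm B) hc.symm
  have u0 := h.Q_le hb hu
  have k : ⁅y, u⁆ ∈ 𝐙 b := by
    have := nv a b hb A _ (le_Up hc hy) _ (inv_mem hv) (fun e => yn (h.ZZ' B hb.symm hc ne.symm e hy))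
      fun e => vn (inv_mem_iff.1 e)
    rw [show y = y * v⁻¹ * v by group, cm_mul, cm_iff.2 (h.ZcQ this hu), mul_one]
    exact eZ.conj (QG b (h.ZQ1 hb this)) e
  rw [cm_inv (h.ea c) hy] at k
  have k2 := (mul_mem_cancel_left hy).1 (h.Zle (h.A_of hc.symm B) hc.symm k)
  exact yn ((eZ.mem_iff u0).1 (h.ZZ' B hc (h.smul' u0 hc) (h.sw_ne hb.symm hc ne.symm u0 (QG a hu) un).symm k2
    (eZ.mem rfl hy)))

theorem third_Z (q : Q2 Γ G) (A : IsA G a) (hb : Γ.Adj a b) (hc : Γ.Adj a c) (hd : Γ.Adj a d) (n2 : b ≠ d) (n3 : c ≠ d)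
    (n1 : b ≠ c) (hs : s ∈ 𝐙 a) (s1 : s ∉ 𝐙 b) (s2 : s ∉ 𝐙 c) : s ∈ 𝐙 d := by
  obtain ⟨z, hz, z1⟩ := h.exZ d
  have za := h.Zle A hd hz
  have := h.ZZ A hb hc n1 (q a b hb A _ hs _ za s1 fun e => z1 (h.ZZ A hb hd n2 e hz))
    (q a c hc A _ hs _ za s2 fun e => z1 (h.ZZ A hc hd n3 e hz))
  rw [eq_inv_of_mul_eq_one_left this]; exact inv_mem hz

theorem ix4 (q : Q2 Γ G) (A : IsA G a) (hr : r ∈ 𝐙 a) (r1 : r ≠ 1) (hK : r ∈ K) : Ix2 K (𝐙 a) := by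
  obtain ⟨b, hb, k⟩ : ∃ b, Γ.Adj a b ∧ r ∈ 𝐙 b := by
    obtain ⟨b, hb⟩ := h.nbr a
    obtain ⟨c, hc, n1⟩ := h.exists_ne hb
    obtain ⟨d, hd, n2, n3⟩ := h.ex3 hb hc n1.symm
    by_cases e1 : r ∈ 𝐙 b
    · exact ⟨b, hb, e1⟩
    by_cases e2 : r ∈ 𝐙 c
    · exact ⟨c, hc, e2⟩
    exact ⟨d, hd, h.third_Z q A hb hc hd n2 n3 n1.symm hr e1 e2⟩
  have le := h.Zle2 q (h.B_of hb A) k r1 hK
  exact fun u hu v hv n1 n2 => le (q a b hb A u hu v hv (fun e => n1 (le e)) fun e => n2 (le e))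

section three
variable (hb : Cb Γ G 3) (q : Q2 Γ G) (nv : NV Γ G)
  (cr : ∀ {a b c : V}, IsA G a → Γ.Adj a b → Γ.Adj a c → b ≠ c → ¬ Up Γ (Zv G) b ≤ Qv G c)
include hb q nv cr

theorem c1 (A : IsA G a) (h1 : Γ.Adj a b) (h2 : Γ.Adj a c) (ne : b ≠ c) (hv : v ∈ 𝐕 b) (vn : v ∉ 𝐙 a) : v ∉ 𝐐 c :=
  fun e => cr A h1 h2 ne ((nv a b h1 A).le hv vn (h.ZQ1 h2) e)

theorem c2' (A : IsA G a) (h1 : Γ.Adj a b) (h2 : Γ.Adj a c) (ne : b ≠ c) (hv : v ∈ 𝐕 b) (vn : v ∉ 𝐙 a) (hu : u ∈ 𝐕 c)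
    (un : u ∉ 𝐙 a) : ⁅v, u⁆ ∉ 𝐙 b :=
  h.ncomm nv A h1 hv vn (h.VD hb (D.adj h2.symm) (by omega) hu) (h.c1 hb q nv cr A h2 h1 ne.symm hu un)

theorem c2 (A : IsA G a) (h1 : Γ.Adj a b) (h2 : Γ.Adj a c) (h3 : Γ.Adj a d) (n1 : b ≠ c) (n2 : b ≠ d) (n3 : c ≠ d)
    (hv : v ∈ 𝐕 b) (hu : u ∈ 𝐕 c) : ⁅v, u⁆ ∈ 𝐙 d := by
  have v1 := h.VD hb (D.adj h1.symm) (by omega) hv
  have u1 := h.VD hb (D.adj h2.symm) (by omega) hu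
  by_cases vn : v ∈ 𝐙 a
  · rw [cm_iff.2 (h.ZcQ vn u1)]; exact one_mem _
  by_cases un : u ∈ 𝐙 a
  · rw [cm_iff.2 (h.ZcQ un v1).symm]; exact one_mem _
  exact h.third_Z q A h1 h2 h3 n2 n3 n1 (h.commVa nv A h1 hv (QG a u1) (h.Q_le h1 u1))
    (h.c2' hb q nv cr A h1 h2 n1 hv vn hu un) fun e => h.c2' hb q nv cr A h2 h1 n1.symm hu un hv vn (cm_symm e)

theorem c3 (A : IsA G a) (h1 : Γ.Adj a b) : ∃ a2, Γ.Adj b a2 ∧ a2 ≠ a ∧ ∃ x ∈ 𝐐 b, x ∉ 𝐐 a ∧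
    ∀ g ∈ 𝐆 b, g ∈ Cn 𝐕 b → ⁅x, g⁆ ∈ 𝐙 a2 := by
  have B := h.B_of h1 A
  obtain ⟨a2, h2, ne⟩ := h.exists_ne h1.symm
  have A2 := h.A_of h2.symm B
  obtain ⟨κ, hκ, nκ⟩ := h.exists_ne h2.symm
  obtain ⟨v, hv, vn⟩ := h.exVa A2 hκ
  obtain ⟨g, hg, gn⟩ := h.exQ h2
  have g0 := h.Q_le h2 hg
  have hκ' := h.smul' g0 hκ
  have hv' : g * v * g⁻¹ ∈ 𝐕 (g • κ) := h.eV.mem rfl hv
  have vn' : g * v * g⁻¹ ∉ 𝐙 a2 := fun e => vn ((eZ.mem_iff g0).1 e)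
  have m1 := sw_ne' nκ.symm (QG b hg)
  have m2 := h.sw_ne h2.symm hκ nκ.symm g0 (QG b hg) gn
  generalize g * v * g⁻¹ = v' at hv' vn'
  have v1 := h.VD hb (D.adj hκ.symm) (by omega) hv
  have v2 := h.VD hb (D.adj hκ'.symm) (by omega) hv'
  refine ⟨a2, h2, ne, v * v', h.ixQ h2 (h.Q_le h2.symm v1) (QG a2 v1) (h.Q_le h2.symm v2) (QG a2 v2)
    (h.c1 hb q nv cr A2 hκ h2.symm nκ hv vn) (h.c1 hb q nv cr A2 hκ' h2.symm m1 hv' vn'), fun e => ?_,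
    fun g hg hc => h.commW hb (by omega) nv A2 (mul_mem (le_Up hκ hv) (le_Up hκ' hv')) (h.CG B h2 hg hc)⟩
  obtain ⟨y, hy, yn⟩ := h.exVa A2 h2.symm
  have e1 := cm_iff.2 (Cn.comm (h.genV nv B h1.symm h2 ne.symm e (mul_mem v1 v2)) hy)
  have p1 := h.c2 hb q nv cr A2 h2.symm hκ hκ' nκ.symm m1.symm m2.symm hy hv
  have p2 := h.c2 hb q nv cr A2 h2.symm hκ' hκ m1.symm nκ.symm m2 hy hv'
  rw [cm_mul', conj_eq (h.ZcQ (h.Zle A2 hκ p2) v1)] at e1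
  refine h.c2' hb q nv cr A2 h2.symm hκ nκ.symm hy yn hv vn ?_
  rw [h.ZZ A2 hκ' hκ m2 p1 (by rw [eq_inv_of_mul_eq_one_left e1]; exact inv_mem p2)]
  exact one_mem _

theorem c4 (A : IsA G a) (h1 : Γ.Adj a b1) (h2 : Γ.Adj a b2) (h3 : Γ.Adj a b3) (n1 : b1 ≠ b2) (n2 : b1 ≠ b3)
    (n3 : b2 ≠ b3) (hg : g ∈ 𝐐 a) (g1 : g ∈ Cn 𝐕 b1) (g3 : g ∈ Cn 𝐕 b3) : g ∈ Cn 𝐕 b2 := by
  have key : ∀ {b1 b3 : V}, Γ.Adj a b1 → Γ.Adj a b3 → b1 ≠ b2 → b1 ≠ b3 → b2 ≠ b3 → g ∈ Cn 𝐕 b1 → g ∈ Cn 𝐕 b3 →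
      ∀ y ∈ 𝐕 b2, ⁅y, g⁆ ∈ 𝐙 b3 := by
    intro b1 b3 h1 h3 n1 n2 n3 g1 g3 y hy
    obtain ⟨a2, k2, -, x, hx, xn, hc⟩ := h.c3 hb q nv cr A h1
    have s1 := le_Up k2 (hc g (h.Q_le h1 hg) g1)
    have s2 := h.eV.cn.mem (h.sw h1 h3 h2 n2 n1 n3.symm (h.Q_le h1.symm hx) (QG b1 hx) xn) g3
    rw [show g = ⁅x, g⁆⁻¹ * (x * g * x⁻¹) by rw [commutatorElement_def]; group, cm_mul', cm_iff.2 (Cn.comm s2 hy),
      mul_one, mul_inv_cancel, mul_one]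
    exact h.c2 hb q nv cr A h2 h1 h3 n1.symm n3 n2 hy (inv_mem s1)
  exact mem_Cn.2 fun y hy => cm_iff.1 (h.ZZ A h3 h1 n2.symm (key h1 h3 n1 n2 n3 g1 g3 y hy)
    (key h3 h1 n3.symm n2.symm n1.symm g3 g1 y hy))

theorem c5 (A : IsA G a) : Nat.card (𝐐 a ⊓ Cn 𝐖 a : Subgroup G) ≤ 4 := by
  set K := 𝐐 a ⊓ Cn 𝐖 a with hK
  have nK : 𝐆 a ≤ normalizer (K : Set G) := le_normalizer_inf (nQ a) (h.eW.cn.norm a)
  obtain ⟨b1, h1⟩ := h.nbr a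
  obtain ⟨b2, h2, n1⟩ := h.exists_ne h1
  obtain ⟨b3, h3, n2, n3⟩ := h.ex3 h1 h2 n1.symm
  have KV : ∀ {b : V}, Γ.Adj a b → ∀ k ∈ K, k ∈ Cn 𝐕 b := fun hb k hk => mem_Cn.2 fun y hy => Cn.comm hk.2 (le_Up hb hy)
  have k1 : ⁅K, 𝐐 a⁆ = ⊥ := by
    obtain ⟨a2, k2, -, x, hx, xn, hc⟩ := h.c3 hb q nv cr A h1
    obtain ⟨v, hv, vn⟩ := h.exVa A h1
    have hit : ∀ {c d : V}, Γ.Adj a c → Γ.Adj a d → b1 ≠ c → b1 ≠ d → c ≠ d → ∀ z ∈ 𝐙 d, ∃ w ∈ 𝐕 c, ⁅v, w⁆ = z := by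
      intro c d hc hd m1 m2 m3 z hz
      by_cases e : z = 1
      · exact ⟨1, one_mem _, by rw [e, commutatorElement_one_right]⟩
      obtain ⟨w, hw, wn⟩ := h.exVa A hc
      exact ⟨w, hw, h.two q (h.B_of hd A) (h.c2 hb q nv cr A h1 hc hd m1 m2 m3 hv hw) hz
        (fun e => h.c2' hb q nv cr A h1 hc m1 hv vn hw wn (e ▸ one_mem _)) e⟩
    refine h.nbot A (commutator_le.2 fun k hk g hg => eQ.comm hk.1 (QG a hg)) (le_normalizer_commutator nK (nQ a))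
      (h.Q_le h1.symm hx) xn fun y hy => mem_centralizer_singleton_iff.1
        ((commutator_le.2 fun k hk g hg => ?_ : ⁅K, 𝐐 a⁆ ≤ centralizer {x}) hy)
    have s0 := h.commVa nv A h1 hv (QG a hg) (h.Q_le h1 hg)
    obtain ⟨z2, hz2, z3, hz3, e⟩ := h.dec A h2 h3 n3 (h.ZO a s0)
    obtain ⟨w2, hw2, e2⟩ := hit h2 h3 n1.symm n2 n3 z3 hz3
    obtain ⟨w3, hw3, e3⟩ := hit h3 h2 n2 n1.symm n3.symm z2 hz2
    have q2 := h.VD hb (D.adj h2.symm) (by omega) hw2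
    have q3 := h.VD hb (D.adj h3.symm) (by omega) hw3
    have cQ := mul_mem hg (mul_mem q2 q3)
    have cC : g * (w2 * w3) ∈ Cn 𝐕 b1 := mem_Cn.2 fun y hy => (nv a b1 h1 A).cen hv vn (fun y hy => h.ZcQ hy cQ) (by
      rw [← cm_iff, cm_mul', cm_mul', e2, e3, conj_eq (h.ZcQ (h.Zle A h2 hz2) q2), ← e, conj_eq (h.ZcQ s0 hg)]
      exact h.ea a _ s0) hy
    have e4 : ⁅k, g⁆ = ⁅k, g * (w2 * w3)⁆ := by
      rw [cm_mul', cm_iff.2 (Cn.comm hk.2 (mul_mem (le_Up h2 hw2) (le_Up h3 hw3))).symm]; group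
    rw [e4]
    generalize g * (w2 * w3) = c at cQ cC
    have s1 := le_Up k2 (hc k (h.Q_le h1 hk.1) (KV h1 k hk))
    have s2 := le_Up k2 (hc c (h.Q_le h1 cQ) cC)
    have e5 := cm_cent (Cn.comm (KV h1 k hk) s1) (Cn.comm cC s1) ((h.EV hb (by omega) b1).comm s1 s2)
      (Cn.comm (KV h1 k hk) s2) (Cn.comm cC s2)
    rw [mem_centralizer_singleton_iff]
    calc ⁅k, c⁆ * x = ⁅⁅x, k⁆ * k, ⁅x, c⁆ * c⁆ * x := by rw [e5]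
      _ = _ := by simp only [commutatorElement_def]; group
  have k2 : ∀ {b c : V}, Γ.Adj a b → Γ.Adj a c → b ≠ c → ∃ x ∈ 𝐐 b, x ∉ 𝐐 a ∧ ∀ k ∈ K, ⁅x, k⁆ ∈ 𝐙 b := by
    intro b c hb1 hc1 ne
    obtain ⟨a2, k2, na, x, hx, xn, hc⟩ := h.c3 hb q nv cr A hb1
    refine ⟨x, hx, xn, fun k hk => ?_⟩
    by_contra sn
    have s1 := hc k (h.Q_le hb1 hk.1) (KV hb1 k hk)
    have s2 : ⁅x, k⁆ ∈ Cn 𝐖 a := h.eW.cn.comm' (h.Q_le hb1.symm hx) hk.2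
    obtain ⟨v, hv, vn⟩ := h.exVa A hc1
    have v1 := h.VD hb (D.adj hc1.symm) (by omega) hv
    exact h.c1 hb q nv cr A hc1 hb1 ne.symm hv vn (h.fix2 hb1.symm k2 na.symm (h.Q_le hb1 v1) (QG a v1)
      (h.fixB' (h.B_of hb1 A) k2 s1 sn (h.Q_le hb1 v1) (Cn.comm s2 (le_Up hc1 hv)).symm))
  obtain ⟨x, hx, xn, e1⟩ := k2 h1 h2 n1.symm
  obtain ⟨y, hy, yn, e2⟩ := k2 h2 h1 n1
  have i1 := card_le_comm e1
  have i2 := card_le_comm (X := K ⊓ centralizer {x}) fun k hk => e2 k hk.1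
  have i3 := h.cardZb q (h.B_of h1 A)
  have i4 := h.cardZb q (h.B_of h2 A)
  have x0 := h.Q_le h1.symm hx
  have y0 := h.Q_le h2.symm hy
  have k3 : K ⊓ centralizer {x} ⊓ centralizer {y} = ⊥ := h.nbot A (inf_le_left.trans (inf_le_left.trans inf_le_left))
    (le_normalizer_of_le_centralizer (h.gen h1 (h.memT h1 x0 (QG b1 hx) xn
      (fun g hg => mem_centralizer_iff.2 fun k hk => cm_iff.1 (mem_bot.1 (k1 ▸ commutator_mem_commutator hk.1.1 hg)))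
      (mem_centralizer_iff.2 fun k hk => mem_centralizer_singleton_iff.1 hk.1.2)) y0
      (h.sw_ne h2 h1 n1 y0 (QG b2 hy) yn) (mem_centralizer_iff.2 fun k hk => mem_centralizer_singleton_iff.1 hk.2)))
    x0 xn fun k hk => mem_centralizer_singleton_iff.1 hk.1.2
  rw [k3, card_bot] at i2
  calc _ ≤ _ := i1
    _ ≤ 2 * 2 := Nat.mul_le_mul i3 (by omega)

theorem c6 (A : IsA G a) : Nat.card (𝐐 a) ≤ 64 := by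
  obtain ⟨b1, h1⟩ := h.nbr a
  obtain ⟨b2, h2, n1⟩ := h.exists_ne h1
  obtain ⟨b3, h3, n2, n3⟩ := h.ex3 h1 h2 n1.symm
  obtain ⟨v1, hv1, vn1⟩ := h.exVa A h1
  obtain ⟨v3, hv3, vn3⟩ := h.exVa A h3
  have i1 := card_le_comm (X := 𝐐 a) fun g hg => h.commVa nv A h1 hv1 (QG a hg) (h.Q_le h1 hg)
  have i2 := card_le_comm (X := 𝐐 a ⊓ centralizer {v1}) fun g hg => h.commVa nv A h3 hv3 (QG a hg.1) (h.Q_le h3 hg.1)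
  have i3 := h.cardZa q A
  have i4 := h.c5 hb q nv cr A
  have i5 : Nat.card (𝐐 a ⊓ centralizer {v1} ⊓ centralizer {v3} : Subgroup G) ≤
      Nat.card (𝐐 a ⊓ Cn 𝐖 a : Subgroup G) := card_le_of_le fun g hg => by
    have g1 : g ∈ Cn 𝐕 b1 := mem_Cn.2 fun y hy => (nv a b1 h1 A).cen hv1 vn1 (fun y hy => h.ZcQ hy hg.1.1)
      (mem_centralizer_singleton_iff.1 hg.1.2).symm hy
    have g3 : g ∈ Cn 𝐕 b3 := mem_Cn.2 fun y hy => (nv a b3 h3 A).cen hv3 vn3 (fun y hy => h.ZcQ hy hg.1.1)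
      (mem_centralizer_singleton_iff.1 hg.2).symm hy
    exact ⟨hg.1.1, h.cnUp h1 h2 h3 n1.symm n2 n3 g1 (h.c4 hb q nv cr A h1 h2 h3 n1.symm n2 n3 hg.1.1 g1 g3) g3⟩
  calc _ ≤ _ := i1
    _ ≤ 4 * (4 * 4) := Nat.mul_le_mul i3 (i2.trans (Nat.mul_le_mul i3 (i5.trans i4)))

end three

theorem O3 (hb : Cb Γ G 3) (A : IsA G a) (h1 : Γ.Adj a x0) (k1 : Γ.Adj a y0) (cr : ¬ 𝐕 x0 ≤ 𝐐 y0) :
    Nat.card (𝐐 a) ≤ 64 :=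
  h.c6 hb (h.Oq3 hb A h1 k1 cr) (h.Onv3 hb A h1 k1 cr)
    (fun A' h2 k2 ne => h.sym3 h1 k1 cr h2 k2 ne (iff_of_true A A')) A

theorem O5 (hb : Cb Γ G 5) (B0 : ¬ IsA G x0) (h1 : Γ.Adj x0 x1) (h2 : Γ.Adj x1 x2) (h3 : Γ.Adj x2 x3) (h4 : Γ.Adj x3 x4)
    (cr : ¬ 𝐕 x0 ≤ 𝐐 x4) : False := by
  have A1 := h.A_of h1.symm B0
  have B2 := h.B_of h2 A1
  have A3 := h.A_of h3.symm B2
  have B4 := h.B_of h4 A3
  have q := h.Oq5 (m := 0) hb B0 B4 h1 h4.symm h3.symm h2.symm (D.refl _) cr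
  have nv := h.Onv5 (m := 0) hb B0 B4 h1 h4.symm h3.symm h2.symm (D.refl _) cr
  have n1 : x0 ≠ x2 := by rintro rfl; exact cr (h.VD hb (h.D2 h3 h4) (by omega))
  have n2 : x1 ≠ x3 := by rintro rfl; exact cr (h.VD hb (h.D2 h1 h4) (by omega))
  have n3 : x4 ≠ x2 := by rintro rfl; exact cr (h.VD hb (h.D2 h1 h2) (by omega))
  have cr1 : ¬ 𝐕 x0 ≤ Cn 𝐕 x4 := fun e => cr fun v hv =>
    h.CQ B4 (h.Q_le h4 (h.VD hb (h.DR (h.D2 h1 h2) h3) (by omega) hv)) (e hv)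
  have mv : ∀ {b a1 a2 k1 k2 k2' : V}, ¬ IsA G b → Γ.Adj b a1 → Γ.Adj b a2 → a1 ≠ a2 → Γ.Adj a1 k1 → Γ.Adj a2 k2 →
      Γ.Adj a2 k2' → k2 ≠ b → k2' ≠ b → ∃ g : G, g • k1 = k1 ∧ g • k2 = k2' := by
    intro b a1 a2 k1 k2 k2' B p1 p2 ne p3 p4 p5 m1 m2
    by_cases e : k2 = k2'
    · exact ⟨1, one_smul _ _, by rw [one_smul, e]⟩
    obtain ⟨g, g1, g2, g3⟩ := h.QQ B p1 p2 ne
    exact ⟨g, h.Q_le p3 g2, h.sw p2.symm p4 p5 m1.symm m2.symm e (h.Q_le p2 g1) (QG b g1) g3⟩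
  have key : ∀ {b a1 a2 k1 k2 : V} {u1 u2 : G}, ¬ IsA G b → Γ.Adj b a1 → Γ.Adj b a2 → a1 ≠ a2 → Γ.Adj a1 k1 →
      Γ.Adj a2 k2 → k1 ≠ b → k2 ≠ b → u1 ∈ 𝐕 k1 → u1 ∉ 𝐙 a1 → u2 ∈ 𝐕 k2 → u2 ∉ 𝐙 a2 →
      ⁅u1, u2⁆ ∈ 𝐙 b ∧ ⁅u1, u2⁆ ≠ 1 := by
    intro b a1 a2 k1 k2 u1 u2 B p1 p2 ne p3 p4 m1 m2 hu1 un1 hu2 un2
    have A1 := h.A_of p1.symm B
    have A2 := h.A_of p2.symm B
    have q1 := h.WD hb (h.D2 p1.symm p2) (by omega) (le_Up p3 hu1)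
    have q2 := h.WD hb (h.D2 p2.symm p1) (by omega) (le_Up p4 hu2)
    refine ⟨h.ZZ' B p1 p2 ne (h.commW hb (by omega) nv A1 (le_Up p3 hu1) q2)
      (cm_symm (h.commW hb (by omega) nv A2 (le_Up p4 hu2) q1)), fun e => ?_⟩
    have le : 𝐕 k1 ≤ Cn 𝐕 k2 := (nv a1 k1 p3 A1).le hu1 un1 (h.LC hb 0 1 (h.DR (h.D2 p1.symm p2) p4) (by omega))
      (mem_Cn.2 fun y hy => (nv a2 k2 p4 A2).cen hu2 un2 (fun y hy => h.ZcQ hy q1) (cm_iff.1 e).symm hy)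
    obtain ⟨g, rfl, rfl, rfl⟩ := h.tr2 h2.symm h3 n2 p1 p2 ne (iff_of_false B2 B)
    have r1 := h.smul g h1.symm
    have r2 := h.smul g h4
    obtain ⟨g1, e1, e2⟩ := mv B p1 p2 ne p3 p4 r2 m2 fun e => n3 (MulAction.injective g e)
    obtain ⟨g2, e3, e4⟩ := mv B p2 p1 ne.symm r2 p3 r1 m1 fun e => n1 (MulAction.injective g e)
    rw [← cj_le_cj_iff (g := g1), ← h.eV, ← h.eV.cn, e1, e2, ← cj_le_cj_iff (g := g2), ← h.eV, ← h.eV.cn, e3, e4,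
      h.eV, h.eV.cn, cj_le_cj_iff] at le
    exact cr1 le
  -- the configuration `x0 - x1 - x2 - x3 - x4 - c - d`
  obtain ⟨x, hx, xn⟩ := h.exVa A1 h1.symm
  obtain ⟨c, hc, nc⟩ := h.exists_ne h4.symm
  obtain ⟨d, hd, nd⟩ := h.exists_ne hc.symm
  have Ac := h.A_of hc.symm B4
  obtain ⟨u, hu, un⟩ := h.exVa Ac hd
  have x3' := h.VD hb (h.DR (h.D2 h1 h2) h3) (by omega) hx
  have x4' := h.Q_le h4 x3'
  have xq : x ∉ 𝐐 x4 := fun e => cr ((nv x1 x0 h1.symm A1).le hx xn (h.ZD hb (h.DR (h.D2 h2 h3) h4) (by omega)) e)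
  have hc' := h.smul' x4' hc
  have m1 := sw_ne' nc.symm (QG x3 x3')
  have m2 := h.sw_ne h4.symm hc nc.symm x4' (QG x3 x3') xq
  have hu' : x * u * x⁻¹ ∈ 𝐕 (x • d) := h.eV.mem rfl hu
  have un' : x * u * x⁻¹ ∉ 𝐙 (x • c) := fun e => un ((eZ.mem_iff rfl).1 e)
  have hd' := h.smul x hd
  have nd' := sw_ne' nd.symm x4'
  have u1 := h.VD hb (h.DR (h.D2 hd.symm hc.symm) h4.symm) (by omega) hu
  have u2 := h.VD hb (h.DR (h.D2 hd'.symm hc'.symm) h4.symm) (by omega) hu'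
  obtain ⟨v, hv, vn⟩ := h.exVa A3 h3.symm
  obtain ⟨p1, p2⟩ := key B4 h4.symm hc nc.symm h3.symm hd n3.symm nd hv vn hu un
  obtain ⟨p3, p4⟩ := key B4 h4.symm hc' m1.symm h3.symm hd' n3.symm nd' hv vn hu' un'
  obtain ⟨p5, p6⟩ := key B4 hc' hc m2 hd' hd nd' nd hu' un' hu un
  have cQ := mul_mem u1 u2
  have cC : u * (x * u * x⁻¹) ∈ Cn 𝐕 x2 := mem_Cn.2 fun y hy => (nv x3 x2 h3.symm A3).cen hv vn
    (fun y hy => h.ZcQ hy cQ) (by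
      rw [← cm_iff, cm_mul', conj_eq (h.Bc B4 p3 (h.Q_le h4 u1)), h.two q B4 p1 p3 p2 p4]; exact h.ea x4 _ p3) hy
  have k := h.commW hb (by omega) nv A1 (le_Up h1.symm hx) (h.CG B2 h2.symm (h.Q_le h3.symm cQ) cC)
  have e : ⁅x, u * (x * u * x⁻¹)⁆ = ⁅x * u * x⁻¹, u⁆ := by
    have e1 := h.EV hb (by omega) x0 x hx
    have e2 := (h.EV hb (by omega) d).inv hu
    calc _ = x * u * (x * x) * x⁻¹ * u * (x * x)⁻¹ * x * u⁻¹ * x⁻¹ * u⁻¹ := by rw [commutatorElement_def]; group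
      _ = _ := by rw [e1, commutatorElement_def]; group
  rw [e] at k
  exact p6 (h.ZZ A3 h3.symm h4 n3.symm (h.ZZ' B2 h2.symm h3 n2 k (h.Zle A3 h4 p5)) p5)

end MG

end Cfsg.Agent.Sig.GA
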