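import Cfsg.Agent.Sig.GA6

/-! Goldschmidt amalgams of mixed type: an odd critical distance at least 7 is impossible. -/

set_option linter.unusedSectionVars false
set_option linter.unusedVariables false
set_option linter.unusedSimpArgs false

namespace Cfsg.Agent.Sig.GA
open Subgroup Cfsg MulAction Cfsg.Agent.Loc
open scoped commutatorElement

variable {G : Type*} [Group G] [Finite G] {V : Type*} [MulAction G V] {Γ : SimpleGraph V}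
  {a b c d a1 a2 b1 b2 b3 x0 x1 x2 x3 x4 y0 y1 y2 yp : V} {X Y N I J K M : Subgroup G} {e g t s x y z z' u v w r : G}
  {k l m n i j : ℕ} {F L : V → Subgroup G}

local notation "𝐆" => stabilizer G
local notation "𝐐" => Qv G
local notation "𝐙" => Zv G
local notation "𝐓" => Tv G
local notation "𝐕" => Up Γ (Zv G)
local notation "𝐖" => Up Γ (Up Γ (Zv G))
local notation "𝐔" => Up Γ (Up Γ (Up Γ (Zv G)))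

def NW (Γ : SimpleGraph V) (G : Type*) [Group G] [MulAction G V] : Prop :=
  ∀ a b : V, Γ.Adj a b → IsA G a → Ix2 (Up Γ (Zv G) b) (Up Γ (Up Γ (Zv G)) a)
def IW (Γ : SimpleGraph V) (G : Type*) [Group G] [MulAction G V] : Prop :=
  ∀ b a c : V, Γ.Adj b a → Γ.Adj b c → a ≠ c → ¬ IsA G b → Ix2 (Up Γ (Up Γ (Zv G)) c) (Up Γ (Up Γ (Zv G)) a)
def G1 (Γ : SimpleGraph V) (G : Type*) [Group G] [MulAction G V] : Prop :=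
  ∀ a b c : V, Γ.Adj a b → Γ.Adj a c → b ≠ c → IsA G a →
    ∃ x ∈ Qv G a, x ∈ Qv G b ∧ x ∈ Cn (Up Γ (Zv G)) c ∧ x ∉ Cn (Up Γ (Zv G)) b

theorem conj_cm (x y : G) : x * y * x⁻¹ = ⁅x, y⁆ * y := by rw [commutatorElement_def]; group

namespace MG
variable (h : MG G Γ)
include h

theorem g1_of (A : IsA G a) (h1 : Γ.Adj a b) (h2 : Γ.Adj a c) (ne : b ≠ c) (x1 : x ∈ 𝐐 a) (x2 : x ∈ 𝐐 b)
    (x3 : x ∈ Cn 𝐕 c) (x4 : x ∉ Cn 𝐕 b) : G1 Γ G := fun a' b' c' k1 k2 ne' A' => by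
  obtain ⟨t, e1, e2, e3⟩ := h.tr2 h1 h2 ne k1 k2 ne' (iff_of_true A A')
  exact ⟨_, eQ.mem e1 x1, eQ.mem e2 x2, h.eV.cn.mem e3 x3, fun e => x4 ((h.eV.cn.mem_iff e2).1 e)⟩

theorem iw_of (B : ¬ IsA G b) (h1 : Γ.Adj b a) (h2 : Γ.Adj b c) (ne : a ≠ c) (k : Ix2 (𝐖 c) (𝐖 a)) : IW Γ G :=
  fun b' a' c' k1 k2 ne' B' => by
  obtain ⟨t, rfl, rfl, rfl⟩ := h.tr2 h1 h2 ne k1 k2 ne' (iff_of_false B B')
  rw [h.eW, h.eW]; exact k.cj t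

theorem H2 (hb : Cb Γ G n) (hn : 4 < n) (nv : NV Γ G) (B : ¬ IsA G b) (h1 : Γ.Adj b a1) (h2 : Γ.Adj b a2)
    (ne : a1 ≠ a2) (w1 : w ∈ 𝐖 a1) (w2 : w ∈ 𝐖 a2) (hx : x ∈ 𝐐 b) : ⁅w, x⁆ ∈ 𝐙 b := by
  have key : ∀ {a1 a2 : V}, Γ.Adj b a1 → Γ.Adj b a2 → a1 ≠ a2 → w ∈ 𝐖 a1 → w ∈ 𝐖 a2 → ⁅w, x⁆ ∈ 𝐙 a1 := by
    intro a1 a2 h1 h2 ne w1 w2
    have A := h.A_of h1.symm B
    obtain ⟨g, hg, gn⟩ := h.exQ h1
    exact h.pat (I := 𝐖 a1 ⊓ 𝐖 a2) h.eV eZ (h.EW hb hn a1) (fun c hc => nv a1 c hc A) (fun c hc => le_Up hc.symm)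
      h1.symm (le_inf (le_Up h1.symm) (le_Up h2.symm)) inf_le_left
      (fun k => h.nle h.eW h1 h2 ne (h.WD hb (D.refl _) (by omega)) (h.W_ne_bot _) (k.trans inf_le_right))
      (h.Q_le h1 hg) (QG b hg) gn (fun w hw => ⟨h.eW.conj (h.Q_le h1 hg) hw.1, h.eW.conj (h.Q_le h2 hg) hw.2⟩)
      (h.Q_le h1 hx) (QG b hx) le_rfl (fun y hy => h.Zle A h1.symm (h.commV B hy hx)) ⟨w1, w2⟩
  exact h.ZZ' B h1 h2 ne (key h1 h2 ne w1 w2) (key h2 h1 ne.symm w2 w1)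

theorem nw_of (hb : Cb Γ G n) (hn : 4 < n) (nv : NV Γ G) (iw : IW Γ G) (g1 : G1 Γ G) : NW Γ G := by
  intro a b1 h1 A
  have hE := h.EW hb hn a
  have VQa : ∀ {b : V}, Γ.Adj a b → 𝐕 b ≤ 𝐐 a := fun k => h.VD hb (D.adj k.symm) (by omega)
  have s1 : ∀ {b1 b2 b3 : V} {v1 v2 v3 : G}, Γ.Adj a b1 → Γ.Adj a b2 → Γ.Adj a b3 → b1 ≠ b2 → b1 ≠ b3 → b2 ≠ b3 →
      v1 ∈ 𝐕 b1 → v2 ∈ 𝐕 b2 → v2 ∉ 𝐙 a → v3 ∈ 𝐕 b3 → v3 ∉ 𝐙 a → ∀ x ∈ 𝐐 b1, ⁅v1 * (v2 * v3), x⁆ ∈ 𝐙 b1 := by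
    intro b1 b2 b3 v1 v2 v3 h1 h2 h3 n1 n2 n3 hv1 hv2 vn2 hv3 vn3 x hx
    have B := h.B_of h1 A
    obtain ⟨a2, k2, ne⟩ := h.exists_ne h1.symm
    have key : ∀ {b2 b3 : V} {v2 : G}, Γ.Adj a b2 → Γ.Adj a b3 → b1 ≠ b2 → b1 ≠ b3 → b2 ≠ b3 → v2 ∈ 𝐕 b2 →
        v2 ∉ 𝐙 a → v2 ∉ 𝐖 a2 := by
      intro b2 b3 v2 h2 h3 n1 n2 n3 hv2 vn2 e
      have l2 : 𝐕 b2 ≤ 𝐖 a2 := (nv a b2 h2 A).le hv2 vn2 ((le_Up h1.symm).trans (le_Up k2.symm)) e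
      obtain ⟨g, hg, gn⟩ := h.exQ h1.symm
      refine h.nle h.eW h1.symm k2 ne.symm (h.WD hb (D.refl _) (by omega)) (h.W_ne_bot _) (Up_le fun c hc => ?_)
      rcases h.nbr3 h1 h2 h3 n1 n2 n3 hc with rfl | rfl | rfl
      · exact le_Up k2.symm
      · exact l2
      · exact fun y hy => (h.eW.mem_iff (h.Q_le k2 hg)).1
          (l2 (h.eV.mem (h.sw h1 hc h2 n2 n1 n3.symm (h.Q_le h1.symm hg) (QG _ hg) gn) hy))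
    exact h.H2 hb hn nv B h1.symm k2 ne.symm (mul_mem (le_Up h1 hv1) (mul_mem (le_Up h2 hv2) (le_Up h3 hv3)))
      (mul_mem (le_Up k2.symm hv1) (iw b1 a a2 h1.symm k2 ne.symm B _ (le_Up h2 hv2) _ (le_Up h3 hv3)
        (key h2 h3 n1 n2 n3 hv2 vn2) (key h3 h2 n2 n1 n3.symm hv3 vn3))) hx
  have s2 : ∀ {b1 b2 b3 : V} {v1 v2 v3 : G}, Γ.Adj a b1 → Γ.Adj a b2 → Γ.Adj a b3 → b1 ≠ b2 → b1 ≠ b3 → b2 ≠ b3 →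
      v1 ∈ 𝐕 b1 → v1 ∉ 𝐙 a → v2 ∈ 𝐕 b2 → v2 ∉ 𝐙 a → v3 ∈ 𝐕 b3 → v3 ∉ 𝐙 a →
      ∀ g ∈ 𝐐 a, ⁅v1 * (v2 * v3), g⁆ ∈ 𝐙 b3 := by
    intro b1 b2 b3 v1 v2 v3 h1 h2 h3 n1 n2 n3 hv1 vn1 hv2 vn2 hv3 vn3 g hg
    have m1 := le_Up h1 hv1
    have m2 := le_Up h2 hv2
    have m3 := le_Up h3 hv3
    have P1 := s1 h1 h2 h3 n1 n2 n3 hv1 hv2 vn2 hv3 vn3
    have P2 := s1 h2 h1 h3 n1.symm n3 n2 hv2 hv1 vn1 hv3 vn3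
    have P3 := s1 h3 h1 h2 n2.symm n3.symm n1 hv3 hv1 vn1 hv2 vn2
    rw [← mul_assoc, hE.comm m2 m1, mul_assoc] at P2
    rw [hE.comm m3 (mul_mem m1 m2), mul_assoc] at P3
    obtain ⟨x, x0, x1, x2, x3⟩ := g1 a b1 b2 h1 h2 n1 A
    have e1 := h.ZZ A h1 h2 n1 (P1 x x1) (P2 x (h.CQ (h.B_of h2 A) (h.Q_le h2 x0) x2))
    have xn : x ∉ 𝐐 b3 := fun k => by
      have e2 := e1
      rw [cm_mul, cm_mul, cm_iff.2 (Cn.comm x2 hv2), mul_one] at e2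
      have e3 : ⁅v1, x⁆ ∈ 𝐙 b3 := by
        rw [eq_inv_of_mul_eq_one_right e2]
        exact inv_mem (eZ.conj (h.Q_le h3 (VQa h1 hv1)) (eZ.conj (h.Q_le h3 (VQa h2 hv2)) (h.commV (h.B_of h3 A) hv3 k)))
      exact x3 (mem_Cn.2 fun y hy => (nv a b1 h1 A).cen hv1 vn1 (fun y hy => h.ZcQ hy x0)
        (cm_iff.1 (h.ZZ A h1 h3 n2 (h.commV (h.B_of h1 A) hv1 x1) e3)) hy)
    by_cases gn : g ∈ 𝐐 b3
    · exact P3 g gn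
    have := P3 _ (h.ixQ h3.symm (h.Q_le h3 hg) (QG a hg) (h.Q_le h3 x0) (QG a x0) gn xn)
    rwa [cm_mul', e1, mul_one, mul_inv_cancel, mul_one] at this
  obtain ⟨b2, h2, n1⟩ := h.exists_ne h1
  obtain ⟨b3, h3, n2, n3⟩ := h.ex3 h1 h2 n1.symm
  obtain ⟨v1, hv1, vn1⟩ := h.exVa A h1
  obtain ⟨v2, hv2, vn2⟩ := h.exVa A h2
  obtain ⟨v3, hv3, vn3⟩ := h.exVa A h3
  have P1 := s2 h1 h2 h3 n1.symm n2 n3 hv1 vn1 hv2 vn2 hv3 vn3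
  have P2 := s2 h1 h3 h2 n2 n1.symm n3.symm hv1 vn1 hv3 vn3 hv2 vn2
  rw [hE.comm (le_Up h3 hv3) (le_Up h2 hv2)] at P2
  have yZ := h.memZ A (mul_mem (VQa h1 hv1) (mul_mem (VQa h2 hv2) (VQa h3 hv3)))
    (hE _ (mul_mem (le_Up h1 hv1) (mul_mem (le_Up h2 hv2) (le_Up h3 hv3)))) fun x hx =>
      cm_iff.1 (h.ZZ A h2 h3 n3 (P2 x hx) (P1 x hx))
  exact h.pat_ix h.eV eZ hE (fun c hc => nv a c hc A) (fun c hc => le_Up hc.symm) h1 h2 h3 n1.symm n2 n3 hv2 vn2 hv3 vn3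
    ((mul_mem_cancel_left hv1).1 (le_Up h1.symm yZ))

theorem cenW (hb : Cb Γ G n) (hn : 2 < n) (q : Q2 Γ G) (nw : NW Γ G) (A : IsA G a) (h1 : Γ.Adj a b) (h2 : Γ.Adj a c)
    (ne : b ≠ c) (g1 : g ∈ Cn 𝐕 b) (g2 : g ∈ Cn 𝐕 c) : g ∈ Cn 𝐖 a := by
  obtain ⟨v, hv, vn⟩ := h.exVa A h2
  exact mem_Cn.2 fun y hy => (nw a b h1 A).cen (le_Up h2 hv) (fun e => vn (h.P0 hb hn q A h1 h2 ne e hv))
    (fun y hy => Cn.comm g1 hy) (Cn.comm g2 hv) hy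

theorem L1 (hb : Cb Γ G (m + 7)) (hm : m ≠ 1) (q : Q2 Γ G) (nv : NV Γ G) (B0 : ¬ IsA G x0) (C0 : ¬ IsA G y0)
    (h1 : Γ.Adj x0 x1) (h2 : Γ.Adj x1 x2) (h3 : Γ.Adj x2 x3) (h4 : Γ.Adj x3 x4) (k1 : Γ.Adj y0 y1) (k2 : Γ.Adj y1 y2)
    (hd : D Γ m x4 y2) (cr : ¬ 𝐕 x0 ≤ 𝐐 y0) (kp : Γ.Adj y0 yp) (ne : yp ≠ y1) (hW : 𝐖 yp ≤ Cn 𝐕 x2) : False := by
  have A1 := h.A_of h1.symm B0
  have B2 := h.B_of h2 A1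
  have A3 := h.A_of h3.symm B2
  have C1 := h.A_of k1.symm C0
  have Cp := h.A_of kp.symm C0
  have d1 := h.DL h4 hd
  have d2 := h.DL h3 d1
  have d3 := h.DL h2 d2
  have d4 := h.DL h1 d3
  have dd : ∀ {k : ℕ} {a : V}, D Γ k a y2 → D Γ (k + 1 + 1) a y0 := fun k => h.DR (h.DR k k2.symm) k1.symm
  have n02 : x0 ≠ x2 := by rintro rfl; exact cr (h.VD hb (dd d2) (by omega))
  have n13 : x1 ≠ x3 := by rintro rfl; exact cr (h.VD hb (dd (h.DL h1 d1)) (by omega))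
  have n24 : x2 ≠ x4 := by rintro rfl; exact cr (h.VD hb (dd (h.DL h1 (h.DL h2 hd))) (by omega))
  have m02 : y0 ≠ y2 := by rintro rfl; exact cr (h.VD hb d4 (by omega))
  obtain ⟨z, hz, zn⟩ := SetLike.not_le_iff_exists.1 cr
  have zZ : z ∉ 𝐙 x1 := fun e => zn (h.ZD hb (dd d3) (by omega) e)
  have z1 : z ∈ 𝐐 y1 := h.VD hb (h.DR d4 k2.symm) (by omega) hz
  have z0 := h.Q_le k1.symm z1
  have zz : z * z = 1 := h.EV hb (by omega) x0 z hz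
  have kq := h.smul' z0 kp
  have m1 : z • yp ≠ yp := h.sw_ne k1 kp ne.symm z0 (QG _ z1) zn
  have eq : z • z • yp = yp := by rw [← mul_smul, zz, one_smul]
  have WQ : 𝐖 yp ≤ 𝐐 x1 := fun w hw =>
    h.CG B2 h2.symm (h.Q_le h3.symm (h.WD hb (h.DR (dd d1) kp).symm (by omega) hw)) (hW hw)
  have cz : ∀ w ∈ 𝐐 x1, ⁅z, w⁆ ∈ 𝐙 x1 := fun w hw => h.commVa nv A1 h1.symm hz (QG _ hw) (h.Q_le h1.symm hw)
  have ncen : ∀ {b : V}, z ∉ Cn 𝐕 b → ∃ y ∈ 𝐕 b, ⁅z, y⁆ ≠ 1 := fun {b} k => by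
    by_contra hc
    push Not at hc
    exact k (mem_Cn.2 fun y hy => (cm_iff.1 (hc y hy)).symm)
  have zc0 : z ∉ Cn 𝐕 y0 := fun e => zn (h.CQ C0 z0 e)
  obtain ⟨y, hy, r1⟩ := ncen zc0
  have r2 := cz y (WQ (le_Up kp.symm hy))
  have r3 : ⁅z, y⁆ ∈ 𝐙 y1 := cm_symm (h.commVa nv C1 k1.symm hy (QG _ z1) z0)
  have r4 : ⁅z, y⁆ ∈ 𝐖 yp := le_Up kp.symm (le_Up k1 r3)
  obtain ⟨w0, hw0, t1⟩ : ∃ w0 ∈ 𝐖 yp, ⁅z, w0⁆ ∉ 𝐖 yp := by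
    by_contra hc
    push Not at hc
    refine h.nn h.eW kp (h.WD hb (D.refl _) (by omega)) (h.W_ne_bot _) z0 m1 fun w hw => ?_
    rw [conj_cm]; exact mul_mem (hc w hw) hw
  have t2 := cz w0 (WQ hw0)
  have hom : ∀ w ∈ 𝐖 yp, ∀ w' ∈ 𝐖 yp, ⁅z, w * w'⁆ = ⁅z, w⁆ * ⁅z, w'⁆ := fun w hw w' hw' => by
    rw [cm_mul', conj_eq (h.ZcQ (cz w' (WQ hw')) (WQ hw))]
  let S : Subgroup G :=
    { carrier := {s | ∃ w ∈ 𝐖 yp, ⁅z, w⁆ = s}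
      one_mem' := ⟨1, one_mem _, commutatorElement_one_right z⟩
      mul_mem' := by
        rintro _ _ ⟨w, hw, rfl⟩ ⟨w', hw', rfl⟩
        exact ⟨_, mul_mem hw hw', hom w hw w' hw'⟩
      inv_mem' := by
        rintro _ ⟨w, hw, rfl⟩
        exact ⟨w, hw, ((h.ea x1).inv (cz w (WQ hw))).symm⟩ }
  have ZS : 𝐙 x1 ≤ S := (h.ix4 (K := S ⊓ 𝐖 yp) q A1 r2 r1 ⟨⟨y, le_Up kp.symm hy, rfl⟩, r4⟩).le t2 (fun e => t1 e.2)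
    inf_le_left ⟨w0, hw0, rfl⟩
  obtain ⟨ζ, hζ, ζ1⟩ := h.exZ x0
  obtain ⟨w, hw, rfl⟩ := ZS (h.Zle A1 h1.symm hζ)
  have w0' : w ∈ 𝐐 x0 := by
    by_contra e
    exact h.ncomm nv A1 h1.symm hz zZ (WQ hw) e hζ
  have key : ∀ w ∈ 𝐖 yp, ⁅z, w⁆ ∈ 𝐖 yp ↔ w ∈ 𝐖 (z • yp) := fun w hw => by
    rw [commutatorElement_def, mul_mem_cancel_right (inv_mem hw)]; exact h.eW.mem_iff eq
  have nw : NW Γ G := h.nw_of hb (by omega) nv (h.iw_of C0 kp kq m1.symm fun u hu v hv n1 n2 =>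
    (key _ (mul_mem hu hv)).1 (by
      rw [hom u hu v hv]
      exact h.ix4 q A1 r2 r1 r4 _ (cz u (WQ hu)) _ (cz v (WQ hv)) (fun e => n1 ((key u hu).1 e))
        fun e => n2 ((key v hv).1 e)))
    (h.g1_of A1 h1.symm h2 n02 (WQ hw) w0' (hW hw) fun e => ζ1 (cm_iff.2 (Cn.comm e hz)))
  obtain ⟨x, p0, p1, p2, v, hv, p3⟩ : ∃ x ∈ 𝐆 y0, x ∈ Cn 𝐕 y0 ∧ x ∈ Cn 𝐖 (z • yp) ∧ ∃ v ∈ 𝐖 yp, ⁅v, x⁆ ∉ 𝐙 y0 := by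
    obtain ⟨t, e1, e2, e3⟩ := h.tr2 h2.symm h3 n13 kp kq m1.symm (iff_of_false B2 C0)
    refine ⟨_, eG.mem e1 (h.Q_le h2 (WQ hw)), h.eV.cn.mem e1 (hW hw), h.eW.cn.mem e3 (h.cenW hb (by omega) q nw A3
      h3.symm h4 n24 (hW hw) (h.WV hb (h.DR (dd hd) kp).symm (by omega) hw)), _, h.eW.mem e2 (le_Up h1.symm hz),
      fun e => ζ1 (h.ZZ A1 h1.symm h2 n02 hζ ((eZ.mem_iff e1).1 ?_))⟩
    rwa [show t * ⁅z, w⁆ * t⁻¹ = ⁅t * z * t⁻¹, t * w * t⁻¹⁆ by simp only [commutatorElement_def]; group]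
  have hEp := h.EW hb (by omega) yp
  have p4 := h.commW hb (by omega) nv Cp hw0 (h.CG C0 kp p0 p1)
  have p5 : ⁅⁅z, w0⁆, x⁆ = ⁅w0, x⁆ := by
    have a1 : z * w0 * z⁻¹ ∈ 𝐖 (z • yp) := h.eW.mem rfl hw0
    rw [commutatorElement_def z, hEp.inv hw0, cm_mul, cm_iff.2 (Cn.comm p2 a1), mul_one,
      conj_eq (h.ZcQ p4 (h.WD hb (h.D2 kq.symm kp) (by omega) a1))]
  have p6 : ⁅w0, x⁆ ∉ 𝐙 y1 := fun e => by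
    have vn : v ∉ 𝐕 y0 := fun k => p3 (by rw [cm_iff.2 (Cn.comm p1 k)]; exact one_mem _)
    have := nw yp y0 kp.symm Cp _ hv _ hw0 vn fun k => t1 ((key w0 hw0).2 (le_Up kq.symm k))
    refine p3 ?_
    rw [show v = w0 * (v * w0) by rw [hEp.comm hv hw0, ← mul_assoc, hEp w0 hw0, one_mul], cm_mul,
      cm_iff.2 (Cn.comm p1 this), mul_one, mul_inv_cancel, one_mul]
    exact h.ZZ' C0 kp k1 ne p4 e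
  have eU := h.up h.eW
  have tU : ∀ w ∈ 𝐖 yp, ⁅z, w⁆ ∈ 𝐔 y0 := fun w hw => eU.comm' z0 (le_Up kp hw)
  have nU : ∀ {μ : V}, Γ.Adj y1 μ → μ ≠ y0 → ⁅z, w0⁆ ∉ 𝐔 μ := fun {μ} hμ nμ e => by
    have Bμ := h.B_of hμ C1
    obtain ⟨g, hg, gn⟩ := h.exQ hμ
    have xq := h.CG C0 k1 p0 p1
    have := h.pat (I := 𝐔 μ ⊓ 𝐔 y0) h.eW h.eV (h.LE hb 3 μ (by omega)) (fun c hc => nw c μ hc.symm (h.A_of hc.symm Bμ))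
      (fun c hc => le_Up hc.symm) hμ.symm (le_inf (le_Up hμ.symm) (le_Up k1)) inf_le_left
      (fun k => h.nle eU hμ k1.symm nμ (h.LQ hb 3 (D.refl _) (by omega)) (Up_ne_bot k1 (h.W_ne_bot _))
        (k.trans inf_le_right))
      (h.Q_le hμ hg) (QG _ hg) gn (fun w hw => ⟨eU.conj (h.Q_le hμ hg) hw.1, eU.conj (h.Q_le k1.symm hg) hw.2⟩)
      (h.Q_le hμ xq) (QG _ xq) le_rfl (fun y hy => le_Up hμ.symm (h.commW hb (by omega) nv C1 hy xq)) ⟨e, tU w0 hw0⟩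
    rw [p5] at this
    exact p6 (h.P0 hb (by omega) q C1 hμ k1.symm nμ this (le_Up kp p4))
  rcases Nat.eq_zero_or_pos m with rfl | hm0
  · obtain rfl : x4 = y2 := (h.conn.dist_eq_zero_iff).1 (Nat.le_zero.1 hd)
    exact nU k2 m02.symm (le_Up h4.symm (le_Up h3.symm (le_Up h2.symm t2)))
  obtain ⟨ν, hν, n1, n2⟩ := h.ex3 k1.symm k2 m02
  obtain ⟨c, hc, nc⟩ := h.exists_ne hν.symm
  have Bν := h.B_of hν C1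
  have Ac := h.A_of hc.symm Bν
  have zν := h.Q_le hν z1
  have cQ : 𝐖 c ≤ 𝐐 x1 := fun g hg => by
    have g1 : ∀ s ∈ 𝐙 x1, s * g = g * s := fun s hs => by
      obtain ⟨w, hw, rfl⟩ := ZS hs
      exact Cn.comm (h.LC hb 2 3 (h.DR (h.D2 hc.symm hν.symm) k1.symm) (by omega) hg) (tU w hw)
    obtain ⟨s, hs, sn⟩ := h.exZa A1 h2
    exact h.memQ A1 (h.fixB' B2 h2.symm hs sn (h.Q_le h3.symm (h.WD hb (h.DR (h.DR (h.DR d1 k2.symm) hν) hc).symm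
      (by omega) hg)) (g1 s hs)) g1
  have hK : ∀ {r : G} {K : Subgroup G}, r ∈ 𝐙 x1 → r ≠ 1 → r ∈ K → K ≤ 𝐔 ν → ∀ g ∈ 𝐖 c, ⁅z, g⁆ ∈ K :=
    fun a1 a2 a3 a4 g hg => by
      by_contra e
      exact nU hν n1.symm ((h.ix4 q A1 a1 a2 a3).le (cz g (cQ hg)) e a4 (eU.comm' zν (le_Up hc hg)) t2)
  by_cases zq : z ∈ 𝐐 ν
  · have zc : z ∉ Cn 𝐕 ν := fun e => zc0 (mem_Cn.2 fun y hy => Cn.comm (h.cenW hb (by omega) q nw C1 k2 hν n2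
      (h.VV hb d4 (by omega) hz) e) (le_Up k1.symm hy))
    have zn' : z ∉ 𝐐 c := fun e => zc (h.genV nv Bν hν.symm hc nc.symm z1 e)
    obtain ⟨u, hu, u1⟩ := ncen zc
    obtain ⟨κ, hκ, nκ⟩ := h.exists_ne hc.symm
    refine h.nn h.eV hκ (h.VQ _) (h.V_ne_bot _) (h.Q_le hc zq) (h.sw_ne hc.symm hκ nκ.symm (h.Q_le hc zq) zν zn')
      fun g hg => ?_
    rw [conj_cm]
    exact mul_mem (le_Up hκ.symm (h.Zle Ac hc.symm (hK (cz u (cQ (le_Up hc.symm hu))) u1 (cm_symm (h.commV Bν hu zq))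
      ((h.ZV Bν).trans ((le_Up hc.symm).trans (le_Up hc))) g (le_Up hκ hg)))) hg
  · refine h.nn h.eW hc (h.WD hb (D.refl _) (by omega)) (h.W_ne_bot _) zν (h.sw_ne hν.symm hc nc.symm zν (QG _ z1) zq)
      fun g hg => ?_
    rw [conj_cm]
    exact mul_mem (le_Up hc.symm (le_Up hν.symm (hK r2 r1 r3 ((le_Up hν.symm).trans ((le_Up hc.symm).trans (le_Up hc)))
      g hg))) hg

theorem L2 (hb : Cb Γ G (m + 7)) (hm : m ≠ 1) (q : Q2 Γ G) (nv : NV Γ G) (B0 : ¬ IsA G x0) (C0 : ¬ IsA G y0)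
    (h1 : Γ.Adj x0 x1) (h2 : Γ.Adj x1 x2) (h3 : Γ.Adj x2 x3) (h4 : Γ.Adj x3 x4) (k1 : Γ.Adj y0 y1) (k2 : Γ.Adj y1 y2)
    (hd : D Γ m x4 y2) (cr : ¬ 𝐕 x0 ≤ 𝐐 y0) (kp : Γ.Adj y0 yp) (ne : yp ≠ y1) :
    (∃ ρ ∈ 𝐙 x3, ρ ∈ 𝐙 y0 ∧ ρ ≠ 1) ∧ ∃ κ, Γ.Adj yp κ ∧ κ ≠ y0 ∧ ¬ 𝐕 x2 ≤ 𝐐 κ := by
  have A1 := h.A_of h1.symm B0
  have B2 := h.B_of h2 A1
  have A3 := h.A_of h3.symm B2
  have Cp := h.A_of kp.symm C0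
  have d1 := h.DL h4 hd
  have d2 := h.DL h3 d1
  have dd : ∀ {k : ℕ} {a : V}, D Γ k a y2 → D Γ (k + 1 + 1) a y0 := fun k => h.DR (h.DR k k2.symm) k1.symm
  obtain ⟨κ, hκ, g, hg, gn⟩ := ex_Up (h.L1 hb hm q nv B0 C0 h1 h2 h3 h4 k1 k2 hd cr kp ne)
  have nκ : κ ≠ y0 := by rintro rfl; exact gn (h.VV hb (dd d2).symm (by omega) hg)
  obtain ⟨v, hv, r1⟩ : ∃ v ∈ 𝐕 x2, ⁅v, g⁆ ≠ 1 := by
    by_contra hc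
    push Not at hc
    exact gn (mem_Cn.2 fun y hy => cm_iff.1 (hc y hy))
  have g3 := h.VD hb (h.DR (h.DR (dd d1) kp) hκ).symm (by omega) hg
  have vp := h.VD hb (h.DR (dd d2) kp) (by omega) hv
  have r2 := h.commVa nv A3 h3.symm hv (QG _ g3) (h.Q_le h3.symm g3)
  have r3 := cm_symm (h.commVa nv Cp hκ hg (QG _ vp) (h.Q_le hκ vp))
  obtain ⟨z, hz, zn⟩ := SetLike.not_le_iff_exists.1 cr
  have z1 : z ∈ 𝐐 y1 := h.VD hb (h.DR (h.DL h1 (h.DL h2 d2)) k2.symm) (by omega) hz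
  have z0 := h.Q_le k1.symm z1
  have r4 : ⁅v, g⁆ ∈ 𝐙 y0 := by
    by_contra e
    exact h.sw_ne k1 kp ne.symm z0 (QG _ z1) zn (h.fixB' C0 kp r3 e z0
      (h.ZcQ r2 (h.VD hb (h.DR (h.D2 h1 h2) h3) (by omega) hz)))
  exact ⟨⟨_, r2, r4, r1⟩, κ, hκ, nκ, fun e => r1 (h.ZZ Cp hκ kp.symm nκ (cm_symm (h.commV (h.B_of hκ Cp) hg (e hv))) r4)⟩

theorem O7 (hb : Cb Γ G (m + 7)) (hm : m ≠ 1) (B0 : ¬ IsA G x0) (C0 : ¬ IsA G y0)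
    (h1 : Γ.Adj x0 x1) (h2 : Γ.Adj x1 x2) (h3 : Γ.Adj x2 x3) (h4 : Γ.Adj x3 x4) (k1 : Γ.Adj y0 y1) (k2 : Γ.Adj y1 y2)
    (hd : D Γ m x4 y2) (cr : ¬ 𝐕 x0 ≤ 𝐐 y0) : False := by
  have dd : ∀ {k : ℕ} {a : V}, D Γ k a y2 → D Γ (k + 1 + 1) a y0 := fun k => h.DR (h.DR k k2.symm) k1.symm
  have e1 : Γ.dist y2 x1 = m + 2 + 1 := by
    refine le_antisymm (h.DL h2 (h.DL h3 (h.DL h4 hd))).symm (not_lt.1 fun e => cr ?_)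
    exact h.VD hb (dd (h.DL h1 (D.symm (k := m + 2) (Nat.lt_succ_iff.1 e)))) (by omega)
  obtain ⟨y3, k3, e3⟩ := h.next e1
  have q := h.Oq5 (m := m + 2) hb B0 C0 h1 k1 k2 k3 (D.symm e3.le) cr
  have nv := h.Onv5 (m := m + 2) hb B0 C0 h1 k1 k2 k3 (D.symm e3.le) cr
  have e2 : Γ.dist x4 y0 = m + 1 + 1 := by
    refine le_antisymm (dd hd) (not_lt.1 fun e => cr ?_)
    exact h.VD hb (h.DL h1 (h.DL h2 (h.DL h3 (h.DL (k := m + 1) h4 (Nat.lt_succ_iff.1 e))))) (by omega)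
  obtain ⟨x5, h5, e5⟩ := h.next e2
  obtain ⟨x6, h6, e6⟩ := h.next e5
  obtain ⟨yp, kp, ne⟩ := h.exists_ne k1
  have Cp := h.A_of kp.symm C0
  obtain ⟨-, κ, hκ, nκ, cr'⟩ := h.L2 hb hm q nv B0 C0 h1 h2 h3 h4 k1 k2 hd cr kp ne
  obtain ⟨c, hc, nc⟩ := h.exists_ne hκ.symm
  obtain ⟨⟨ρ, r1, r2, r3⟩, -⟩ := h.L2 hb hm q nv (h.B_of h2 (h.A_of h1.symm B0)) (h.B_of hκ Cp) h3 h4 h5 h6 hκ.symm
    kp.symm e6.le cr' hc nc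
  obtain ⟨z, hz, zn⟩ := SetLike.not_le_iff_exists.1 cr
  have z1 : z ∈ 𝐐 y1 := h.VD hb (h.DR (h.DL h1 (h.DL h2 (h.DL h3 (h.DL h4 hd)))) k2.symm) (by omega) hz
  have z0 := h.Q_le k1.symm z1
  exact h.sw_ne k1 kp ne.symm z0 (QG _ z1) zn (h.fixB' C0 kp (h.Zle Cp hκ r2) (fun e => r3 (h.ZZ Cp hκ kp.symm nκ r2 e)) z0
    (h.ZcQ r1 (h.VD hb (h.DR (h.DR (h.DR (h.D2 h1 h2) h3) h4) h5) (by omega) hz)))

end MG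

end Cfsg.Agent.Sig.GA
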