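import Cfsg.Agent.BG.Base6
import Cfsg.Agent.Sig.FStar

/-! Large elementary abelian TI-subgroups (Timmesfeld): `Hyp U` (TI, maximal abelian normal in `N(U)`,
`F*(N(U)) = O₂`), `PP U = C_{O₂(N U)}(U)` is of class two with centre `U`; symmetry of `U' ≤ PP U` (`Hyp.symm`). -/

set_option linter.dupNamespace false
set_option linter.unusedSectionVars false
set_option linter.unusedVariables false

namespace Cfsg.Agent.Sig.LTI

open Subgroup Cfsg Cfsg.Agent.BG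

scoped notation "⟪" a ", " b "⟫" => a * b * a⁻¹ * b⁻¹

variable {G : Type*} [Group G] [Finite G] {V U U' U'' : Subgroup G} {a b c g p r u v x y : G}

def PP (U : Subgroup G) : Subgroup G := Op 2 N[U] ⊓ C[U]

theorem PP_cj (g : G) (U : Subgroup G) : PP (cj g U) = cj g (PP U) := by
  rw [PP, PP, N_cj, C_cj, cj_inf, Op, pcoreJ]

theorem PP_norm (hx : x ∈ N[U]) (hp : p ∈ PP U) : x * p * x⁻¹ ∈ PP U := by
  have := conj_mem_cj x hp
  rwa [← PP_cj, mem_norm.1 hx] at this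

theorem PP_normal (U : Subgroup G) : PP U ⊴ N[U] :=
  ⟨inf_le_left.trans (pcore_sub _ _), le_norm_iff.2 fun _ hx _ hp => PP_norm hx hp⟩

theorem cen (hp : p ∈ PP U) (hu : u ∈ U) : p * u = u * p := (mem_cent.1 hp.2 u hu).symm

theorem PP_N (hp : p ∈ PP U) : p ∈ N[U] := (PP_normal U).le hp

theorem N_of_cen (h : ∀ u ∈ U, x * u = u * x) : x ∈ N[U] :=
  mem_norm_of_cj_le fun y hy => by
    obtain ⟨u, hu, rfl⟩ := mem_cj'.1 hy
    rw [h u hu, mul_inv_cancel_right]; exact hu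

theorem cm_one : ⟪a, b⟫ = 1 ↔ a * b = b * a := by
  rw [mul_inv_eq_one, mul_inv_eq_iff_eq_mul]

structure Hyp (U : Subgroup G) : Prop where
  ab : Abelem 2 U
  cc : N[U] ⊓ C[Op 2 N[U]] ≤ Op 2 N[U]
  mx : ∀ A, U ≤ A → A ⊴ N[U] → IsMulCommutative A → A = U
  ti : ∀ x, cj x U = U ∨ cj x U ⊓ U = ⊥

namespace Hyp

theorem cj (h : Hyp U) (g : G) : Hyp (cj g U) where
  ab := abelemJ g h.ab
  cc := by rw [N_cj, Op, pcoreJ, C_cj, ← cj_inf]; exact cj_mono g h.cc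
  mx A h1 h2 h3 := by
    rw [← cj_cj_inv g A, h.mx (BG.cj g⁻¹ A) (cj_le_iff.1 h1) ?_ (abelian_cj _ h3)]
    have := h2.cj g⁻¹
    rwa [N_cj, cj_inv_cj] at this
  ti x := by
    have e : BG.cj x (BG.cj g U) = BG.cj g (BG.cj (g⁻¹ * x * g) U) := by
      rw [← cj_mul, ← cj_mul]; congr 1; group
    rw [e, ← cj_inf, cj_inj, cj_eq_bot]; exact h.ti _

variable (h : Hyp U)
include h

theorem sq (hu : u ∈ U) : u * u = 1 := by rw [← pow_two]; exact h.ab.pow hu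

theorem le : U ≤ PP U :=
  le_inf (pcore_max ⟨le_normalizer, le_rfl⟩ (IsPGroup.pi h.ab.pg)) h.ab.cent

theorem mxT (T : Set G) (h1 : T ⊆ PP U) (h2 : ∀ m ∈ N[U], ∀ t ∈ T, m * t * m⁻¹ ∈ T)
    (h3 : ∀ s ∈ T, ∀ t ∈ T, s * t = t * s) : T ⊆ U := by
  have hT : closure T ≤ PP U := (closure_le _).2 h1
  have n : N[U] ≤ N[closure T] := le_norm_of_cj_le fun m hm => by
    rw [cj_closure]; exact closure_mono (by rintro _ ⟨t, ht, rfl⟩; exact h2 m hm t ht)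
  have c : closure T ≤ C[closure T] := by
    rw [centralizer_closure, closure_le]
    exact fun s hs t ht => h3 t ht s hs
  have := h.mx (U ⊔ closure T) le_sup_left
    ((⟨le_normalizer, le_rfl⟩ : U ⊴ N[U]).sup ⟨hT.trans (PP_normal U).le, n⟩)
    (le_centralizer_iff_isMulCommutative.1 (sup_le
      (le_cent_sup h.ab.cent (le_centralizer_iff.1 (hT.trans inf_le_right)))
      (le_cent_sup (hT.trans inf_le_right) c)))
  exact fun t ht => this ▸ mem_sup_right (subset_closure ht)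

theorem zen (hp : p ∈ PP U) (hc : ∀ r ∈ PP U, p * r = r * p) : p ∈ U :=
  h.mxT {p | p ∈ PP U ∧ ∀ r ∈ PP U, p * r = r * p} (fun _ e => e.1)
    (fun m hm t ht => ⟨PP_norm hm ht.1, fun r hr => by
      have := ht.2 _ (PP_norm (inv_mem hm) hr)
      calc _ = m * (t * (m⁻¹ * r * m⁻¹⁻¹)) * m⁻¹ := by group
        _ = _ := by rw [this]; group⟩) (fun s hs t ht => hs.2 t ht.1) ⟨hp, hc⟩

theorem sq_cen (hc : ∀ u ∈ U, c * u = u * c) (e : ⟪c, x⟫ ∈ U) : c * c * x = x * (c * c) := by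
  have h1 := hc _ e
  have h2 := h.sq e
  calc _ = c * ⟪c, x⟫ * x * c := by group
    _ = ⟪c, x⟫ * ⟪c, x⟫ * x * (c * c) := by rw [h1]; group
    _ = _ := by rw [h2, one_mul]

theorem faith (hc : ∀ u ∈ U, c * u = u * c) (e : ∀ p ∈ PP U, ⟪c, p⟫ ∈ U) : c ∈ PP U := by
  let D : Subgroup G :=
    { carrier := {c | (∀ u ∈ U, c * u = u * c) ∧ ∀ p ∈ PP U, ⟪c, p⟫ ∈ U}
      one_mem' := ⟨fun u _ => by group, fun p _ => by simp⟩
      mul_mem' := fun {a b} ha hb => ⟨fun u hu => by rw [mul_assoc, hb.1 u hu, ← mul_assoc, ha.1 u hu, mul_assoc],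
        fun p hp => by
          have := mul_mem (hb.2 p hp) (ha.2 p hp)
          have e := ha.1 _ (hb.2 p hp)
          have : ⟪(a * b), p⟫ = a * ⟪b, p⟫ * (p * a⁻¹ * p⁻¹) := by group
          rw [this, e]; convert ‹_ * _ ∈ U› using 1; group⟩
      inv_mem' := fun {a} ha => ⟨fun u hu => by
          rw [inv_mul_eq_iff_eq_mul, ← mul_assoc, ha.1 u hu, mul_inv_cancel_right], fun p hp => by
        have := inv_mem (ha.2 p hp)
        have e := ha.1 _ this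
        have e2 : ⟪a⁻¹, p⟫ = a⁻¹ * (⟪a, p⟫⁻¹ * a) := by group
        rw [e2, ← e, inv_mul_cancel_left]; exact this⟩ }
  have hQ := pcore_normal {2} N[U]
  have hD : D ⊴ N[U] := ⟨fun d hd => N_of_cen hd.1, le_norm_iff.2 fun m hm d hd => ⟨fun u hu => by
      have := hd.1 _ (le_norm_iff.1 le_rfl _ (inv_mem hm) u hu)
      calc _ = m * (d * (m⁻¹ * u * m⁻¹⁻¹)) * m⁻¹ := by group
        _ = _ := by rw [this]; group, fun p hp => by
      have := le_norm_iff.1 le_rfl m hm _ (hd.2 _ (PP_norm (inv_mem hm) hp))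
      convert this using 1; group⟩⟩
  have h2 : IsPGroup 2 D := fun d => by
    have d1 : ∀ p ∈ PP U, d.1 * d.1 * p = p * (d.1 * d.1) := fun p hp => h.sq_cen d.2.1 (d.2.2 p hp)
    have dd := mul_mem d.2 d.2
    set e := d.1 * d.1 with he
    have d2 : e * e ∈ Op 2 N[U] := h.cc ⟨hD.le (mul_mem dd dd), mem_cent.2 fun q hq => (h.sq_cen dd.1 ?_).symm⟩
    · obtain ⟨k, hk⟩ := Op_pgroup 2 N[U] ⟨_, d2⟩
      refine ⟨k + 2, Subtype.ext ?_⟩
      have := congrArg Subtype.val hk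
      simp only [SubmonoidClass.coe_pow, OneMemClass.coe_one] at this ⊢
      rw [pow_add, mul_comm, pow_mul, ← this, he]; congr 1; simp [pow_succ, mul_assoc]
    have c1 : ∀ p ∈ PP U, ⟪e, q⟫ * p = p * ⟪e, q⟫ := fun p hp => by
      have h1 := d1 _ (PP_norm (inv_mem (hQ.le hq)) hp)
      have h2 := d1 p hp
      calc _ = e * q * e⁻¹ * (q⁻¹ * p * q⁻¹⁻¹ * e) * e⁻¹ * q⁻¹ := by group
        _ = e * p * q * e⁻¹ * q⁻¹ := by rw [← h1]; group
        _ = _ := by rw [h2]; group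
    refine h.zen ⟨Subgroup.mul_mem _ (hQ.conj_mem (hD.le dd) hq) (Subgroup.inv_mem _ hq), mem_cent.2 fun u hu => (c1 u (h.le hu)).symm⟩ c1
  exact ⟨pcore_max hD (IsPGroup.pi h2) (show c ∈ D from ⟨hc, e⟩), mem_cent.2 fun u hu => (hc u hu).symm⟩

theorem com (ha : a ∈ PP U) (hb : b ∈ PP U) : ⟪a, b⟫ ∈ U := by
  let Z : Set G := {z | z ∈ PP U ∧ ∀ p ∈ PP U, ⟪p, z⟫ ∈ U}
  have Zn : ∀ m ∈ N[U], ∀ z ∈ Z, m * z * m⁻¹ ∈ Z := fun m hm z hz => ⟨PP_norm hm hz.1, fun p hp => by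
    have := le_norm_iff.1 le_rfl m hm _ (hz.2 _ (PP_norm (inv_mem hm) hp))
    convert this using 1; group⟩
  let K := PP U ⊓ centralizer Z
  have Kn : ∀ m ∈ N[U], ∀ k ∈ K, m * k * m⁻¹ ∈ K := fun m hm k hk => ⟨PP_norm hm hk.1, fun z hz => by
    have := hk.2 _ (Zn _ (inv_mem hm) z hz)
    calc _ = m * (m⁻¹ * z * m⁻¹⁻¹ * k) * m⁻¹ := by group
      _ = _ := by rw [this]; group⟩
  have KZ := h.mxT (K ∩ Z) (fun _ e => e.1.1) (fun m hm t ht => ⟨Kn m hm t ht.1, Zn m hm t ht.2⟩)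
    (fun s hs t ht => ht.1.2 s hs.2)
  have hP : IsPGroup 2 (PP U) := IsPGroup.sub (Op_pgroup 2 _) inf_le_left
  have key : ∀ n, ∀ L : Subgroup G, #L = n → L ≤ K → PP U ≤ N[L] → L ≤ U := fun n => by
    induction n using Nat.strong_induction_on with
    | _ n ih =>
    intro L e hL hn
    by_cases L0 : L = ⊥
    · exact L0 ▸ bot_le
    have lt := pgroup_comm_proper hP (IsPGroup.sub hP (hL.trans inf_le_left)) hn L0
    have := ih _ (e ▸ proper_card lt) _ rfl (lt.le.trans hL)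
      ((NormalIn.comm ⟨hL.trans inf_le_left, hn⟩ ⟨le_rfl, le_normalizer⟩).norm)
    refine fun l hl => KZ ⟨hL hl, (hL hl).1, fun p hp => ?_⟩
    have := inv_mem (this (commutator_mem_commutator hl hp))
    rw [commutatorElement_def] at this
    convert this using 1; group
  refine key _ K rfl le_rfl (le_norm_iff.2 fun m hm => Kn m (PP_N hm))
    ⟨(PP U).mul_mem (PP_norm (PP_N ha) hb) (inv_mem hb), fun z hz => ?_⟩
  have f : ∀ a ∈ PP U, ∀ b ∈ PP U, a * b * z * (a * b)⁻¹ = ⟪b, z⟫ * ⟪a, z⟫ * z := fun a ha b hb => by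
    calc _ = a * ⟪b, z⟫ * z * a⁻¹ := by group
      _ = _ := by rw [cen ha (hz.2 b hb)]; group
  have f1 := f _ (inv_mem ha) _ (inv_mem hb)
  rw [cen (h.le (hz.2 _ (inv_mem hb))) (hz.2 _ (inv_mem ha)), ← f _ (inv_mem hb) _ (inv_mem ha)] at f1
  calc _ = a * b * (b⁻¹ * a⁻¹ * z * (b⁻¹ * a⁻¹)⁻¹) * a⁻¹ * b⁻¹ := by group
    _ = _ := by rw [← f1]; group

theorem sq_mem (ha : a ∈ PP U) : a * a ∈ U :=
  h.zen (mul_mem ha ha) fun r hr => h.sq_cen (fun u hu => cen ha hu) (h.com ha hr)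

theorem norm_of (hu : u ∈ U) (u1 : u ≠ 1) (e : x * u * x⁻¹ ∈ U) : x ∈ N[U] :=
  mem_norm.2 ((h.ti x).resolve_right fun e' => u1 (by
    have : x * u * x⁻¹ ∈ BG.cj x U ⊓ U := ⟨conj_mem_cj x hu, e⟩
    rw [e', mem_bot] at this
    simpa using this))

theorem norm_of' (hu : u ∈ U) (u1 : u ≠ 1) (e : x * u = u * x) : x ∈ N[U] :=
  h.norm_of hu u1 (by rwa [e, mul_inv_cancel_right])

theorem dis (ne : BG.cj g U ≠ U) (hu : u ∈ U) (hu' : u ∈ BG.cj g U) : u = 1 := by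
  have : u ∈ BG.cj g U ⊓ U := ⟨hu', hu⟩
  rwa [(h.ti g).resolve_left ne, mem_bot] at this

/-- a conjugate normalising `U` centralises it -/
theorem cen_of_norm (ne : BG.cj g U ≠ U) (hn : BG.cj g U ≤ N[U]) : BG.cj g U ≤ C[U] := by
  have h' := h.cj g
  have c1 : ∀ a ∈ BG.cj g U, a ≠ 1 → ∀ u ∈ U, u * a = a * u → u ∈ C[BG.cj g U] := fun a ha a1 u hu e =>
    mem_cent.2 fun b hb => cm_one.1 (h.dis ne (mul_mem (le_norm_iff.1 hn b hb u hu) (inv_mem hu)) (by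
      have := mul_mem hb (le_norm_iff.1 le_rfl u (h'.norm_of' ha a1 e) _ (inv_mem hb))
      convert this using 1; group))
  refine le_centralizer_iff.1 fun u hu => by_contra fun nu => ?_
  have m : ∀ a ∈ BG.cj g U, ⟪a, u⟫ ∈ U ⊓ C[BG.cj g U] := fun a ha => by
    have m1 : ⟪a, u⟫ ∈ U := mul_mem (le_norm_iff.1 hn a ha u hu) (inv_mem hu)
    by_cases a1 : a = 1
    · simp [a1]
    refine ⟨m1, c1 a ha a1 _ m1 ?_⟩
    have e1 : a⁻¹ = a := inv_eq_of_mul_eq_one_right (h'.sq ha)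
    have e2 : ⟪a, u⟫⁻¹ = ⟪a, u⟫ := inv_eq_of_mul_eq_one_right (h.sq m1)
    calc _ = ⟪a, u⟫⁻¹ * a := by rw [e2]
      _ = u * a * u⁻¹ := by group
      _ = a * (a⁻¹ * u * a * u⁻¹) := by group
      _ = _ := by rw [e1]
  have := Nat.card_le_card_of_injective (fun a : BG.cj g U => (⟨_, m a.1 a.2⟩ : (U ⊓ C[BG.cj g U] : Subgroup G)))
    fun a b e => Subtype.ext (by_contra fun ne' => nu (c1 _ (mul_mem (inv_mem b.2) a.2)
      (fun e' => ne' (inv_mul_eq_one.1 e').symm) u hu (by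
        have e : a.1 * u * a.1⁻¹ = b.1 * u * b.1⁻¹ := mul_right_cancel (congrArg Subtype.val e)
        calc _ = b.1⁻¹ * (b.1 * u * b.1⁻¹) * a.1 := by group
          _ = _ := by rw [← e]; group)))
  have lt := proper_card (lt_of_le_of_ne (inf_le_left : U ⊓ C[BG.cj g U] ≤ U) fun e => nu (e.ge hu).2)
  rw [card_cj] at this
  omega

end Hyp

/-- `U'` is a conjugate of `U` inside `PP U`. -/
structure Lt (U U' : Subgroup G) : Prop where
  hyp : Hyp U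
  s : ∃ g, U' = cj g U
  ne : U' ≠ U
  le : U' ≤ PP U

namespace Lt

theorem cj (h : Lt U U') (g : G) : Lt (cj g U) (cj g U') where
  hyp := h.hyp.cj g
  s := by
    obtain ⟨x, rfl⟩ := h.s
    exact ⟨g * x * g⁻¹, by rw [← cj_mul, ← cj_mul, inv_mul_cancel_right]⟩
  ne e := h.ne (cj_inj.1 e)
  le := PP_cj g U ▸ cj_mono g h.le

variable (h : Lt U U')
include h

theorem cjN (hg : g ∈ N[U]) : Lt U (BG.cj g U') := by
  have := h.cj g
  rwa [mem_norm.1 hg] at this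

theorem hyp' : Hyp U' := by obtain ⟨g, rfl⟩ := h.s; exact h.hyp.cj g

theorem card : #U' = #U := by obtain ⟨g, rfl⟩ := h.s; exact card_cj _ _

theorem dis (hu : u ∈ U) (hu' : u ∈ U') : u = 1 := by obtain ⟨g, rfl⟩ := h.s; exact h.hyp.dis h.ne hu hu'

theorem ex1 : ∃ u ∈ U, u ≠ 1 := by
  obtain ⟨g, rfl⟩ := h.s
  by_contra! e
  have : U = ⊥ := eq_bot_iff.2 e
  exact h.ne (by rw [this, cj_bot])

theorem ex1' : ∃ u ∈ U', u ≠ 1 := by
  obtain ⟨u, hu, u1⟩ := h.ex1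
  obtain ⟨g, rfl⟩ := h.s
  exact ⟨_, conj_mem_cj g hu, by simpa using u1⟩

theorem comm (hu : u ∈ U) (ha : a ∈ U') : a * u = u * a := cen (h.le ha) hu

theorem B (hp : p ∈ PP U) (ha : a ∈ U') (a1 : a ≠ 1) (e : p * a = a * p) (hb : b ∈ U') : p * b = b * p :=
  cm_one.1 (h.dis (h.hyp.com hp (h.le hb))
    (mul_mem (le_norm_iff.1 le_rfl p (h.hyp'.norm_of' ha a1 e) b hb) (inv_mem hb)))

theorem T' (hp : p ∈ PP U) (ha : a ∈ U') (e : p * a ≠ a * p) (hu : u ∈ U) : ∃ b ∈ U', ⟪p, b⟫ = u := by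
  obtain ⟨b, hb⟩ := (Function.Injective.bijective_of_nat_card_le
    (f := fun b : U' => (⟨_, h.hyp.com hp (h.le b.2)⟩ : U)) (fun b c e' => Subtype.ext (by_contra fun ne =>
      e (h.B hp (mul_mem (inv_mem c.2) b.2) (fun e'' => ne (inv_mul_eq_one.1 e'').symm) (by
        have e' : ⟪p, b.1⟫ = ⟪p, c.1⟫ := congrArg Subtype.val e'
        calc _ = c.1⁻¹ * (⟪p, c.1⟫⁻¹ * p) * b.1 := by group
          _ = _ := by rw [← e']; group) ha))) h.card.ge).2 ⟨u, hu⟩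
  exact ⟨b, b.2, congrArg Subtype.val hb⟩

theorem ex : ∃ U'', Lt U U'' ∧ ∀ a ∈ U', a ≠ 1 → ∀ b ∈ U'', b ≠ 1 → b * a ≠ a * b := by
  obtain ⟨m, hm, a, ha, b, hb, e⟩ : ∃ m ∈ N[U], ∃ a ∈ U', ∃ b ∈ BG.cj m U', a * b ≠ b * a := by
    by_contra! hc
    obtain ⟨a, ha, a1⟩ := h.ex1'
    refine a1 (h.dis (h.hyp.mxT {t | ∃ m ∈ N[U], t ∈ BG.cj m U'} (fun t ⟨m, hm, ht⟩ => (h.cjN hm).le ht)
      (fun n hn t ⟨m, hm, ht⟩ => ⟨n * m, mul_mem hn hm, cj_mul n m U' ▸ conj_mem_cj n ht⟩)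
      (fun s ⟨m, hm, hs⟩ t ⟨n, hn, ht⟩ => ?_) ⟨1, one_mem _, by rwa [cj_one]⟩) ha)
    have := hc (m⁻¹ * n) (mul_mem (inv_mem hm) hn) _ (mem_cj.1 hs) (m⁻¹ * t * m) (by
      rw [mem_cj] at ht ⊢; convert ht using 1; group)
    calc _ = m * (m⁻¹ * s * m * (m⁻¹ * t * m)) * m⁻¹ := by group
      _ = _ := by rw [this]; group
  have h2 := h.cjN hm
  refine ⟨_, h2, fun a' ha' a1 b' hb' b1 e' => e ?_⟩
  exact h2.B (h.le ha) hb' b1 (h.B (h2.le hb') ha' a1 e' ha).symm hb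

theorem T (ha : a ∈ U') (a1 : a ≠ 1) (hu : u ∈ U) : ∃ p ∈ PP U, ⟪p, a⟫ = u := by
  obtain ⟨U'', h2, e⟩ := h.ex
  obtain ⟨b, hb, b1⟩ := h2.ex1'
  obtain ⟨c, hc, e'⟩ := h2.T' (h.le ha) hb (e a ha a1 b hb b1).symm (inv_mem hu)
  exact ⟨c, h2.le hc, by rw [← inv_inj, ← e']; group⟩

theorem eq_of (hu : u ∈ U) (u1 : u ≠ 1) (e : y * u * y⁻¹ ∈ U') : BG.cj y U = U' := by
  obtain ⟨g, rfl⟩ := h.s
  have := h.hyp.norm_of (x := g⁻¹ * y) hu u1 (by rw [mem_cj] at e; convert e using 1; group)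
  rw [← mul_inv_cancel_left g y, cj_mul, mem_norm.1 this]

theorem symm1 (hx : x ∈ PP U') (hu : u ∈ U) (m : ⟪x, u⟫ ∈ U') (n1 : ⟪x, u⟫ ≠ 1) : U ≤ PP U' := by
  obtain ⟨b, hb, e⟩ := h.T m n1 hu
  have u1 : u ≠ 1 := by rintro rfl; simp at n1
  have c := h.comm hu m
  set a := ⟪x, u⟫ with ha
  have e1 : BG.cj (b⁻¹ * x) U = U' := h.eq_of hu u1 (by
    have : b⁻¹ * x * u * (b⁻¹ * x)⁻¹ = b⁻¹ * (a * u) * b := by rw [ha]; group
    rw [this, c, ← e]; convert m using 1; group)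
  have e2 := (h.cj x).le
  rw [mem_norm.1 (PP_N hx)] at e2
  have e3 := cj_mono b⁻¹ e2
  rw [← PP_cj, ← cj_mul, e1] at e3
  intro w hw
  obtain ⟨c, hc, rfl⟩ := h.T' (inv_mem hb) m (fun e' => u1 (by
    rw [← e, cm_one]
    calc _ = b * (a * b⁻¹) * b := by group
      _ = _ := by rw [← e']; group)) hw
  exact mul_mem (e3 (conj_mem_cj _ hc)) (inv_mem (h.hyp'.le hc))

/-- the centre of `C_{PP U}(U')` lies in `U U'` -/
theorem cen0 (hy : y ∈ PP U) (c : ∀ r ∈ PP U, r ∈ C[U'] → r * y = y * r) : ∃ a ∈ U', a⁻¹ * y ∈ U := by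
  obtain ⟨U'', h2, e⟩ := h.ex
  obtain ⟨b, hb, b1⟩ := h2.ex1'
  obtain ⟨a, ha, a1⟩ := h.ex1'
  obtain ⟨d, hd, e1⟩ := h.T' (h2.le hb) ha (e a ha a1 b hb b1) (h.hyp.com (h2.le hb) hy)
  have z := mul_mem (inv_mem (h.le hd)) hy
  have e2 : d⁻¹ * y * b = b * (d⁻¹ * y) := by
    calc _ = d⁻¹ * (⟪b, y⟫⁻¹ * b) * y := by group
      _ = _ := by rw [← e1]; group
  refine ⟨d, hd, h.hyp.zen z fun p hp => ?_⟩
  obtain ⟨f, hf, e3⟩ := h2.T' (h.le ha) hb (e a ha a1 b hb b1).symm (h.hyp.com (h.le ha) hp)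
  have z2 := mul_mem (inv_mem (h2.le hf)) hp
  have e4 : f⁻¹ * p * a = a * (f⁻¹ * p) := by
    calc _ = f⁻¹ * (⟪a, p⟫⁻¹ * a) * p := by group
      _ = _ := by rw [← e3]; group
  have e5 := c _ z2 (mem_cent.2 fun t ht => (h.B z2 ha a1 e4 ht).symm)
  have e6 := h.B z2 ha a1 e4 (inv_mem hd)
  have e7 := h2.B z hb b1 e2 hf
  calc _ = d⁻¹ * y * f * (f⁻¹ * p) := by group
    _ = f * d⁻¹ * (y * (f⁻¹ * p)) := by rw [e7]; group
    _ = f * (d⁻¹ * (f⁻¹ * p)) * y := by rw [← e5]; group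
    _ = _ := by rw [← e6]; group

theorem symm : U ≤ PP U' := by
  by_contra hn
  have h' := h.hyp'
  have s1 : ∀ x ∈ PP U', ∀ u ∈ U, ⟪x, u⟫ ∈ U' → x * u = u * x := fun x hx u hu m =>
    cm_one.1 (by_contra fun n1 => hn (h.symm1 hx hu m n1))
  have s2 : ∀ u ∈ U, u ∈ PP U' → u = 1 := fun u hu hu' =>
    h.dis hu (h'.zen hu' fun x hx => (s1 x hx u hu (h'.com hx hu')).symm)
  have nU : ∀ u ∈ U, u ∈ N[U'] := fun u hu => N_of_cen fun a ha => (h.comm hu ha).symm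
  have cR : ∀ r ∈ N[U'], ∀ x ∈ PP U', ⟪r, x⟫ ∈ PP U' := fun r hr x hx => mul_mem (PP_norm hr hx) (inv_mem hx)
  obtain ⟨v, hv, v1⟩ := h.ex1
  -- elements of `PP U'` commuting with `v` centralise `U`
  have s3 : ∀ x ∈ PP U', x * v = v * x → ∀ u ∈ U, x * u = u * x := fun x hx e u hu => cm_one.1 (s2 _
    (mul_mem (le_norm_iff.1 le_rfl x (h.hyp.norm_of' hv v1 e) u hu) (inv_mem hu)) (by
      have := inv_mem (cR u (nU u hu) x hx); convert this using 1; group))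
  have s4 : ∀ y ∈ PP U, y ∈ PP U' → y ∈ U' := fun y hy hy' => by
    obtain ⟨a, ha, e⟩ := h.cen0 hy fun r hr rc => cm_one.1 (s2 _ (h.hyp.com hr hy)
      (cR r (N_of_cen fun a ha => (mem_cent.1 rc a ha).symm) y hy'))
    rw [← mul_inv_cancel_left a y, s2 _ e (mul_mem (inv_mem (h'.le ha)) hy'), mul_one]; exact ha
  have s5 : ∀ a ∈ PP U, a ∈ C[U'] → ∀ x ∈ PP U', x * v = v * x → ⟪a, x⟫ ∈ U' := fun a ha ac x hx e =>
    s4 _ (by
      have := mul_mem ha (PP_norm (h.hyp.norm_of' hv v1 e) (inv_mem ha)); convert this using 1; group)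
      (cR a (N_of_cen fun a ha => (mem_cent.1 ac a ha).symm) x hx)
  have s6 : ∀ x ∈ PP U', ⟪v, x⟫ * v = v * ⟪v, x⟫ := fun x hx => s1 _ (cR v (nU v hv) x hx) v hv (by
    have e : v⁻¹ = v := inv_eq_of_mul_eq_one_right (h.hyp.sq hv)
    have := h'.sq_mem (cR v (nU v hv) x hx)
    convert this using 1
    calc _ = ⟪v, x⟫ * (v * x * v * x⁻¹) * (v⁻¹ * v⁻¹) := by group
      _ = ⟪v, x⟫ * (v * x * v⁻¹ * x⁻¹) * (v * v) := by rw [e]
      _ = _ := by rw [h.hyp.sq hv, mul_one])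
  have s7 : ∀ a ∈ PP U, a ∈ C[U'] → ∀ x ∈ PP U', ⟪a, x⟫ * v = v * ⟪a, x⟫ := fun a ha ac x hx => by
    have aN : a ∈ N[U'] := N_of_cen fun b hb => (mem_cent.1 ac b hb).symm
    have t := cR v (nU v hv) x hx
    have d := cR a aN x hx
    refine s1 _ d v hv ?_
    have := inv_mem (mul_mem (s5 a ha ac _ t (s6 x hx)) (h'.com t d))
    have e := cen ha hv
    convert this using 1
    have e1 : v * a * v⁻¹ = a := by rw [← e]; group
    calc _ = ((v * a * v⁻¹) * (v * x * v⁻¹) * (v * a * v⁻¹)⁻¹ * (v * x * v⁻¹)⁻¹ * ⟪a, x⟫⁻¹)⁻¹ := by group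
      _ = _ := by rw [e1]; group
  have s8 : ∀ a ∈ PP U, a ∈ C[U'] → ∀ b ∈ PP U, b ∈ C[U'] → a * b = b * a := fun a ha ac b hb bc => by
    have m := h.hyp.com (inv_mem ha) (inv_mem hb)
    have := s2 _ m (h'.faith (fun w hw => (h.comm m hw).symm) fun x hx => ?_)
    · rw [cm_one, ← mul_inv_rev, ← mul_inv_rev, inv_inj] at this; exact this.symm
    have aN : a ∈ N[U'] := N_of_cen fun b hb => (mem_cent.1 ac b hb).symm
    have bN : b ∈ N[U'] := N_of_cen fun b hb => (mem_cent.1 bc b hb).symm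
    have m1 := mul_mem (mul_mem (s5 a ha ac _ (cR b bN x hx) (s7 b hb bc x hx)) (h'.com (cR b bN x hx) (cR a aN x hx)))
      (inv_mem (s5 b hb bc _ (cR a aN x hx) (s7 a ha ac x hx)))
    have := le_norm_iff.1 le_rfl _ (inv_mem (mul_mem bN aN)) _ m1
    convert this using 1; group
  have s9 : ∀ p ∈ PP U, (∀ a ∈ U', p * a = a * p) → ∃ d ∈ U', ∃ u ∈ U, p = d * u := fun p hp e => by
    obtain ⟨d, hd, m⟩ := h.cen0 hp fun r hr rc => s8 r hr rc p hp (mem_cent.2 fun a ha => (e a ha).symm)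
    exact ⟨d, hd, _, m, by group⟩
  refine v1 (s2 v hv (h'.faith (fun a ha => (h.comm hv ha).symm) fun x hx => ?_))
  have t := cR v (nU v hv) x hx
  have tU := s3 _ t (s6 x hx)
  refine s4 _ (h.hyp.faith tU fun p hp => ?_) t
  generalize ⟪v, x⟫ = c at t tU
  have hδ : ⟪c, p⟫ ∈ PP U := mul_mem (PP_norm (N_of_cen tU) hp) (inv_mem hp)
  obtain ⟨d, hd, u, hu, e⟩ := s9 _ hδ fun a ha => by
    have e1 := tU _ (h.hyp.com hp (h.le ha))
    have e2 := cen hδ (h.hyp.com hp (h.le ha))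
    have e3 : c * a * c⁻¹ = a := by rw [cen t ha]; group
    rw [← cm_one, ← mul_right_inj ⟪p, a⟫, mul_one]
    calc _ = ⟪p, a⟫ * ⟪c, p⟫ * a * ⟪c, p⟫⁻¹ * a⁻¹ := by group
      _ = c * p * c⁻¹ * a * (c * p * c⁻¹)⁻¹ * a⁻¹ := by rw [← e2]; group
      _ = c * p * c⁻¹ * (c * a * c⁻¹) * (c * p * c⁻¹)⁻¹ * (c * a * c⁻¹)⁻¹ := by rw [e3]
      _ = c * ⟪p, a⟫ * c⁻¹ := by group
      _ = _ := by rw [e1]; group
  by_cases d1 : d = 1
  · rwa [e, d1, one_mul]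
  have e1 : d * u * p * (d * u * p) = p * p := by
    calc _ = c * (p * p) * c⁻¹ := by rw [← e]; group
      _ = _ := by rw [tU _ (h.hyp.sq_mem hp)]; group
  have e2 : p * d = d * p := by
    have i1 : d⁻¹ = d := inv_eq_of_mul_eq_one_right (h'.sq hd)
    have i2 : d * u * p * d * u = p := mul_right_cancel (b := p) (by rw [← e1]; group)
    have i3 := cen (mul_mem hp (h.le hd)) hu
    calc _ = d⁻¹ * (d * (u * u) * p * d) := by rw [h.hyp.sq hu]; group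
      _ = d⁻¹ * (d * u * (u * (p * d))) := by group
      _ = d⁻¹ * (d * u * p * d * u) := by rw [← i3]; group
      _ = _ := by rw [i2, i1]
  obtain ⟨d', hd', u', hu', rfl⟩ := s9 p hp fun a ha => h.B hp hd d1 e2 ha
  have : c * (d' * u') = d' * u' * c := by rw [← mul_assoc, cen t hd', mul_assoc, tU _ hu', mul_assoc]
  rw [cm_one.2 this]; exact one_mem _

theorem swap : Lt U' U where
  hyp := h.hyp'
  s := by obtain ⟨g, rfl⟩ := h.s; exact ⟨g⁻¹, (cj_inv_cj _ _).symm⟩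
  ne := h.ne.symm
  le := h.symm

/-- `O₂(N U)` centralises `U` -/
theorem PP_eq : PP U = Op 2 N[U] := by
  have hQ := pcore_normal {2} N[U]
  obtain ⟨v, hv, v1⟩ := h.ex1
  obtain ⟨a, ha, a1⟩ := h.ex1'
  have c : ∀ u ∈ U, u ≠ 1 → IsConj a u := fun u hu u1 => by
    obtain ⟨p, -, e⟩ := h.T ha a1 hu
    obtain ⟨r, -, e'⟩ := h.swap.T hu u1 ha
    refine (isConj_iff.2 ⟨p, (?_ : _ = u * a)⟩).trans (isConj_iff.2 ⟨r, ?_⟩).symm
    · rw [← e]; group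
    · rw [← h.comm hu ha, ← e']; group
  obtain ⟨z, hz, z1⟩ := (bot_or_exists_ne_one _).resolve_left
    (pgroup_cent_ne_bot (Op_pgroup 2 N[U]) h.hyp.ab.pg hQ.le fun e => v1 (by rwa [e, mem_bot] at hv))
  refine inf_eq_left.2 (le_centralizer_iff.1 fun u hu => ?_)
  by_cases u1 : u = 1
  · exact u1 ▸ one_mem _
  obtain ⟨g, rfl⟩ := isConj_iff.1 ((c z hz.1 z1).symm.trans (c u hu u1))
  exact le_norm_iff.1 (norms_cent hQ.norm) g (h.hyp.norm_of hz.1 z1 hu) z hz.2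

end Lt


end Cfsg.Agent.Sig.LTI
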